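import Mathlib.GroupTheory.GroupAction.ConjAct
import Mathlib.GroupTheory.Index
import Mathlib.GroupTheory.Subgroup.Centralizer
import Mathlib.Tactic

/-!
`|N : C_N(x)|` is the number of `N`-conjugates of `x`.
-/
set_option autoImplicit false

namespace Cfsg.Agent.H90

theorem relIndex_centralizer_eq_ncard {G : Type*} [Group G] (N : Subgroup G) (x : G) :
    (Subgroup.centralizer ({x} : Set G)).relIndex N = Set.ncard {y : G | ∃ n ∈ N, y = n * x * n⁻¹} := by
  have key : ∀ a b : N, (QuotientGroup.mk a : N ⧸ (Subgroup.centralizer ({x} : Set G)).subgroupOf N) =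
      QuotientGroup.mk b ↔ (a : G) * x * (a : G)⁻¹ = b * x * (b : G)⁻¹ := by
    intro a b
    rw [QuotientGroup.eq, Subgroup.mem_subgroupOf, Subgroup.mem_centralizer_singleton_iff]
    simp only [Subgroup.coe_mul, Subgroup.coe_inv]
    constructor
    · intro h
      have : (b : G) = a * ((a : G)⁻¹ * b) := by group
      calc (a : G) * x * (a : G)⁻¹ = a * (x * ((a : G)⁻¹ * b)) * (b : G)⁻¹ := by group
        _ = a * ((a : G)⁻¹ * b * x) * (b : G)⁻¹ := by rw [h]
        _ = b * x * (b : G)⁻¹ := by group
    · intro h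
      calc (a : G)⁻¹ * b * x = (a : G)⁻¹ * (b * x * (b : G)⁻¹) * b := by group
        _ = (a : G)⁻¹ * (a * x * (a : G)⁻¹) * b := by rw [h]
        _ = x * ((a : G)⁻¹ * b) := by group
  let f : (N ⧸ (Subgroup.centralizer ({x} : Set G)).subgroupOf N) → {y : G | ∃ n ∈ N, y = n * x * n⁻¹} :=
    Quotient.lift (fun a : N => (⟨(a : G) * x * (a : G)⁻¹, a, a.2, rfl⟩ : {y : G | ∃ n ∈ N, y = n * x * n⁻¹}))
      (fun a b h => by
        ext
        exact (key a b).mp (Quotient.sound h))
  have hf : Function.Bijective f := by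
    constructor
    · intro a b
      induction a using QuotientGroup.induction_on with
      | H a =>
      induction b using QuotientGroup.induction_on with
      | H b =>
      intro h
      exact (key a b).mpr (congrArg Subtype.val h)
    · rintro ⟨y, n, hn, rfl⟩
      exact ⟨QuotientGroup.mk ⟨n, hn⟩, rfl⟩
  rw [Subgroup.relIndex, Subgroup.index]
  exact Nat.card_congr (Equiv.ofBijective f hf)

end Cfsg.Agent.H90
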