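import Cfsg.Agent.Golay.M24Order
import Cfsg.Agent.Golay.Simple
import Cfsg.Agent.Leech.Base

/-!
# The code modulo the all-ones word is irreducible for `M24` (owner: helper90)
-/

set_option autoImplicit false

namespace Cfsg.Agent.H90

open Cfsg Cfsg.Agent.Golay
open scoped Pointwise

/-- indicator word of a set of points -/
def ind (s : Finset GolayPt) : GolayPt → ZMod 2 := fun i => if i ∈ s then 1 else 0

theorem ind_symmDiff (s t : Finset GolayPt) : ind (symmDiff s t) = ind s + ind t := by
  ext i
  simp only [ind, Pi.add_apply, Finset.mem_symmDiff]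
  by_cases h1 : i ∈ s <;> by_cases h2 : i ∈ t <;> simp [h1, h2]
  decide

theorem ind_univ : ind Finset.univ = fun _ => 1 := by
  ext i; simp [ind]

theorem ind_empty : ind ∅ = 0 := by
  ext i; simp [ind]

theorem ind_smul (σ : Equiv.Perm GolayPt) (s : Finset GolayPt) : ind (σ • s) = fun p => ind s (σ.symm p) := by
  ext p
  simp only [ind]
  have : p ∈ σ • s ↔ σ.symm p ∈ s := by
    rw [Finset.mem_smul_finset]
    constructor
    · rintro ⟨q, hq, rfl⟩; simpa using hq
    · intro h; exact ⟨_, h, by simp⟩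
  simp only [this]

theorem ind_support (w : GolayPt → ZMod 2) : ind (support₂ w) = w := by
  ext i
  simp only [ind, support₂, Finset.mem_filter, Finset.mem_univ, true_and]
  generalize w i = z
  revert z
  decide

theorem ind_mem_code {s : Finset GolayPt} :
    ind s ∈ golayCode ↔ s ∈ supports (golayCode : Set (GolayPt → ZMod 2)) :=
  (Leech.supports_mem_iff golayCode s).symm

/-- A normal-closure argument: a property of elements of `M24` closed under products and inverses
and holding for the conjugates of one nontrivial element holds everywhere. -/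
theorem M24_of_conj (P : Subgroup (Equiv.Perm GolayPt)) (σ₀ : Equiv.Perm GolayPt) (hσ₀ : σ₀ ∈ M24)
    (h1 : σ₀ ≠ 1) (hP : ∀ τ ∈ M24, τ * σ₀ * τ⁻¹ ∈ P) : M24 ≤ P := by
  have hs : IsSimpleGroup M24 := simple_M24
  have hn : Subgroup.normalClosure ({⟨σ₀, hσ₀⟩} : Set M24) = ⊤ := by
    rcases hs.eq_bot_or_eq_top_of_normal (Subgroup.normalClosure ({⟨σ₀, hσ₀⟩} : Set M24))
      Subgroup.normalClosure_normal with h | h
    · exfalso
      apply h1
      have : (⟨σ₀, hσ₀⟩ : M24) ∈ Subgroup.normalClosure ({⟨σ₀, hσ₀⟩} : Set M24) :=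
        Subgroup.subset_normalClosure rfl
      rw [h, Subgroup.mem_bot] at this
      exact congrArg Subtype.val this
    · exact h
  intro τ hτ
  have h2 : Subgroup.normalClosure ({⟨σ₀, hσ₀⟩} : Set M24) ≤ P.comap M24.subtype := by
    unfold Subgroup.normalClosure
    rw [Subgroup.closure_le]
    intro x hx
    rw [Group.mem_conjugatesOfSet_iff] at hx
    obtain ⟨a, ha, hax⟩ := hx
    rw [Set.mem_singleton_iff] at ha
    subst ha
    obtain ⟨c, hc⟩ := isConj_iff.1 hax
    show (x : Equiv.Perm GolayPt) ∈ P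
    rw [← hc]
    exact hP c c.2
  rw [hn] at h2
  exact h2 (Subgroup.mem_top (⟨τ, hτ⟩ : M24))

/-- A nontrivial element of `M24` fixing an octad pointwise. -/
theorem exists_octad_fixer : ∃ σ ∈ M24, σ ≠ 1 ∧ ∃ o ∈ octads, ∀ p ∈ o, σ p = p := by
  have hv : validM24 0xbb1f3a4232ab916218ed4a8ab18820 = true := by decide +kernel
  obtain ⟨σ, hσ, hT⟩ := exists_mem_M24 hv
  have hF : fixesTab 0xbb1f3a4232ab916218ed4a8ab18820 8536111 = true := by decide +kernel
  have hfix := fixesMask_of_tab hT hF
  refine ⟨σ, hσ, ?_, ofMask 8536111, ?_, ?_⟩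
  · rintro rfl
    have := hT (pt 4)
    have h1 : idx (pt 4) = 4 := idx_pt (by decide)
    rw [Equiv.Perm.one_apply, h1] at this
    revert this
    decide
  · rw [mem_octads_iff, maskOf_ofMask (by decide)]
    exact ⟨by decide +kernel, by decide +kernel⟩
  · intro p hp
    rw [mem_ofMask] at hp
    exact hfix p hp

section
variable {W : Submodule (ZMod 2) (GolayPt → ZMod 2)}

/-- If `W` contains an octad, it is everything. -/
theorem code_le_of_octad (hinv : ∀ σ ∈ M24, ∀ w ∈ W, (fun p => w (σ.symm p)) ∈ W)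
    {o : Finset GolayPt} (ho : o ∈ octads) (hoW : ind o ∈ W) : golayCode ≤ W := by
  have hall : ∀ o' ∈ octads, ind o' ∈ W := by
    intro o' ho'
    obtain ⟨σ, hσ, rfl⟩ := M24_octad_transitive ho ho'
    rw [ind_smul]
    exact hinv σ hσ _ hoW
  intro w hw
  have h1 : support₂ w ∈ supports (golayCode : Set (GolayPt → ZMod 2)) := ⟨w, hw, rfl⟩
  have h2 := mem_supports_of_basis (P := fun s => ind s ∈ W) (by rw [ind_empty]; exact W.zero_mem) (fun b hb => by
    apply hall
    rw [mem_octads_iff, maskOf_ofMask (codeBasis_lt hb)]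
    revert b
    decide +kernel) (fun s t hs ht => by rw [ind_symmDiff]; exact W.add_mem hs ht) h1
  rwa [ind_support] at h2

theorem exists_octad_of_dodecad (hle : W ≤ golayCode) (h1 : (fun _ => (1 : ZMod 2)) ∈ W)
    (hinv : ∀ σ ∈ M24, ∀ w ∈ W, (fun p => w (σ.symm p)) ∈ W) {d : Finset GolayPt} (hd : d ∈ dodecads)
    (hdW : ind d ∈ W) : ∃ o ∈ octads, ind o ∈ W := by
  by_contra hcon
  push Not at hcon
  obtain ⟨σ₀, hσ₀, hne, o, ho, hfix⟩ := exists_octad_fixer
  have key : M24 ≤ MulAction.stabilizer (Equiv.Perm GolayPt) d := by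
    apply M24_of_conj _ σ₀ hσ₀ hne
    intro τ hτ
    set σ := τ * σ₀ * τ⁻¹ with hσdef
    have hσ : σ ∈ M24 := mul_mem (mul_mem hτ hσ₀) (inv_mem hτ)
    have hoτ : τ • o ∈ octads := (smul_mem_octads hτ).2 ho
    have hfixτ : ∀ p ∈ τ • o, σ p = p := by
      intro p hp
      rw [Finset.mem_smul_finset] at hp
      obtain ⟨q, hq, rfl⟩ := hp
      show τ (σ₀ (τ⁻¹ (τ q))) = τ q
      rw [show τ⁻¹ (τ q) = q from τ.symm_apply_apply q, hfix q hq]
    rw [MulAction.mem_stabilizer_iff]
    -- the difference word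
    have hwW : ind (symmDiff d (σ • d)) ∈ W := by
      rw [ind_symmDiff]
      refine W.add_mem hdW ?_
      rw [ind_smul]; exact hinv σ hσ _ hdW
    have hwc := ind_mem_code.1 (hle hwW)
    have hdisj : Disjoint (symmDiff d (σ • d)) (τ • o) := by
      rw [Finset.disjoint_left]
      intro p hp hpo
      have hsp := hfixτ p hpo
      have h3 : p ∈ σ • d ↔ p ∈ d := by
        rw [Finset.mem_smul_finset]
        constructor
        · rintro ⟨q, hq, hqp⟩
          have : q = p := σ.injective (by rw [hsp]; exact hqp)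
          rwa [← this]
        · intro h; exact ⟨p, h, hsp⟩
      rw [Finset.mem_symmDiff, h3] at hp
      tauto
    have hcard : (symmDiff (symmDiff d (σ • d)) (τ • o)).card = (symmDiff d (σ • d)).card + 8 := by
      have h4 := card_symmDiff_add (symmDiff d (σ • d)) (τ • o)
      rw [Finset.disjoint_iff_inter_eq_empty.1 hdisj, Finset.card_empty, card_octad hoτ] at h4
      omega
    have hwo := card_cases (symmDiff_mem_supports hwc hoτ.1)
    rw [hcard] at hwo
    rcases card_cases hwc with h | h | h | h | h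
    · exact (symmDiff_eq_empty (Finset.card_eq_zero.1 h)).symm
    · exact absurd hwW (hcon _ ⟨hwc, h⟩)
    · omega
    · exfalso
      apply hcon (symmDiff (symmDiff d (σ • d)) Finset.univ)
      · refine ⟨symmDiff_mem_supports hwc univ_mem_supports, ?_⟩
        have h4 := card_symmDiff_add (symmDiff d (σ • d)) Finset.univ
        rw [Finset.inter_univ, Finset.card_univ, card_golayPt] at h4
        omega
      · rw [ind_symmDiff, ind_univ]; exact W.add_mem hwW h1
    · omega
  -- contradiction with transitivity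
  have hd12 := card_dodecad hd
  obtain ⟨p, hp⟩ : d.Nonempty := by rw [← Finset.card_pos, hd12]; norm_num
  obtain ⟨q, hq⟩ : ∃ q, q ∉ d := by
    by_contra h
    push Not at h
    rw [Finset.eq_univ_of_forall h, Finset.card_univ, card_golayPt] at hd12
    omega
  obtain ⟨s, hs, hs5⟩ := Finset.exists_subset_card_eq (s := d.erase p) (n := 4)
    (by rw [Finset.card_erase_of_mem hp]; omega)
  -- 5-tuples starting with p resp. q
  obtain ⟨σ, hσ, hpq⟩ : ∃ σ ∈ M24, σ p = q := by
    have e : Nonempty (Fin 5 ↪ GolayPt) := ⟨⟨fun i => some (i.val : ZMod 23), by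
      intro i j hij
      fin_cases i <;> fin_cases j <;> simp at hij ⊢ <;> revert hij <;> decide⟩⟩
    obtain ⟨e⟩ := e
    have hx : ∃ x : Fin 5 → GolayPt, Function.Injective x ∧ x 0 = p :=
      ⟨fun i => Equiv.swap (e 0) p (e i), fun i j hij => e.injective ((Equiv.swap _ _).injective hij), by simp⟩
    have hy : ∃ x : Fin 5 → GolayPt, Function.Injective x ∧ x 0 = q :=
      ⟨fun i => Equiv.swap (e 0) q (e i), fun i j hij => e.injective ((Equiv.swap _ _).injective hij), by simp⟩
    obtain ⟨x, hx, hx0⟩ := hx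
    obtain ⟨y, hy, hy0⟩ := hy
    obtain ⟨σ, hσ, h⟩ := M24_exists_map x y hx hy
    exact ⟨σ, hσ, by rw [← hx0, ← hy0]; exact h 0⟩
  have h5 := MulAction.mem_stabilizer_iff.1 (key hσ)
  apply hq
  rw [← h5, ← hpq]
  exact Finset.smul_mem_smul_finset hp

theorem code_irred (hle : W ≤ golayCode) (h1 : (fun _ => (1 : ZMod 2)) ∈ W)
    (hinv : ∀ σ ∈ M24, ∀ w ∈ W, (fun p => w (σ.symm p)) ∈ W) :
    W = Submodule.span (ZMod 2) {fun _ => (1 : ZMod 2)} ∨ W = golayCode := by
  by_cases h : ∃ o ∈ octads, ind o ∈ W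
  · obtain ⟨o, ho, hoW⟩ := h
    exact Or.inr (le_antisymm hle (code_le_of_octad hinv ho hoW))
  · left
    apply le_antisymm
    · intro w hw
      have hwc : support₂ w ∈ supports (golayCode : Set (GolayPt → ZMod 2)) := ⟨w, hle hw, rfl⟩
      rw [← ind_support w] at hw ⊢
      rcases card_cases hwc with h' | h' | h' | h' | h'
      · rw [Finset.card_eq_zero.1 h', ind_empty]; exact Submodule.zero_mem _
      · exact absurd ⟨_, ⟨hwc, h'⟩, hw⟩ h
      · exact absurd (exists_octad_of_dodecad hle h1 hinv ⟨hwc, h'⟩ hw) h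
      · exfalso
        apply h
        refine ⟨symmDiff (support₂ w) Finset.univ, ⟨symmDiff_mem_supports hwc univ_mem_supports, ?_⟩, ?_⟩
        · have h4 := card_symmDiff_add (support₂ w) Finset.univ
          rw [Finset.inter_univ, Finset.card_univ, card_golayPt] at h4
          omega
        · rw [ind_symmDiff, ind_univ]; exact W.add_mem hw h1
      · have : support₂ w = Finset.univ := by
          apply Finset.eq_univ_of_card
          rw [h', card_golayPt]
        rw [this, ind_univ]; exact Submodule.mem_span_singleton_self _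
    · rw [Submodule.span_le]
      rintro _ rfl
      exact h1

end

end Cfsg.Agent.H90
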