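import Cfsg.Agent.H90.Mult12
import Cfsg.Agent.Golay.M12

/-!
# The double cover of `M12` from a Hadamard matrix of order 12
(owner: helper90)
-/

set_option autoImplicit false

namespace Cfsg.Agent.H90.Tab

open Cfsg Cfsg.Agent.Golay Cfsg.Agent.Golay.Orb Cfsg.Agent.H90.Stem Cfsg.Agent.Schur
open scoped Pointwise commutatorElement

/-- Hadamard matrix of order 12, rows `d0`, columns the complement (entry `(p, q)` is the bit `24 p + q`). -/
def hh : ℕ := 0x728400000000d880800000000000003a0880684480000000000000a2c080a88c000000009a440000000010cc804ac800f04800c20c80000000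

def em12_0 : List ℕ := [0, 12787093, 15751947, 4909905, 1167302, 10184205, 11111515, 10731739, 6899654, 4065741, 14455250, 7583048]

def em12_1 : List ℕ := [0, 328472, 266578, 335956, 270922, 275204, 78354, 8478, 78152, 4700, 66374]

def em12_2 : List ℕ := [0, 331790, 8478, 78152, 331790, 78354, 275204, 66374, 275204, 335956]

def em12_3 : List ℕ := [0, 328472, 275204, 275204, 335956, 335956, 78152, 335956, 328472]

def em12_4 : List ℕ := [0, 4700, 270922, 4700, 0, 66374, 270922, 66374]

def hbit (p q : ℕ) : Bool := Nat.testBit hh (24 * p + q)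

/-- entries in `ZMod 2` -/
def Hf (p q : GolayPt) : ZMod 2 := if hbit (idx p) (idx q) = true then 1 else 0

/-- the function of a mask -/
def ef (m : ℕ) (p : GolayPt) : ZMod 2 := if m.testBit (idx p) = true then 1 else 0

def Good (σ : Equiv.Perm GolayPt) (e : GolayPt → ZMod 2) : Prop :=
  ∀ p ∈ d0, ∀ q ∉ d0, Hf (σ p) (σ q) = Hf p q + e (σ p) + e (σ q)

/-- `(n, m)` satisfies the relation. -/
def goodChk (n m : ℕ) : Bool :=
  (List.range 24).all (fun p => !(Nat.testBit 340831 p) || (List.range 24).all (fun q => Nat.testBit 340831 q ||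
    (hbit (papp n p) (papp n q) == ((hbit p q).xor ((Nat.testBit m (papp n p)).xor (Nat.testBit m (papp n q)))))))

theorem good_of_chk {n m : ℕ} (h : goodChk n m = true) {σ : Equiv.Perm GolayPt} (hσ : IsTable n σ) :
    Good σ (ef m) := by
  intro p hp q hq
  rw [mem_ofMask] at hp
  rw [mem_ofMask] at hq
  unfold goodChk at h
  rw [List.all_eq_true] at h
  have h1 := h (idx p) (List.mem_range.2 (idx_lt p))
  rw [hp, Bool.not_true, Bool.false_or, List.all_eq_true] at h1
  have h2 := h1 (idx q) (List.mem_range.2 (idx_lt q))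
  rw [Bool.not_eq_true] at hq
  rw [hq, Bool.false_or, beq_iff_eq] at h2
  unfold Hf ef
  rw [hσ p, hσ q, h2]
  cases hbit (idx p) (idx q) <;> cases Nat.testBit m (papp n (idx p)) <;> cases Nat.testBit m (papp n (idx q)) <;> decide

theorem mem_d0_iff {σ : Equiv.Perm GolayPt} (hσ : σ ∈ Spor.M12) (p : GolayPt) : σ p ∈ d0 ↔ p ∈ d0 := by
  have h1 : σ • Spor.squareDodecad = Spor.squareDodecad := hσ.2
  rw [squareDodecad_eq] at h1
  have h2 : σ • p ∈ σ • d0 ↔ p ∈ d0 := Finset.smul_mem_smul_finset_iff σ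
  rw [h1] at h2
  exact h2

theorem good_mul {σ τ : Equiv.Perm GolayPt} (hτ' : τ ∈ Spor.M12) {e f : GolayPt → ZMod 2} (hσ : Good σ e)
    (hτ : Good τ f) : Good (σ * τ) (fun x => e x + f (σ⁻¹ x)) := by
  intro p hp q hq
  have h1 := hσ (τ p) ((mem_d0_iff hτ' p).2 hp) (τ q) (fun h => hq ((mem_d0_iff hτ' q).1 h))
  have h2 := hτ p hp q hq
  simp only [Equiv.Perm.mul_apply]
  rw [h1, h2, show σ⁻¹ (σ (τ p)) = τ p from σ.symm_apply_apply _, show σ⁻¹ (σ (τ q)) = τ q from σ.symm_apply_apply _]
  ring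

theorem two_zmod (a : ZMod 2) : a + a = 0 := by revert a; decide

theorem good_inv {σ : Equiv.Perm GolayPt} (hσ' : σ ∈ Spor.M12) {e : GolayPt → ZMod 2} (hσ : Good σ e) :
    Good σ⁻¹ (fun x => e (σ x)) := by
  intro p hp q hq
  have hi := Spor.M12.inv_mem hσ'
  have h1 := hσ (σ⁻¹ p) ((mem_d0_iff hi p).2 hp) (σ⁻¹ q) (fun h => hq ((mem_d0_iff hi q).1 h))
  have e1 : σ (σ⁻¹ p) = p := σ.apply_symm_apply p
  have e2 : σ (σ⁻¹ q) = q := σ.apply_symm_apply q
  rw [e1, e2] at h1
  simp only [e1, e2]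
  rw [h1]
  have a1 := two_zmod (e p)
  have a2 := two_zmod (e q)
  calc Hf (σ⁻¹ p) (σ⁻¹ q) = Hf (σ⁻¹ p) (σ⁻¹ q) + (e p + e p) + (e q + e q) := by rw [a1, a2]; ring
    _ = _ := by ring

theorem good_one : Good 1 (fun _ => 0) := by
  intro p _ q _
  simp

/-- The double cover. -/
structure Cov where
  g : Spor.M12
  e : GolayPt → ZMod 2
  h : Good (g : Equiv.Perm GolayPt) e

theorem Cov.ext' {a b : Cov} (h1 : a.g = b.g) (h2 : a.e = b.e) : a = b := by
  cases a; cases b; simp only at h1 h2; subst h1; subst h2; rfl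

instance : Mul Cov := ⟨fun a b => ⟨a.g * b.g, fun x => a.e x + b.e ((a.g : Equiv.Perm GolayPt)⁻¹ x),
  good_mul b.g.2 a.h b.h⟩⟩

instance : One Cov := ⟨⟨1, fun _ => 0, good_one⟩⟩

instance : Inv Cov := ⟨fun a => ⟨a.g⁻¹, fun x => a.e ((a.g : Equiv.Perm GolayPt) x), good_inv a.g.2 a.h⟩⟩

theorem Cov.mul_g (a b : Cov) : (a * b).g = a.g * b.g := rfl
theorem Cov.mul_e (a b : Cov) (x : GolayPt) : (a * b).e x = a.e x + b.e ((a.g : Equiv.Perm GolayPt)⁻¹ x) := rfl
theorem Cov.one_g : (1 : Cov).g = 1 := rfl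
theorem Cov.one_e (x : GolayPt) : (1 : Cov).e x = 0 := rfl
theorem Cov.inv_g (a : Cov) : (a⁻¹).g = a.g⁻¹ := rfl
theorem Cov.inv_e (a : Cov) (x : GolayPt) : (a⁻¹).e x = a.e ((a.g : Equiv.Perm GolayPt) x) := rfl

instance : Group Cov := Group.ofLeftAxioms
  (by
    intro a b c
    apply Cov.ext'
    · exact mul_assoc a.g b.g c.g
    · funext x
      simp only [Cov.mul_e, Cov.mul_g]
      have : ((a.g * b.g : Spor.M12) : Equiv.Perm GolayPt)⁻¹ x =
          (b.g : Equiv.Perm GolayPt)⁻¹ ((a.g : Equiv.Perm GolayPt)⁻¹ x) := by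
        rw [Subgroup.coe_mul, mul_inv_rev]; rfl
      rw [this]; ring)
  (by
    intro a
    apply Cov.ext'
    · exact one_mul a.g
    · funext x
      rw [Cov.mul_e, Cov.one_e, zero_add]
      rfl)
  (by
    intro a
    apply Cov.ext'
    · exact inv_mul_cancel a.g
    · funext x
      rw [Cov.mul_e, Cov.inv_e, Cov.inv_g, Cov.one_e]
      have : ((a.g⁻¹ : Spor.M12) : Equiv.Perm GolayPt)⁻¹ x = (a.g : Equiv.Perm GolayPt) x := by
        rw [Subgroup.coe_inv, inv_inv]
      rw [this, two_zmod])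

instance : Finite Cov := by
  have : Function.Injective (fun a : Cov => (a.g, a.e)) := by
    intro a b h
    exact Cov.ext' (congrArg Prod.fst h) (congrArg Prod.snd h)
  exact Finite.of_injective _ this

/-- The projection. -/
def covπ : Cov →* Spor.M12 where
  toFun a := a.g
  map_one' := rfl
  map_mul' _ _ := rfl

theorem covπ_apply (a : Cov) : covπ a = a.g := rfl

theorem pt_mem_d0 : pt 0 ∈ d0 := by rw [mem_ofMask]; decide
theorem pt_notMem_d0 : pt 5 ∉ d0 := by rw [mem_ofMask]; decide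

theorem cov_ker_const {a : Cov} (ha : covπ a = 1) (x : GolayPt) : a.e x = a.e (pt 0) := by
  have h : ∀ p ∈ d0, ∀ q ∉ d0, a.e p = a.e q := by
    intro p hp q hq
    have h1 := a.h p hp q hq
    rw [covπ_apply] at ha
    rw [ha] at h1
    simp only [Subgroup.coe_one, Equiv.Perm.coe_one, id_eq] at h1
    have h2 : a.e p + a.e q = 0 := by
      have : Hf p q + (a.e p + a.e q) = Hf p q + 0 := by rw [add_zero, ← add_assoc]; exact h1.symm
      exact add_left_cancel this
    calc a.e p = a.e p + (a.e q + a.e q) := by rw [two_zmod, add_zero]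
      _ = (a.e p + a.e q) + a.e q := by ring
      _ = a.e q := by rw [h2, zero_add]
  by_cases hx : x ∈ d0
  · rw [h x hx _ pt_notMem_d0, ← h _ pt_mem_d0 _ pt_notMem_d0]
  · exact (h _ pt_mem_d0 x hx).symm

theorem cov_ker_central : covπ.ker ≤ Subgroup.center Cov := by
  intro a ha
  have ha' : covπ a = 1 := ha
  rw [Subgroup.mem_center_iff]
  intro b
  have hg : a.g = 1 := ha'
  apply Cov.ext'
  · rw [Cov.mul_g, Cov.mul_g, hg, mul_one, one_mul]
  · funext x
    rw [Cov.mul_e, Cov.mul_e, cov_ker_const ha' x, cov_ker_const ha', hg]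
    have : ((1 : Spor.M12) : Equiv.Perm GolayPt)⁻¹ x = x := rfl
    rw [this, add_comm]

/-- the central involution -/
def covz : Cov := ⟨1, fun _ => 1, by
  intro p _ q _
  simp only [Subgroup.coe_one, Equiv.Perm.coe_one, id_eq]
  rw [add_assoc, two_zmod, add_zero]⟩

theorem cov_ker_cases {a : Cov} (ha : covπ a = 1) : a = 1 ∨ a = covz := by
  have h2 : ∀ c : ZMod 2, c = 0 ∨ c = 1 := by decide
  rcases h2 (a.e (pt 0)) with h | h
  · left
    apply Cov.ext' ha
    funext x
    rw [cov_ker_const ha x, h]; rfl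
  · right
    apply Cov.ext' ha
    funext x
    rw [cov_ker_const ha x, h]; rfl

theorem covz_ne : covz ≠ 1 := by
  intro h
  have := congrFun (congrArg Cov.e h) none
  exact absurd this (by decide)

theorem covz_ker : covπ covz = 1 := rfl

theorem covz_sq : covz * covz = 1 := by
  apply Cov.ext'
  · exact one_mul 1
  · funext x
    rw [Cov.mul_e, Cov.one_e]
    exact two_zmod _

theorem orderOf_covz : orderOf covz = 2 := orderOf_eq_prime (by rw [pow_two, covz_sq]) covz_ne

theorem cov_ker_eq : covπ.ker = Subgroup.zpowers covz := by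
  apply le_antisymm
  · intro a ha
    rcases cov_ker_cases ha with rfl | rfl
    · exact Subgroup.one_mem _
    · exact Subgroup.mem_zpowers _
  · rw [Subgroup.zpowers_le]
    exact covz_ker

theorem card_cov_ker : Nat.card covπ.ker = 2 := by
  rw [cov_ker_eq, Nat.card_zpowers, orderOf_covz]

/-! ### Surjectivity -/

/-- The image of the cover in the symmetric group. -/
noncomputable def R12 : Subgroup (Equiv.Perm GolayPt) := covπ.range.map Spor.M12.subtype

theorem mem_R12_of_tab {n m : ℕ} (h1 : (validM24 n && Nat.beq (pmask n 340831) 340831) = true)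
    (h2 : goodChk n m = true) : InSub R12 n := by
  rw [Bool.and_eq_true] at h1
  obtain ⟨σ, hσ, hT⟩ := inSub12 h1.1 h1.2
  exact ⟨σ, ⟨⟨σ, hσ⟩, ⟨⟨⟨σ, hσ⟩, ef m, good_of_chk h2 hT⟩, rfl⟩, rfl⟩, hT⟩

def listChk : List ℕ → List ℕ → Bool
  | [], _ => true
  | _ :: _, [] => false
  | n :: L, m :: M => (validM24 n && Nat.beq (pmask n 340831) 340831) && goodChk n m && listChk L M

theorem listChk_spec : ∀ (L M : List ℕ), listChk L M = true → ∀ n ∈ L, InSub R12 n
  | [], _, _, n, hn => absurd hn (by simp)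
  | n :: L, [], h, _, _ => by simp [listChk] at h
  | n :: L, m :: M, h, k, hk => by
    simp only [listChk, Bool.and_eq_true] at h
    rcases List.mem_cons.1 hk with rfl | hk
    · exact mem_R12_of_tab (by rw [Bool.and_eq_true]; exact h.1.1) h.1.2
    · exact listChk_spec L M h.2 k hk

theorem lc0 : listChk tm12_0 em12_0 = true := by decide +kernel
theorem lc1 : listChk tm12_1 em12_1 = true := by decide +kernel
theorem lc2 : listChk tm12_2 em12_2 = true := by decide +kernel
theorem lc3 : listChk tm12_3 em12_3 = true := by decide +kernel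
theorem lc4 : listChk tm12_4 em12_4 = true := by decide +kernel

theorem level_aux' {L : List ℕ} {F b t : ℕ} (h : levelCheck L F b t = true) (hS : ∀ n ∈ L, InSub R12 n)
    (hb : b < 24) {y : GolayPt} (hy : t.testBit (idx y) = true) :
    ∃ g ∈ R12, FixesMask g F ∧ g (pt b) = y := by
  have h' : levelCheck' L F b t = true := by
    rw [levelCheck'_iff]
    exact (levelCheck_iff.1 h).2
  exact exists_of_level' hS h' hb hy

theorem R12_level (i : Fin 5) (y : GolayPt) (hyD : y ∈ d0) (hy : ∀ j < i, y ≠ b12 j) :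
    ∃ g ∈ R12, (∀ j < i, g • b12 j = b12 j) ∧ g • b12 i = y := by
  fin_cases i
  · have key : ∀ y : GolayPt, y ∈ d0 → (340831 : ℕ).testBit (idx y) = true := by decide
    obtain ⟨g, h1, h2, h3⟩ := level_aux' tm12_0_check (listChk_spec _ _ lc0) (by decide) (y := y)
      (key y hyD )
    exact ⟨g, h1, fun j hj => absurd hj (by simp), h3⟩
  · have key : ∀ y : GolayPt, y ∈ d0 → y ≠ pt 0 → (340830 : ℕ).testBit (idx y) = true := by decide
    obtain ⟨g, h1, h2, h3⟩ := level_aux' tm12_1_check (listChk_spec _ _ lc1) (by decide) (y := y)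
      (key y hyD (hy 0 (by decide)))
    refine ⟨g, h1, fun j hj => ?_, h3⟩
    have hF : ∀ j : Fin 5, j < 1 → (1 : ℕ).testBit (idx (b12 j)) = true := by decide
    exact h2 _ (hF j hj)
  · have key : ∀ y : GolayPt, y ∈ d0 → y ≠ pt 0 → y ≠ pt 1 → (340828 : ℕ).testBit (idx y) = true := by decide
    obtain ⟨g, h1, h2, h3⟩ := level_aux' tm12_2_check (listChk_spec _ _ lc2) (by decide) (y := y)
      (key y hyD (hy 0 (by decide)) (hy 1 (by decide)))
    refine ⟨g, h1, fun j hj => ?_, h3⟩
    have hF : ∀ j : Fin 5, j < 2 → (3 : ℕ).testBit (idx (b12 j)) = true := by decide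
    exact h2 _ (hF j hj)
  · have key : ∀ y : GolayPt, y ∈ d0 → y ≠ pt 0 → y ≠ pt 1 → y ≠ pt 2 → (340824 : ℕ).testBit (idx y) = true := by decide
    obtain ⟨g, h1, h2, h3⟩ := level_aux' tm12_3_check (listChk_spec _ _ lc3) (by decide) (y := y)
      (key y hyD (hy 0 (by decide)) (hy 1 (by decide)) (hy 2 (by decide)))
    refine ⟨g, h1, fun j hj => ?_, h3⟩
    have hF : ∀ j : Fin 5, j < 3 → (7 : ℕ).testBit (idx (b12 j)) = true := by decide
    exact h2 _ (hF j hj)
  · have key : ∀ y : GolayPt, y ∈ d0 → y ≠ pt 0 → y ≠ pt 1 → y ≠ pt 2 → y ≠ pt 3 → (340816 : ℕ).testBit (idx y) = true := by decide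
    obtain ⟨g, h1, h2, h3⟩ := level_aux' tm12_4_check (listChk_spec _ _ lc4) (by decide) (y := y)
      (key y hyD (hy 0 (by decide)) (hy 1 (by decide)) (hy 2 (by decide)) (hy 3 (by decide)))
    refine ⟨g, h1, fun j hj => ?_, h3⟩
    have hF : ∀ j : Fin 5, j < 4 → (15 : ℕ).testBit (idx (b12 j)) = true := by decide
    exact h2 _ (hF j hj)

theorem R12_le : R12 ≤ Spor.M12 := by
  rintro _ ⟨g, _, rfl⟩
  exact g.2

theorem le_R12 : Spor.M12 ≤ R12 := by
  intro σ hσ
  have hinj : Function.Injective (fun i : Fin 5 => b12 i) := by decide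
  have hD : ∀ i : Fin 5, b12 i ∈ d0 := by
    intro i
    rw [mem_ofMask]
    revert i; decide
  obtain ⟨g, hg, hgx⟩ := PermChain.exists_map_of_chain_on' R12 (d0 : Set GolayPt)
    (fun g hg x hx => (mem_d0_iff (R12_le hg) x).2 hx) (fun i : Fin 5 => b12 i)
    (fun i y hyD hy => R12_level i y hyD hy) (fun i : Fin 5 => b12 i) (fun i : Fin 5 => σ (b12 i))
    hD (fun i => (mem_d0_iff hσ _).2 (hD i)) hinj (fun i j h => hinj (σ.injective h))
  have hgM := R12_le hg
  have h1 : ∀ τ ∈ Spor.M12, τ • d0 = d0 := by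
    intro τ hτ
    have h2 : τ • Spor.squareDodecad = Spor.squareDodecad := hτ.2
    rwa [squareDodecad_eq] at h2
  have h3 := M12_unique d0_mem (g := ⟨g, hgM.1⟩) (g' := ⟨σ, hσ.1⟩) (h1 g hgM) (h1 σ hσ) (fun i : Fin 5 => b12 i) hD
    hinj (fun i => hgx i)
  have h4 : g = σ := congrArg Subtype.val h3
  rw [← h4]; exact hg

theorem covπ_surj : Function.Surjective covπ := by
  intro g
  obtain ⟨h, ⟨a, rfl⟩, hg⟩ := le_R12 g.2
  exact ⟨a, Subtype.ext hg⟩

/-! ### Perfectness of `M12` -/

theorem simple_M12' : IsSimpleGroup Spor.M12 := by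
  have h := simple_stabilizer_dodecad squareDodecad_mem
  let φ : Spor.M12 ≃* MulAction.stabilizer M24 Spor.squareDodecad :=
    { toFun := fun g => ⟨⟨g.1, g.2.1⟩, g.2.2⟩
      invFun := fun g => ⟨g.1.1, g.1.2, g.2⟩
      left_inv := fun _ => rfl
      right_inv := fun _ => rfl
      map_mul' := fun _ _ => rfl }
  exact φ.isSimpleGroup

theorem commutator_M12 : commutator Spor.M12 = ⊤ := by
  have := simple_M12'
  rcases (inferInstance : (commutator Spor.M12).Normal).eq_bot_or_eq_top with h | h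
  · exfalso
    have h1 : ⁅el Spor.M12 qs, el Spor.M12 qy⁆ = 1 := by
      have : ⁅el Spor.M12 qs, el Spor.M12 qy⁆ ∈ commutator Spor.M12 :=
        Subgroup.commutator_mem_commutator (Subgroup.mem_top _) (Subgroup.mem_top _)
      rw [h] at this
      exact this
    rw [commutatorElement_eq_one_iff_mul_comm] at h1
    have h2 := mul_tab qs_t qy_t
    rw [h1] at h2
    have h3 := isTable_inj h2 (mul_tab qy_t qs_t) (pmul_lt _ _) (pmul_lt _ _)
    exact absurd h3 (by decide +kernel)
  · exact h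

def eqj : ℕ := 4970773

/-- The explicit lift of `qj`. -/
noncomputable def covj : Cov := ⟨el Spor.M12 qj, ef eqj, good_of_chk (by decide +kernel) qj_t⟩

theorem covj_sq : covj * covj = covz := by
  have h1 : covπ (covj * covj) = 1 := by
    rw [map_mul]
    exact eq_of_tab (mul_tab qj_t qj_t) one_tab (by decide +kernel)
  rcases cov_ker_cases h1 with h | h
  · exfalso
    have h2 := congrFun (congrArg Cov.e h) ((el Spor.M12 qj : Equiv.Perm GolayPt) (pt 0))
    rw [Cov.mul_e, Cov.one_e] at h2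
    have h3 : (covj.g : Equiv.Perm GolayPt)⁻¹ ((el Spor.M12 qj : Equiv.Perm GolayPt) (pt 0)) = pt 0 :=
      (el Spor.M12 qj : Equiv.Perm GolayPt).symm_apply_apply (pt 0)
    rw [h3] at h2
    rw [show covj.e = ef eqj from rfl] at h2
    unfold ef at h2
    rw [qj_t, idx_pt (by norm_num)] at h2
    revert h2
    decide +kernel
  · exact h

theorem covz_mem_commutator : covz ∈ commutator Cov := by
  have h1 : (commutator Cov).map covπ = commutator Spor.M12 := by
    rw [commutator_def, Subgroup.map_commutator, Subgroup.map_top_of_surjective _ covπ_surj, commutator_def]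
  obtain ⟨y, hy, hyj⟩ : ∃ y ∈ commutator Cov, covπ y = covπ covj := by
    have : covπ covj ∈ (commutator Cov).map covπ := by rw [h1, commutator_M12]; exact Subgroup.mem_top _
    exact this
  have hk : covπ (covj⁻¹ * y) = 1 := by rw [map_mul, map_inv, hyj, inv_mul_cancel]
  have hyy : y * y ∈ commutator Cov := Subgroup.mul_mem _ hy hy
  have h2 : y * y = covz := by
    rcases cov_ker_cases hk with h | h
    · rw [inv_mul_eq_one] at h
      rw [← h, covj_sq]
    · have h3 : y = covj * covz := by rw [← h]; group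
      have h4 : covz * covj = covj * covz := (Subgroup.mem_center_iff.1 (cov_ker_central covz_ker) covj).symm
      calc y * y = covj * (covz * covj) * covz := by rw [h3]; group
        _ = covj * (covj * covz) * covz := by rw [h4]
        _ = (covj * covj) * (covz * covz) := by group
        _ = covz := by rw [covj_sq, covz_sq, mul_one]
  rw [← h2]; exact hyy

theorem cov_stem : IsStemExtension covπ := by
  refine ⟨covπ_surj, cov_ker_central, ?_⟩
  rw [cov_ker_eq, Subgroup.zpowers_le]
  exact covz_mem_commutator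

theorem final_2035 : HasCyclicSchurMultiplier Spor.M12 2 := by
  have hz : Nat.card (Multiplicative (ZMod 2)) = 2 := by
    rw [Nat.card_eq_fintype_card]; rfl
  have : Fact (Nat.Prime 2) := ⟨Nat.prime_two⟩
  constructor
  · exact ⟨Cov, inferInstance, inferInstance, covπ, cov_stem, ⟨mulEquivOfPrimeCardEq card_cov_ker hz⟩⟩
  · intro Γ _ _ σ hσ
    rcases (Nat.dvd_prime Nat.prime_two).1 (m12_upper hσ) with h | h
    · have : Subsingleton σ.ker := (Nat.card_eq_one_iff_unique.1 h).1
      exact ⟨1, fun a => ⟨1, Subsingleton.elim _ _⟩⟩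
    · exact ⟨(mulEquivOfPrimeCardEq hz h).toMonoidHom, (mulEquivOfPrimeCardEq hz h).surjective⟩

end Cfsg.Agent.H90.Tab
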