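import Cfsg.Agent.Leech.Index
import Cfsg.Agent.Golay.M24

/-!
# Invariant quadratic functions on the rank-24 lattice modulo 2 vanish on the vectors 4y, y of even sum
(owner: helper90)
-/

set_option autoImplicit false

namespace Cfsg.Agent.H90

open Cfsg Cfsg.Agent.Leech

/-! ### Monomial elements of `Co0` -/

/-- coordinate permutations as elements of the permutation group of the lattice -/
def permCo (σ : Equiv.Perm GolayPt) (hσ : σ ∈ M24) : Equiv.Perm leechLattice where
  toFun v := ⟨fun i => v.1 (σ i), permute_mem hσ v.2⟩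
  invFun v := ⟨fun i => v.1 (σ⁻¹ i), permute_mem (inv_mem hσ) v.2⟩
  left_inv v := by apply Subtype.ext; ext i; simp
  right_inv v := by apply Subtype.ext; ext i; simp

theorem permCo_mem (σ : Equiv.Perm GolayPt) (hσ : σ ∈ M24) : permCo σ hσ ∈ Co0 := by
  refine ⟨fun v w => rfl, fun v => ?_⟩
  show ∑ i, v.1 (σ i) ^ 2 = ∑ i, v.1 i ^ 2
  exact Equiv.sum_comp σ (fun i => v.1 i ^ 2)

/-- sign changes on code words -/
def flipCo (c : GolayPt → ZMod 2) (hc : c ∈ golayCode) : Equiv.Perm leechLattice where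
  toFun v := ⟨flip c v.1, flip_mem hc v.2⟩
  invFun v := ⟨flip c v.1, flip_mem hc v.2⟩
  left_inv v := by apply Subtype.ext; exact flip_flip c v.1
  right_inv v := by apply Subtype.ext; exact flip_flip c v.1

theorem flipCo_mem (c : GolayPt → ZMod 2) (hc : c ∈ golayCode) : flipCo c hc ∈ Co0 := by
  refine ⟨fun v w => ?_, fun v => ?_⟩
  · apply Subtype.ext; exact flip_add c v.1 w.1
  · exact sqNorm_flip c v.1

/-! ### Vectors of even sum -/

/-- integer vectors with even coordinate sum -/
def evenSum : AddSubgroup (GolayPt → ℤ) := (AddSubgroup.zmultiples (2 : ℤ)).comap coordSum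

theorem mem_evenSum {y : GolayPt → ℤ} : y ∈ evenSum ↔ (2 : ℤ) ∣ ∑ i, y i := by
  show coordSum y ∈ AddSubgroup.zmultiples (2 : ℤ) ↔ _
  rw [Int.mem_zmultiples_iff]; rfl

theorem four_smul_mem {y : GolayPt → ℤ} (hy : y ∈ evenSum) : (4 : ℤ) • y ∈ leechLattice := by
  rw [mem_evenSum] at hy
  refine (mem_iff _).2 (Or.inl ⟨0, golayCode.zero_mem, fun i => ?_, ?_⟩)
  · rw [lift_zero]
    show (4 : ℤ) • y i ≡ _ [ZMOD 4]
    rw [smul_eq_mul]; unfold Int.ModEq; omega
  · show ∑ i, (4 : ℤ) • y i ≡ 0 [ZMOD 8]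
    rw [← Finset.smul_sum, smul_eq_mul]
    unfold Int.ModEq; omega

/-- the embedding `y ↦ 4 y` -/
def emb4 : evenSum →+ leechLattice where
  toFun y := ⟨(4 : ℤ) • y.1, four_smul_mem y.2⟩
  map_zero' := by apply Subtype.ext; simp
  map_add' x y := by apply Subtype.ext; simp

theorem emb4_coe (y : evenSum) : (emb4 y : GolayPt → ℤ) = (4 : ℤ) • (y : GolayPt → ℤ) := rfl

theorem halfEven_le_evenSum : halfEven ≤ evenSum := by
  rintro y ⟨-, hy⟩
  have h : coordSum y ∈ AddSubgroup.zmultiples (4 : ℤ) := hy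
  rw [Int.mem_zmultiples_iff] at h
  rw [mem_evenSum]
  have h2 : coordSum y = ∑ i, y i := rfl
  rw [h2] at h; omega

theorem two_smul_mem_of_halfEven {y : GolayPt → ℤ} (hy : y ∈ halfEven) : (2 : ℤ) • y ∈ leechLattice :=
  evenSub_le ⟨y, hy, rfl⟩

theorem emb4_of_halfEven {y : evenSum} (hy : (y : GolayPt → ℤ) ∈ halfEven) :
    ∃ w : leechLattice, emb4 y = w + w := by
  refine ⟨⟨(2 : ℤ) • y.1, two_smul_mem_of_halfEven hy⟩, ?_⟩
  apply Subtype.ext
  rw [emb4_coe]
  show (4 : ℤ) • (y : GolayPt → ℤ) = (2 : ℤ) • y.1 + (2 : ℤ) • y.1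
  rw [← add_smul]; norm_num

/-- the vector `e_i + e_j` -/
def EE (i j : GolayPt) : evenSum := ⟨Pi.single i 1 + Pi.single j 1, by
  rw [mem_evenSum]
  simp [Finset.sum_add_distrib]⟩

theorem EE_coe (i j : GolayPt) : (EE i j : GolayPt → ℤ) = Pi.single i 1 + Pi.single j 1 := rfl

theorem EE_comm (i j : GolayPt) : EE i j = EE j i := by
  apply Subtype.ext; rw [EE_coe, EE_coe, add_comm]

theorem EE_add (i j k l : GolayPt) : EE i j + EE k l = EE i l + EE j k := by
  apply Subtype.ext
  rw [AddSubgroup.coe_add, AddSubgroup.coe_add]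
  simp only [EE_coe]; abel

theorem two_smul_mem_halfEven (y : evenSum) : ((y + y : evenSum) : GolayPt → ℤ) ∈ halfEven := by
  have hy := mem_evenSum.1 y.2
  refine ⟨?_, ?_⟩
  · show red2 (y.1 + y.1) ∈ golayCode
    have : red2 (y.1 + y.1) = 0 := by
      rw [map_add]
      ext i
      simp only [Pi.add_apply, Pi.zero_apply]
      generalize red2 y.1 i = z; revert z; decide
    rw [this]; exact golayCode.zero_mem
  · show coordSum (y.1 + y.1) ∈ AddSubgroup.zmultiples (4 : ℤ)
    rw [Int.mem_zmultiples_iff, map_add]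
    have h2 : coordSum y.1 = ∑ i, y.1 i := rfl
    rw [h2]; omega

theorem lift_mem_halfEven {c : GolayPt → ZMod 2} (hc : c ∈ golayCode) : lift c ∈ halfEven := by
  refine ⟨?_, ?_⟩
  · show red2 (lift c) ∈ golayCode
    rw [red2_lift]; exact hc
  · show coordSum (lift c) ∈ AddSubgroup.zmultiples (4 : ℤ)
    rw [Int.mem_zmultiples_iff]
    show (4 : ℤ) ∣ ∑ i, lift c i
    rw [sum_lift]
    exact_mod_cast code_weight_four_dvd c hc

theorem closure_EE : AddSubgroup.closure {x : evenSum | ∃ i j, x = EE i j} = ⊤ := by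
  rw [eq_top_iff]
  set K := AddSubgroup.closure {x : evenSum | ∃ i j, x = EE i j} with hK
  have hE : ∀ i j, EE i j ∈ K := fun i j => AddSubgroup.subset_closure ⟨i, j, rfl⟩
  intro y _
  -- y = ∑ (y i) (e_i + e_none) - (sum over i of y i) e_none... with an even total
  obtain ⟨m, hm⟩ := mem_evenSum.1 y.2
  have : y = ∑ i, (y.1 i) • EE i none + (-m) • EE none none := by
    apply Subtype.ext
    rw [AddSubgroup.coe_add, AddSubgroup.val_finsetSum, AddSubgroup.coe_zsmul]
    ext j
    simp only [Pi.add_apply, Finset.sum_apply, AddSubgroup.coe_zsmul, Pi.smul_apply, smul_eq_mul,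
      EE_coe, mul_add, Finset.sum_add_distrib]
    have h1 : ∑ x, y.1 x * (Pi.single x 1 : GolayPt → ℤ) j = y.1 j := by
      rw [Finset.sum_eq_single j]
      · simp
      · intro b _ hb; rw [Pi.single_eq_of_ne hb.symm]; simp
      · intro h; exact absurd (Finset.mem_univ j) h
    rw [h1, ← Finset.sum_mul]
    rw [hm]; ring
  rw [this]
  exact K.add_mem (K.sum_mem (fun i _ => K.zsmul_mem (hE i none) _)) (K.zsmul_mem (hE _ _) _)

/-! ### Abstract invariant functions -/

/-- Quadratic functions on the vectors of even sum, with values mod 2, vanishing on the code-congruent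
vectors and invariant under coordinate permutations in `M24` and sign changes on code words. -/
structure EForm (g : evenSum → ZMod 2) (γ : evenSum → evenSum → ZMod 2) : Prop where
  add : ∀ v w, g (v + w) = g v + g w + γ v w
  addl : ∀ u v w, γ (u + v) w = γ u w + γ v w
  van : ∀ v : evenSum, (v : GolayPt → ℤ) ∈ halfEven → g v = 0
  vanl : ∀ v : evenSum, (v : GolayPt → ℤ) ∈ halfEven → ∀ w, γ v w = 0
  perm : ∀ σ ∈ M24, ∀ v w : evenSum, (w : GolayPt → ℤ) = (fun i => (v : GolayPt → ℤ) (σ i)) → g w = g v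
  flp : ∀ c ∈ golayCode, ∀ v w : evenSum, (w : GolayPt → ℤ) = flip c v → g w = g v

namespace EForm

variable {g : evenSum → ZMod 2} {γ : evenSum → evenSum → ZMod 2} (F : EForm g γ)
include F

theorem two (a : ZMod 2) : a + a = 0 := by
  have _ := F
  revert a; decide

theorem symm (v w : evenSum) : γ v w = γ w v := by
  have h1 := F.add v w
  have h2 := F.add w v
  rw [add_comm w v, h1, add_comm (g w) (g v)] at h2
  exact add_left_cancel h2

theorem addr (u v w : evenSum) : γ u (v + w) = γ u v + γ u w := by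
  rw [F.symm, F.addl, F.symm v, F.symm w]

theorem self (v : evenSum) : γ v v = 0 := by
  have h1 := F.add v v
  rw [F.van _ (two_smul_mem_halfEven v), F.two (g v), zero_add] at h1
  exact h1.symm

theorem vanr (v w : evenSum) (hw : (w : GolayPt → ℤ) ∈ halfEven) : γ v w = 0 := by
  rw [F.symm]; exact F.vanl w hw v

theorem zero : g 0 = 0 := F.van 0 (by simp)

theorem zerol (w : evenSum) : γ 0 w = 0 := F.vanl 0 (by simp) w

theorem add_half (v w : evenSum) (hw : (w : GolayPt → ℤ) ∈ halfEven) : g (v + w) = g v := by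
  rw [F.add, F.van w hw, F.vanr v w hw]; simp

/-- permutation invariance on the vectors `e_i + e_j` -/
theorem perm_EE (σ : Equiv.Perm GolayPt) (hσ : σ ∈ M24) (i j : GolayPt) : g (EE (σ i) (σ j)) = g (EE i j) := by
  refine F.perm σ⁻¹ (inv_mem hσ) _ _ ?_
  ext k
  simp only [EE_coe, Pi.add_apply]
  have h : ∀ a : GolayPt, (Pi.single (σ a) 1 : GolayPt → ℤ) k = (Pi.single a 1 : GolayPt → ℤ) (σ⁻¹ k) := by
    intro a
    by_cases h : k = σ a
    · subst h; simp
    · rw [Pi.single_eq_of_ne h, Pi.single_eq_of_ne]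
      rintro h'
      exact h (by rw [← h']; simp)
  rw [h, h]

theorem perm_EE_add (σ : Equiv.Perm GolayPt) (hσ : σ ∈ M24) (i j k l : GolayPt) :
    g (EE (σ i) (σ j) + EE (σ k) (σ l)) = g (EE i j + EE k l) := by
  refine F.perm σ⁻¹ (inv_mem hσ) _ _ ?_
  ext m
  simp only [AddSubgroup.coe_add, EE_coe, Pi.add_apply]
  have h : ∀ a : GolayPt, (Pi.single (σ a) 1 : GolayPt → ℤ) m = (Pi.single a 1 : GolayPt → ℤ) (σ⁻¹ m) := by
    intro a
    by_cases h : m = σ a
    · subst h; simp
    · rw [Pi.single_eq_of_ne h, Pi.single_eq_of_ne]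
      rintro h'
      exact h (by rw [← h']; simp)
  rw [h, h, h, h]

theorem perm_γ (σ : Equiv.Perm GolayPt) (hσ : σ ∈ M24) (i j k l : GolayPt) :
    γ (EE (σ i) (σ j)) (EE (σ k) (σ l)) = γ (EE i j) (EE k l) := by
  have h1 := F.perm_EE_add σ hσ i j k l
  rw [F.add, F.add, F.perm_EE σ hσ, F.perm_EE σ hσ] at h1
  exact add_left_cancel h1

/-- `M24` is transitive on 5-tuples of distinct points. -/
theorem exists_map5 {a b c d e : GolayPt} (hab : a ≠ b) (hac : a ≠ c) (had : a ≠ d) (hae : a ≠ e)
    (hbc : b ≠ c) (hbd : b ≠ d) (hbe : b ≠ e) (hcd : c ≠ d) (hce : c ≠ e) (hde : d ≠ e)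
    {a' b' c' d' e' : GolayPt} (hab' : a' ≠ b') (hac' : a' ≠ c') (had' : a' ≠ d') (hae' : a' ≠ e')
    (hbc' : b' ≠ c') (hbd' : b' ≠ d') (hbe' : b' ≠ e') (hcd' : c' ≠ d') (hce' : c' ≠ e') (hde' : d' ≠ e') :
    ∃ σ ∈ M24, σ a = a' ∧ σ b = b' ∧ σ c = c' ∧ σ d = d' ∧ σ e = e' := by
  have _ := F
  have hinj : ∀ {a b c d e : GolayPt}, a ≠ b → a ≠ c → a ≠ d → a ≠ e → b ≠ c → b ≠ d → b ≠ e → c ≠ d →
      c ≠ e → d ≠ e → Function.Injective (![a, b, c, d, e] : Fin 5 → GolayPt) := by
    intro a b c d e h1 h2 h3 h4 h5 h6 h7 h8 h9 h10 x y hxy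
    fin_cases x <;> fin_cases y <;> simp at hxy ⊢ <;> first | exact absurd hxy ‹_› | exact absurd hxy.symm ‹_›
  obtain ⟨σ, hσ, h⟩ := Golay.M24_exists_map ![a, b, c, d, e] ![a', b', c', d', e']
    (hinj hab hac had hae hbc hbd hbe hcd hce hde)
    (hinj hab' hac' had' hae' hbc' hbd' hbe' hcd' hce' hde')
  exact ⟨σ, hσ, h 0, h 1, h 2, h 3, h 4⟩

theorem exists_fresh (s : Finset GolayPt) (hs : s.card < 24) : ∃ p, p ∉ s := by
  have _ := F
  by_contra h
  push Not at h
  have : s = Finset.univ := Finset.eq_univ_of_forall h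
  rw [this, Finset.card_univ, Golay.card_golayPt] at hs
  exact lt_irrefl _ hs

/-- 3-transitivity -/
theorem exists_map3 {a b c : GolayPt} (hab : a ≠ b) (hac : a ≠ c) (hbc : b ≠ c)
    {a' b' c' : GolayPt} (hab' : a' ≠ b') (hac' : a' ≠ c') (hbc' : b' ≠ c') :
    ∃ σ ∈ M24, σ a = a' ∧ σ b = b' ∧ σ c = c' := by
  obtain ⟨d, hd⟩ := F.exists_fresh {a, b, c, a', b', c'}
    (lt_of_le_of_lt Finset.card_le_six (by norm_num))
  obtain ⟨e, he⟩ := F.exists_fresh (insert d {a, b, c, a', b', c'})
    (lt_of_le_of_lt (Finset.card_insert_le _ _) (by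
      have := Finset.card_le_six (a := a) (b := b) (c := c) (d := a') (e := b') (f := c'); omega))
  simp only [Finset.mem_insert, Finset.mem_singleton, not_or] at hd he
  obtain ⟨σ, hσ, h1, h2, h3, -, -⟩ := F.exists_map5 (a := a) (b := b) (c := c) (d := d) (e := e)
    hab hac (Ne.symm hd.1) (Ne.symm he.2.1) hbc (Ne.symm hd.2.1) (Ne.symm he.2.2.1)
    (Ne.symm hd.2.2.1) (Ne.symm he.2.2.2.1) (Ne.symm he.1)
    (a' := a') (b' := b') (c' := c') (d' := d) (e' := e)
    hab' hac' (Ne.symm hd.2.2.2.1) (Ne.symm he.2.2.2.2.1) hbc' (Ne.symm hd.2.2.2.2.1)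
    (Ne.symm he.2.2.2.2.2.1) (Ne.symm hd.2.2.2.2.2) (Ne.symm he.2.2.2.2.2.2) (Ne.symm he.1)
  exact ⟨σ, hσ, h1, h2, h3⟩

/-- 2-transitivity -/
theorem exists_map2 {a b : GolayPt} (hab : a ≠ b) {a' b' : GolayPt} (hab' : a' ≠ b') :
    ∃ σ ∈ M24, σ a = a' ∧ σ b = b' := by
  obtain ⟨d, hd⟩ := F.exists_fresh {a, b, a', b'} (lt_of_le_of_lt Finset.card_le_four (by norm_num))
  simp only [Finset.mem_insert, Finset.mem_singleton, not_or] at hd
  obtain ⟨σ, hσ, h1, h2, -⟩ := F.exists_map3 (c := d) (c' := d) hab (Ne.symm hd.1) (Ne.symm hd.2.1) hab'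
    (Ne.symm hd.2.2.1) (Ne.symm hd.2.2.2)
  exact ⟨σ, hσ, h1, h2⟩

theorem diag_decomp (i j : GolayPt) : EE i i = EE j j + ((EE i j - EE j j) + (EE i j - EE j j)) := by
  have _ := F
  apply Subtype.ext
  simp only [AddSubgroup.coe_add, AddSubgroup.coe_sub, EE_coe]; abel

theorem diag_g (i j : GolayPt) : g (EE i i) = g (EE j j) := by
  rw [F.diag_decomp i j]; exact F.add_half _ _ (two_smul_mem_halfEven _)

theorem diag_γ (v : evenSum) (i j : GolayPt) : γ v (EE i i) = γ v (EE j j) := by
  rw [F.diag_decomp i j, F.addr, F.vanr v _ (two_smul_mem_halfEven _), add_zero]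

theorem flip_step0 : γ (EE (some 0) none) (EE (some 0) (some 0)) = g (EE (some 0) (some 0)) := by
  have hc : qrWord 0 ∈ golayCode := Submodule.subset_span (Set.mem_union_left _ ⟨0, rfl⟩)
  have h1 := F.flp (qrWord 0) hc (EE (some 0) none) (EE (some 0) none - EE (some 0) (some 0)) (by
    ext k
    simp only [AddSubgroup.coe_sub, EE_coe, Pi.sub_apply, Pi.add_apply, Leech.flip]
    by_cases h0 : k = some 0
    · subst h0
      have : lift (qrWord 0) (some 0) = 1 := by decide
      rw [this]
      simp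
    · by_cases h1 : k = none
      · subst h1
        have : lift (qrWord 0) none = 0 := by decide
        rw [this]; simp
      · rw [Pi.single_eq_of_ne h0, Pi.single_eq_of_ne h1]; simp)
  have h2 := F.add (EE (some 0) none - EE (some 0) (some 0)) (EE (some 0) (some 0))
  rw [sub_add_cancel, h1] at h2
  have h3 : γ (EE (some 0) none - EE (some 0) (some 0)) (EE (some 0) (some 0)) =
      γ (EE (some 0) none) (EE (some 0) (some 0)) := by
    have := F.addl (EE (some 0) none - EE (some 0) (some 0)) (EE (some 0) (some 0)) (EE (some 0) (some 0))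
    rw [sub_add_cancel, F.self (EE (some 0) (some 0)), add_zero] at this
    exact this.symm
  rw [h3, add_assoc] at h2
  have h4 : g (EE (some 0) (some 0)) + γ (EE (some 0) none) (EE (some 0) (some 0)) = 0 := by
    have : g (EE (some 0) none) + (g (EE (some 0) (some 0)) + γ (EE (some 0) none) (EE (some 0) (some 0))) =
      g (EE (some 0) none) + 0 := by rw [← h2, add_zero]
    exact add_left_cancel this
  calc γ (EE (some 0) none) (EE (some 0) (some 0)) = (g (EE (some 0) (some 0)) + g (EE (some 0) (some 0))) +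
        γ (EE (some 0) none) (EE (some 0) (some 0)) := by rw [F.two, zero_add]
    _ = g (EE (some 0) (some 0)) := by rw [add_assoc, h4, add_zero]

theorem flip_step {i j : GolayPt} (hij : i ≠ j) (k l : GolayPt) : γ (EE i j) (EE k k) = g (EE l l) := by
  obtain ⟨σ, hσ, h1, h2⟩ := F.exists_map2 (a := some 0) (b := none) (by decide) hij
  have h3 := F.perm_γ σ hσ (some 0) none (some 0) (some 0)
  rw [h1, h2, F.flip_step0] at h3
  rw [F.diag_γ _ k i, h3, F.diag_g _ l]

theorem g_diag (i : GolayPt) : g (EE i i) = 0 := by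
  have h : EE (some 0) (some 1) + EE (some 1) (some 2) + EE (some 2) (some 0) =
      EE (some 0) (some 0) + (EE (some 1) (some 2) + EE (some 1) (some 2)) := by
    apply Subtype.ext
    simp only [AddSubgroup.coe_add, EE_coe]; abel
  have h1 := congrArg (fun v => γ v (EE i i)) h
  simp only [F.addl] at h1
  rw [F.flip_step (i := some 0) (j := some 1) (by decide) i i,
    F.flip_step (i := some 1) (j := some 2) (by decide) i i,
    F.flip_step (i := some 2) (j := some 0) (by decide) i i, F.two (g (EE i i)), zero_add, add_zero,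
    F.symm, F.diag_γ _ (some 0) i, F.self] at h1
  exact h1

theorem γ_diag (i j k : GolayPt) : γ (EE i j) (EE k k) = 0 := by
  by_cases h : i = j
  · subst h; rw [F.diag_γ _ k i, F.self]
  · rw [F.flip_step h k k, F.g_diag]

theorem γ_disj {i m j k : GolayPt} (him : i ≠ m) (hij : i ≠ j) (hik : i ≠ k) (hmj : m ≠ j) (hmk : m ≠ k)
    (hjk : j ≠ k) : γ (EE i m) (EE j k) = 0 := by
  obtain ⟨l, hl⟩ := F.exists_fresh {i, m, j, k} (lt_of_le_of_lt Finset.card_le_four (by norm_num))
  simp only [Finset.mem_insert, Finset.mem_singleton, not_or] at hl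
  have hli : l ≠ i := hl.1
  have hlm : l ≠ m := hl.2.1
  have hlj : l ≠ j := hl.2.2.1
  have hlk : l ≠ k := hl.2.2.2
  have h1 : γ (EE i m) (EE k l) = γ (EE i m) (EE j k) := by
    obtain ⟨σ, hσ, e1, e2, e3, e4, -⟩ := F.exists_map5 (a := i) (b := m) (c := j) (d := k) (e := l)
      him hij hik hli.symm hmj hmk hlm.symm hjk hlj.symm hlk.symm
      (a' := i) (b' := m) (c' := k) (d' := l) (e' := j)
      him hik hli.symm hij hmk hlm.symm hmj hlk.symm hjk.symm hlj
    have := F.perm_γ σ hσ i m j k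
    rwa [e1, e2, e3, e4] at this
  have h2 : γ (EE i m) (EE j l) = γ (EE i m) (EE j k) := by
    obtain ⟨σ, hσ, e1, e2, e3, e4, -⟩ := F.exists_map5 (a := i) (b := m) (c := j) (d := k) (e := l)
      him hij hik hli.symm hmj hmk hlm.symm hjk hlj.symm hlk.symm
      (a' := i) (b' := m) (c' := j) (d' := l) (e' := k)
      him hij hli.symm hik hmj hlm.symm hmk hlj.symm hjk hlk
    have := F.perm_γ σ hσ i m j k
    rwa [e1, e2, e3, e4] at this
  have h3 := congrArg (γ (EE i m)) (EE_add j k k l)
  rw [F.addr, F.addr, h1, h2, F.γ_diag, F.two, add_zero] at h3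
  exact h3.symm

theorem lift_qr0 : lift (qrWord 0) = ((EE (some 0) (some 1) + EE (some 2) (some 3) + EE (some 4) (some 6) +
    EE (some 8) (some 9) + EE (some 12) (some 13) + EE (some 16) (some 18) : evenSum) : GolayPt → ℤ) := by
  have _ := F
  simp only [AddSubgroup.coe_add, EE_coe]
  ext p
  revert p
  decide

theorem γ_adj0 : γ (EE (some 0) (some 1)) (EE (some 0) (some 5)) = 0 := by
  have hc : qrWord 0 ∈ golayCode := Submodule.subset_span (Set.mem_union_left _ ⟨0, rfl⟩)
  have h1 := F.vanl _ (F.lift_qr0 ▸ lift_mem_halfEven hc) (EE (some 0) (some 5))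
  simp only [F.addl] at h1
  rw [F.γ_disj (i := some 2) (m := some 3) (j := some 0) (k := some 5) (by decide) (by decide) (by decide)
      (by decide) (by decide) (by decide),
    F.γ_disj (i := some 4) (m := some 6) (j := some 0) (k := some 5) (by decide) (by decide) (by decide)
      (by decide) (by decide) (by decide),
    F.γ_disj (i := some 8) (m := some 9) (j := some 0) (k := some 5) (by decide) (by decide) (by decide)
      (by decide) (by decide) (by decide),
    F.γ_disj (i := some 12) (m := some 13) (j := some 0) (k := some 5) (by decide) (by decide) (by decide)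
      (by decide) (by decide) (by decide),
    F.γ_disj (i := some 16) (m := some 18) (j := some 0) (k := some 5) (by decide) (by decide) (by decide)
      (by decide) (by decide) (by decide)] at h1
  simpa using h1

theorem γ_adj {i j k : GolayPt} (hij : i ≠ j) (hik : i ≠ k) (hjk : j ≠ k) : γ (EE i j) (EE i k) = 0 := by
  obtain ⟨σ, hσ, h1, h2, h3⟩ := F.exists_map3 (a := some 0) (b := some 1) (c := some 5)
    (by decide) (by decide) (by decide) hij hik hjk
  have := F.perm_γ σ hσ (some 0) (some 1) (some 0) (some 5)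
  rwa [h1, h2, h3, F.γ_adj0] at this

theorem γ_EE (i j k l : GolayPt) : γ (EE i j) (EE k l) = 0 := by
  by_cases hkl : k = l
  · subst hkl; exact F.γ_diag i j k
  by_cases hij : i = j
  · subst hij; rw [F.symm]; exact F.γ_diag k l i
  by_cases hik : i = k
  · subst hik
    by_cases hjl : j = l
    · subst hjl; exact F.self _
    · exact F.γ_adj hij hkl hjl
  by_cases hil : i = l
  · subst hil
    rw [EE_comm k i]
    by_cases hjk : j = k
    · subst hjk; exact F.self _
    · exact F.γ_adj hij hik hjk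
  by_cases hjk : j = k
  · subst hjk
    rw [EE_comm i j]
    exact F.γ_adj (Ne.symm hij) hkl hil
  by_cases hjl : j = l
  · subst hjl
    rw [EE_comm i j, EE_comm k j]
    exact F.γ_adj (Ne.symm hij) (Ne.symm hkl) hik
  exact F.γ_disj hij hik hil hjk hjl hkl

theorem γ_zero (v w : evenSum) : γ v w = 0 := by
  have hv : v ∈ AddSubgroup.closure {x : evenSum | ∃ i j, x = EE i j} := by rw [closure_EE]; trivial
  have hw : w ∈ AddSubgroup.closure {x : evenSum | ∃ i j, x = EE i j} := by rw [closure_EE]; trivial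
  have key : ∀ i j, γ (EE i j) w = 0 := by
    intro i j
    induction hw using AddSubgroup.closure_induction with
    | mem x hx => obtain ⟨k, l, rfl⟩ := hx; exact F.γ_EE i j k l
    | zero => rw [F.symm]; exact F.zerol _
    | add x y _ _ hx hy => rw [F.addr, hx, hy, add_zero]
    | neg x _ hx =>
      have := F.addr (EE i j) x (-x)
      rw [add_neg_cancel, F.symm, F.zerol, hx, zero_add] at this
      exact this.symm
  induction hv using AddSubgroup.closure_induction with
  | mem x hx => obtain ⟨k, l, rfl⟩ := hx; exact key k l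
  | zero => exact F.zerol _
  | add x y _ _ hx hy => rw [F.addl, hx, hy, add_zero]
  | neg x _ hx =>
    have := F.addl x (-x) w
    rw [add_neg_cancel, F.zerol, hx, zero_add] at this
    exact this.symm

theorem g_add (v w : evenSum) : g (v + w) = g v + g w := by rw [F.add, F.γ_zero, add_zero]

theorem g_EE (i j : GolayPt) : g (EE i j) = 0 := by
  by_cases h : i = j
  · subst h; exact F.g_diag i
  · obtain ⟨k, hk⟩ := F.exists_fresh {i, j} (lt_of_le_of_lt Finset.card_le_two (by norm_num))
    simp only [Finset.mem_insert, Finset.mem_singleton, not_or] at hk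
    have h1 : g (EE j k) = g (EE i j) := by
      obtain ⟨σ, hσ, e1, e2⟩ := F.exists_map2 h (Ne.symm hk.2)
      have := F.perm_EE σ hσ i j
      rwa [e1, e2] at this
    have h2 : g (EE i k) = g (EE i j) := by
      obtain ⟨σ, hσ, e1, e2⟩ := F.exists_map2 h (Ne.symm hk.1)
      have := F.perm_EE σ hσ i j
      rwa [e1, e2] at this
    have h3 := congrArg g (EE_add i j j k)
    rw [F.g_add, F.g_add, h1, h2, F.g_diag, F.two, add_zero] at h3
    exact h3.symm

/-- The main lemma. -/
theorem eq_zero (v : evenSum) : g v = 0 := by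
  have hv : v ∈ AddSubgroup.closure {x : evenSum | ∃ i j, x = EE i j} := by rw [closure_EE]; trivial
  induction hv using AddSubgroup.closure_induction with
  | mem x hx => obtain ⟨k, l, rfl⟩ := hx; exact F.g_EE k l
  | zero => exact F.zero
  | add x y _ _ hx hy => rw [F.g_add, hx, hy, add_zero]
  | neg x _ hx =>
    have := F.g_add x (-x)
    rw [add_neg_cancel, F.zero, hx, zero_add] at this
    exact this.symm

end EForm

/-! ### Invariant functions on the lattice -/

/-- quadratic functions on the lattice mod 2 invariant under `Co0` -/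
structure InvForm (f : leechLattice → ZMod 2) (β : leechLattice → leechLattice → ZMod 2) : Prop where
  add : ∀ v w, f (v + w) = f v + f w + β v w
  addl : ∀ u v w, β (u + v) w = β u w + β v w
  dbl : ∀ v, f (v + v) = 0
  inv : ∀ g ∈ Co0, ∀ v, f (g v) = f v

theorem InvForm.eform {f : leechLattice → ZMod 2} {β : leechLattice → leechLattice → ZMod 2}
    (F : InvForm f β) : EForm (fun y => f (emb4 y)) (fun y z => β (emb4 y) (emb4 z)) where
  add v w := by
    show f (emb4 (v + w)) = _
    rw [map_add]; exact F.add _ _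
  addl u v w := by
    show β (emb4 (u + v)) _ = _
    rw [map_add]; exact F.addl _ _ _
  van v hv := by
    obtain ⟨w, hw⟩ := emb4_of_halfEven hv
    show f (emb4 v) = 0
    rw [hw]; exact F.dbl w
  vanl v hv w := by
    obtain ⟨u, hu⟩ := emb4_of_halfEven hv
    show β (emb4 v) (emb4 w) = 0
    rw [hu, F.addl]
    generalize β u (emb4 w) = z; revert z; decide
  perm σ hσ v w h := by
    have h1 := F.inv (permCo σ hσ) (permCo_mem σ hσ) (emb4 v)
    have h2 : permCo σ hσ (emb4 v) = emb4 w := by
      apply Subtype.ext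
      rw [emb4_coe, h]
      rfl
    rw [h2] at h1; exact h1
  flp c hc v w h := by
    have h1 := F.inv (flipCo c hc) (flipCo_mem c hc) (emb4 v)
    have h2 : flipCo c hc (emb4 v) = emb4 w := by
      apply Subtype.ext
      rw [emb4_coe, h]
      ext i
      show (1 - 2 * lift c i) * ((4 : ℤ) • (v : GolayPt → ℤ) i) = (4 : ℤ) • ((1 - 2 * lift c i) * (v : GolayPt → ℤ) i)
      simp only [smul_eq_mul]; ring
    rw [h2] at h1; exact h1

/-- An invariant quadratic function modulo 2 on the lattice vanishes on `4 y`, `y` of even sum. -/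
theorem InvForm.eq_zero {f : leechLattice → ZMod 2} {β : leechLattice → leechLattice → ZMod 2}
    (F : InvForm f β) (y : evenSum) : f (emb4 y) = 0 := F.eform.eq_zero y

theorem evenSum_index : evenSum.index = 2 := by
  unfold evenSum
  rw [AddSubgroup.index_comap_of_surjective]
  · simp
  · intro n
    refine ⟨Pi.single none n, ?_⟩
    show ∑ i, (Pi.single none n : GolayPt → ℤ) i = n
    simp

theorem halfEven_relIndex_evenSum : halfEven.relIndex evenSum = 2 ^ 12 := by
  have h := AddSubgroup.relIndex_mul_index halfEven_le_evenSum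
  rw [evenSum_index, halfEven_index] at h
  have : (2 : ℕ) ^ 13 = 2 ^ 12 * 2 := by norm_num
  rw [this] at h
  exact Nat.eq_of_mul_eq_mul_right (by norm_num) h

end Cfsg.Agent.H90
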