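import Cfsg.Agent.H90.LeechUse
import Cfsg.Agent.Golay.Simple

/-!
# The facts on `Co0` used for groups of Monster type, and first consequences (owner: helper90)
-/

set_option autoImplicit false

namespace Cfsg.Agent.H90

open Cfsg Cfsg.Agent.Leech

/-- `g` is the monomial map with sign word `c` and coordinate permutation `σ`. -/
def IsMono (g : Equiv.Perm leechLattice) (c : GolayPt → ZMod 2) (σ : Equiv.Perm GolayPt) : Prop :=
  ∀ (v : leechLattice) (i : GolayPt), (g v : GolayPt → ℤ) i = (1 - 2 * lift c i) * (v : GolayPt → ℤ) (σ i)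

theorem isMono_flipCo (c : GolayPt → ZMod 2) (hc : c ∈ golayCode) : IsMono (flipCo c hc) c 1 := fun _ _ => rfl

theorem isMono_permCo (σ : Equiv.Perm GolayPt) (hσ : σ ∈ M24) : IsMono (permCo σ hσ) 0 σ := by
  intro v i
  rw [lift_zero]
  show (v : GolayPt → ℤ) (σ i) = _
  ring

theorem isMono_one : IsMono 1 0 1 := by
  intro v i
  rw [lift_zero]
  simp

theorem sgn_mul (a b : ZMod 2) : (1 - 2 * (a.val : ℤ)) * (1 - 2 * (b.val : ℤ)) = 1 - 2 * ((a + b).val : ℤ) := by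
  revert a b; decide

theorem sgn_sq (a : ZMod 2) : (1 - 2 * (a.val : ℤ)) * (1 - 2 * (a.val : ℤ)) = 1 := by
  revert a; decide

theorem sgn_inj {a b : ZMod 2} (h : (1 - 2 * (a.val : ℤ)) = (1 - 2 * (b.val : ℤ))) : a = b := by
  revert h; revert a b; decide

theorem sgn_ne_zero (a : ZMod 2) : (1 - 2 * (a.val : ℤ)) ≠ 0 := by
  revert a; decide

theorem IsMono.mul {g g' : Equiv.Perm leechLattice} {c c' : GolayPt → ZMod 2} {σ σ' : Equiv.Perm GolayPt}
    (h : IsMono g c σ) (h' : IsMono g' c' σ') : IsMono (g * g') (c + fun i => c' (σ i)) (σ' * σ) := by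
  intro v i
  show ((g (g' v) : leechLattice) : GolayPt → ℤ) i = _
  rw [h (g' v) i, h' v (σ i), ← mul_assoc]
  have := sgn_mul (c i) (c' (σ i))
  unfold lift
  rw [this]; rfl

theorem IsMono.inv {g : Equiv.Perm leechLattice} {c : GolayPt → ZMod 2} {σ : Equiv.Perm GolayPt}
    (h : IsMono g c σ) : IsMono g⁻¹ (fun i => c (σ⁻¹ i)) σ⁻¹ := by
  intro v i
  have h1 := h (g⁻¹ v) (σ⁻¹ i)
  have h2 : g (g⁻¹ v) = v := g.apply_symm_apply v
  have h3 : σ (σ⁻¹ i) = i := σ.apply_symm_apply i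
  rw [h2, h3] at h1
  have h4 := sgn_sq (c (σ⁻¹ i))
  unfold lift at h1 ⊢
  rw [h1, ← mul_assoc, h4, one_mul]

theorem IsMono.pow {g : Equiv.Perm leechLattice} {c : GolayPt → ZMod 2} {σ : Equiv.Perm GolayPt}
    (h : IsMono g c σ) (n : ℕ) : ∃ c', IsMono (g ^ n) c' (σ ^ n) := by
  induction n with
  | zero => exact ⟨0, by simpa using isMono_one⟩
  | succ n ih =>
    obtain ⟨c', hc'⟩ := ih
    have h1 := h.mul hc'
    rw [← pow_succ, ← pow_succ'] at h1
    exact ⟨_, h1⟩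

theorem IsMono.perm_unique {g : Equiv.Perm leechLattice} {c c' : GolayPt → ZMod 2} {σ σ' : Equiv.Perm GolayPt}
    (h : IsMono g c σ) (h' : IsMono g c' σ') : σ = σ' := by
  ext1 i
  have h1 := h (v8 (σ i)) i
  have h2 := h' (v8 (σ i)) i
  rw [h1, v8_coe, Pi.single_eq_same] at h2
  by_contra hne
  rw [Pi.single_eq_of_ne (Ne.symm hne)] at h2
  rw [mul_zero] at h2
  have := sgn_ne_zero (c i)
  unfold lift at h2
  omega

theorem IsMono.word_unique {g : Equiv.Perm leechLattice} {c c' : GolayPt → ZMod 2} {σ σ' : Equiv.Perm GolayPt}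
    (h : IsMono g c σ) (h' : IsMono g c' σ') : c = c' := by
  have hσ := h.perm_unique h'
  subst hσ
  ext1 i
  have h1 := h (v8 (σ i)) i
  have h2 := h' (v8 (σ i)) i
  rw [h1, v8_coe, Pi.single_eq_same] at h2
  apply sgn_inj
  unfold lift at h2
  omega

theorem IsMono.eq {g g' : Equiv.Perm leechLattice} {c : GolayPt → ZMod 2} {σ : Equiv.Perm GolayPt}
    (h : IsMono g c σ) (h' : IsMono g' c σ) : g = g' := by
  ext1 v
  apply Subtype.ext
  ext i
  rw [h v i, h' v i]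

theorem IsMono.mem_Co0_of {g : Equiv.Perm leechLattice} {c : GolayPt → ZMod 2} {σ : Equiv.Perm GolayPt}
    (h : IsMono g c σ) (hc : c ∈ golayCode) (hσ : σ ∈ M24) : g ∈ Co0 := by
  have h1 : IsMono (flipCo c hc * permCo σ hσ) c σ := by
    have := (isMono_flipCo c hc).mul (isMono_permCo σ hσ)
    have h2 : (c + fun i => (0 : GolayPt → ZMod 2) ((1 : Equiv.Perm GolayPt) i)) = c := by
      ext i; simp
    rw [h2, mul_one] at this
    exact this
  rw [h.eq h1]
  exact mul_mem (flipCo_mem c hc) (permCo_mem σ hσ)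

theorem cg_v8 (i j : GolayPt) : Cg (v8 i) (v8 j) := by
  obtain ⟨w, hw⟩ := emb4_of_halfEven (two_smul_mem_halfEven (EE i j - EE j j))
  refine ⟨w, ?_⟩
  rw [← hw]
  show emb4 (EE i i) = emb4 (EE j j) + emb4 _
  rw [← map_add]
  congr 1
  apply Subtype.ext
  simp only [AddSubgroup.coe_add, AddSubgroup.coe_sub, EE_coe]; abel

theorem IsMono.cg {g : Equiv.Perm leechLattice} {c : GolayPt → ZMod 2} {σ : Equiv.Perm GolayPt}
    (h : IsMono g c σ) (i : GolayPt) : Cg (g (v8 i)) (v8 i) := by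
  have h1 : g (v8 i) = v8 (σ⁻¹ i) ∨ g (v8 i) = -v8 (σ⁻¹ i) := by
    have h2 : ∀ j, (g (v8 i) : GolayPt → ℤ) j = (1 - 2 * lift c (σ⁻¹ i)) * (v8 (σ⁻¹ i) : GolayPt → ℤ) j := by
      intro j
      rw [h (v8 i) j, v8_coe, v8_coe]
      by_cases hj : j = σ⁻¹ i
      · subst hj
        rw [show σ (σ⁻¹ i) = i from σ.apply_symm_apply i]
        simp
      · rw [Pi.single_eq_of_ne hj, Pi.single_eq_of_ne]
        · simp
        · intro h'; exact hj (by rw [← h']; exact (σ.symm_apply_apply j).symm)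
    rcases lift_zero_or_one c (σ⁻¹ i) with h3 | h3
    · left
      apply Subtype.ext
      ext j; rw [h2 j, h3]; ring
    · right
      apply Subtype.ext
      ext j; rw [h2 j, h3, AddSubgroup.coe_neg, Pi.neg_apply]; ring
  rcases h1 with h1 | h1
  · rw [h1]; exact cg_v8 _ _
  · rw [h1]; exact (Cg.neg _).trans (cg_v8 _ _)

/-- The facts about the automorphism group of the lattice that are used. -/
structure LeechFacts : Prop where
  t2 : ∀ v w : leechLattice, sqNorm (v : GolayPt → ℤ) = 32 → sqNorm (w : GolayPt → ℤ) = 32 →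
    ∃ g ∈ Co0, g v = w
  t3 : ∀ v w : leechLattice, sqNorm (v : GolayPt → ℤ) = 48 → sqNorm (w : GolayPt → ℤ) = 48 →
    ∃ g ∈ Co0, g v = w
  t4 : ∀ v w : leechLattice, sqNorm (v : GolayPt → ℤ) = 64 → sqNorm (w : GolayPt → ℤ) = 64 →
    ∃ g ∈ Co0, Cg (g v) w
  frame : ∀ g ∈ Co0, Cg (g (v8 none)) (v8 none) → ∃ σ ∈ M24, ∃ c ∈ golayCode, IsMono g c σ
  co2 : ∀ N : Subgroup (Equiv.Perm leechLattice), N ≤ Spor.Co2 → (∀ g ∈ Spor.Co2, ∀ n ∈ N, g * n * g⁻¹ ∈ N) →
    (∀ n ∈ N, ∃ k : ℕ, n ^ (2 ^ k) = 1) → ∀ n ∈ N, n = 1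

theorem exists_cg_small (v : leechLattice) : ∃ w : leechLattice, Cg v w ∧
    (sqNorm (w : GolayPt → ℤ) = 0 ∨ sqNorm (w : GolayPt → ℤ) = 32 ∨ sqNorm (w : GolayPt → ℤ) = 48 ∨
      sqNorm (w : GolayPt → ℤ) = 64) := by
  obtain ⟨y, hy, hn, hc⟩ := mod_two_rep v v.2
  refine ⟨⟨y, hy⟩, (cg_iff _ _).2 hc, ?_⟩
  have h16 := sixteen_dvd_sqNorm hy
  have h0 := sqNorm_nonneg y
  show sqNorm y = 0 ∨ sqNorm y = 32 ∨ sqNorm y = 48 ∨ sqNorm y = 64
  by_cases hy0 : y = 0
  · left; rw [hy0]; exact (sqNorm_eq_zero_iff 0).2 rfl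
  · have := min_norm hy hy0
    omega

theorem InvForm.cg {f : leechLattice → ZMod 2} {β : leechLattice → leechLattice → ZMod 2}
    (F : InvForm f β) {v w : leechLattice} (h : Cg v w) : f v = f w := by
  obtain ⟨u, rfl⟩ := h
  have h1 : ∀ a : ZMod 2, a + a = 0 := by decide
  have h2 : β w (u + u) = 0 := by
    have h3 : β (u + u) w = 0 := by rw [F.addl, h1]
    have h4 := F.add w (u + u)
    have h5 := F.add (u + u) w
    rw [add_comm (u + u) w, h4, add_comm (f w) (f (u + u))] at h5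
    rw [add_left_cancel h5, h3]
  rw [F.add, F.dbl, h2]; simp

/-- The invariant form is `squared length / 16` modulo 2. -/
theorem InvForm.eq_norm (L : LeechFacts) {f : leechLattice → ZMod 2} {β : leechLattice → leechLattice → ZMod 2}
    (F : InvForm f β) (hne : ∃ v, f v ≠ 0) (v : leechLattice) :
    f v = 0 ↔ (32 : ℤ) ∣ sqNorm (v : GolayPt → ℤ) := by
  have h32 : ∀ w : leechLattice, sqNorm (w : GolayPt → ℤ) = 32 → f w = 0 := by
    intro w hw
    obtain ⟨g, hg, h⟩ := L.t2 (vp none (some 0)) w (sqNorm_vp (by decide)) hw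
    rw [← h, F.inv g hg]
    exact F.eq_zero _
  have h64 : ∀ w : leechLattice, sqNorm (w : GolayPt → ℤ) = 64 → f w = 0 := by
    intro w hw
    obtain ⟨g, hg, h⟩ := L.t4 (v8 none) w (sqNorm_v8 _) hw
    rw [← F.cg h, F.inv g hg]
    exact F.eq_zero _
  have h0 : ∀ w : leechLattice, sqNorm (w : GolayPt → ℤ) = 0 → f w = 0 := by
    intro w hw
    have : w = 0 + 0 := by
      rw [add_zero]
      exact Subtype.ext ((sqNorm_eq_zero_iff _).1 hw)
    rw [this]; exact F.dbl 0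
  have h48 : ∀ w : leechLattice, sqNorm (w : GolayPt → ℤ) = 48 → f w ≠ 0 := by
    intro w hw h
    obtain ⟨u, hu⟩ := hne
    apply hu
    obtain ⟨u', hcg, hn⟩ := exists_cg_small u
    rw [F.cg hcg]
    rcases hn with hn | hn | hn | hn
    · exact h0 _ hn
    · exact h32 _ hn
    · obtain ⟨g, hg, h'⟩ := L.t3 w u' hw hn
      rw [← h', F.inv g hg, h]
    · exact h64 _ hn
  obtain ⟨w, hcg, hn⟩ := exists_cg_small v
  rw [F.cg hcg, hcg.norm32]
  rcases hn with hn | hn | hn | hn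
  · rw [h0 w hn, hn]; simp
  · rw [h32 w hn, hn]; simp
  · rw [hn]
    constructor
    · intro h; exact absurd h (h48 w hn)
    · intro h; norm_num at h
  · rw [h64 w hn, hn]; norm_num

/-- The polar form is `inner product / 8` modulo 2. -/
theorem InvForm.bil_eq (L : LeechFacts) {f : leechLattice → ZMod 2} {β : leechLattice → leechLattice → ZMod 2}
    (F : InvForm f β) (hne : ∃ v, f v ≠ 0) (v w : leechLattice) :
    β v w = 0 ↔ (16 : ℤ) ∣ dotInt (v : GolayPt → ℤ) w := by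
  have h1 := F.add v w
  have e1 := F.eq_norm L hne v
  have e2 := F.eq_norm L hne w
  have e3 := F.eq_norm L hne (v + w)
  have h3 : sqNorm ((v + w : leechLattice) : GolayPt → ℤ) =
      sqNorm (v : GolayPt → ℤ) + sqNorm (w : GolayPt → ℤ) + 2 * dotInt (v : GolayPt → ℤ) w := by
    rw [AddSubgroup.coe_add, sqNorm_add]
  have h4 := sixteen_dvd_sqNorm v.2
  have h5 := sixteen_dvd_sqNorm w.2
  have h6 := eight_dvd_dotInt v.2 w.2
  have key : ∀ a b c d : ZMod 2, a = b + c + d → (d = 0 ↔ (a = 0 ↔ (b = 0 ↔ c = 0))) := by decide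
  rw [key _ _ _ _ h1, e1, e2, e3, h3]
  omega

theorem haveFact2 {H : Type*} [Group H] [Finite H] (hp : IsPGroup 2 H) : ∃ n : ℕ, Nat.card H = 2 ^ n := by
  have : Fact (Nat.Prime 2) := ⟨Nat.prime_two⟩
  exact IsPGroup.iff_card.1 hp

/-- Normal 2-subgroups of the stabilizer of the class of `8 e_none` consist of sign changes. -/
theorem normal_two_le_flips (L : LeechFacts) (N : Subgroup (Equiv.Perm leechLattice))
    (hN : ∀ n ∈ N, n ∈ Co0 ∧ Cg (n (v8 none)) (v8 none))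
    (hnorm : ∀ g ∈ Co0, Cg (g (v8 none)) (v8 none) → ∀ n ∈ N, g * n * g⁻¹ ∈ N)
    (h2 : ∀ n ∈ N, ∃ k : ℕ, n ^ (2 ^ k) = 1) : ∀ n ∈ N, ∃ c ∈ golayCode, IsMono n c 1 := by
  let P : Subgroup (Equiv.Perm GolayPt) :=
    { carrier := {σ | ∃ g ∈ N, ∃ c, IsMono g c σ}
      one_mem' := ⟨1, N.one_mem, 0, isMono_one⟩
      mul_mem' := by
        rintro σ τ ⟨g, hg, c, h⟩ ⟨g', hg', c', h'⟩
        exact ⟨g' * g, N.mul_mem hg' hg, _, h'.mul h⟩
      inv_mem' := by
        rintro σ ⟨g, hg, c, h⟩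
        exact ⟨g⁻¹, N.inv_mem hg, _, h.inv⟩ }
  have hP : ∀ σ, σ ∈ P ↔ ∃ g ∈ N, ∃ c, IsMono g c σ := fun σ => Iff.rfl
  have hs : IsSimpleGroup M24 := Golay.simple_M24
  have hn : (P.subgroupOf M24).Normal := by
    refine ⟨fun σ hσ τ => ?_⟩
    rw [Subgroup.mem_subgroupOf] at hσ ⊢
    obtain ⟨g, hg, c, h⟩ := hσ
    -- conjugate by permCo τ⁻¹
    have hτ := inv_mem τ.2
    have h3 := ((isMono_permCo _ hτ).mul h).mul (isMono_permCo _ hτ).inv
    have h4 : ((τ : Equiv.Perm GolayPt)⁻¹⁻¹ * ((σ : Equiv.Perm GolayPt) * (τ : Equiv.Perm GolayPt)⁻¹)) =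
        ((τ * σ * τ⁻¹ : M24) : Equiv.Perm GolayPt) := by
      simp [mul_assoc]
    rw [h4] at h3
    exact ⟨_, hnorm _ (permCo_mem _ hτ) ((isMono_permCo _ hτ).cg none) g hg, _, h3⟩
  have hbot : P.subgroupOf M24 = ⊥ := by
    rcases hs.eq_bot_or_eq_top_of_normal _ hn with h | h
    · exact h
    · exfalso
      rw [Subgroup.subgroupOf_eq_top] at h
      have hp : IsPGroup 2 M24 := by
        intro σ
        obtain ⟨g, hg, c, hgc⟩ := h σ.2
        obtain ⟨k, hk⟩ := h2 g hg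
        obtain ⟨c', hc'⟩ := hgc.pow (2 ^ k)
        rw [hk] at hc'
        refine ⟨k, ?_⟩
        apply Subtype.ext
        exact hc'.perm_unique isMono_one
      obtain ⟨n, hn⟩ := (haveFact2 (hp := hp))
      rw [Golay.card_M24] at hn
      have h3 : (3 : ℕ) ∣ 2 ^ n := by rw [← hn]; norm_num
      have h4 := Nat.Prime.dvd_of_dvd_pow (by norm_num : Nat.Prime 3) h3
      norm_num at h4
  intro n hnN
  obtain ⟨σ, hσ, c, hc, h⟩ := L.frame n (hN n hnN).1 (hN n hnN).2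
  have h5 : (⟨σ, hσ⟩ : M24) ∈ P.subgroupOf M24 := ⟨n, hnN, c, h⟩
  rw [hbot, Subgroup.mem_bot] at h5
  have h6 : σ = 1 := congrArg Subtype.val h5
  rw [h6] at h
  exact ⟨c, hc, h⟩

end Cfsg.Agent.H90
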