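import Cfsg.Agent.H90.LeechMore
import Cfsg.Agent.Leech.CrossStab

/-!
# Proof of the facts on `Co0` used for groups of Monster type (owner: helper90)
-/

set_option autoImplicit false

namespace Cfsg.Agent.H90

open Cfsg Cfsg.Agent.Leech

theorem e8_eq_v8 (i : GolayPt) : e8 i = v8 i := by
  apply Subtype.ext
  rw [v8_coe]; rfl

theorem mem_cross_eight (y : leechLattice) : (y : GolayPt → ℤ) ∈ cross (eightVec : GolayPt → ℤ) ↔
    sqNorm (y : GolayPt → ℤ) = 64 ∧ Cg y (v8 none) := by
  constructor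
  · rintro ⟨-, h2, z, hz, h3⟩
    refine ⟨by rw [h2, norm_eightVec], ?_⟩
    apply Cg.symm
    rw [cg_iff, ← e8_eq_v8]
    exact ⟨z, hz, h3⟩
  · rintro ⟨h1, h2⟩
    have h3 := h2.symm
    rw [cg_iff, ← e8_eq_v8] at h3
    obtain ⟨z, hz, h3⟩ := h3
    exact ⟨y.2, by rw [h1, norm_eightVec], z, hz, h3⟩

theorem mem_crossSet_cg (y : leechLattice) : (∃ i, y = e8 i ∨ y = -e8 i) ↔
    sqNorm (y : GolayPt → ℤ) = 64 ∧ Cg y (v8 none) := by
  rw [← mem_cross_eight, ← stdCross_eq, mem_stdCross_iff]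

theorem frame_of_cg (g : Equiv.Perm leechLattice) (hg : g ∈ Co0) (h : Cg (g (v8 none)) (v8 none)) :
    ∃ σ ∈ M24, ∃ c ∈ golayCode, IsMono g c σ := by
  obtain ⟨c, hc, σ, hσ, h1⟩ := mono_of_cross ⟨g, hg⟩ (by
    intro i
    rw [mem_crossSet_cg]
    have h2 : sqNorm (e8 i : GolayPt → ℤ) = 64 ∧ Cg (e8 i) (v8 none) :=
      (mem_crossSet_cg _).1 ⟨i, Or.inl rfl⟩
    refine ⟨?_, ?_⟩
    · show sqNorm ((g (e8 i) : leechLattice) : GolayPt → ℤ) = 64
      rw [hg.2]; exact h2.1
    · exact (h2.2.map hg).trans h)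
  refine ⟨σ⁻¹, inv_mem hσ, c, hc, ?_⟩
  intro v j
  have h2 := mono_smul c hc σ hσ v j
  rw [← h1] at h2
  exact h2

theorem cg_of_mem_crossStab {g : Co0} (hg : g ∈ crossStab) : Cg (g.1 (v8 none)) (v8 none) := by
  have h1 := (mem_crossStab_iff g).1 hg (e8 none) ((mem_stdCross_iff _).2 ⟨none, Or.inl rfl⟩)
  rw [mem_stdCross_iff, mem_crossSet_cg, e8_eq_v8] at h1
  exact h1.2

theorem mem_crossStab_of_cg {g : Co0} (hg : Cg (g.1 (v8 none)) (v8 none)) : g ∈ crossStab := by
  obtain ⟨σ, hσ, c, hc, h⟩ := frame_of_cg g.1 g.2 hg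
  have h1 : g = flipElt c hc * permElt σ⁻¹ (inv_mem hσ) := by
    apply co0_ext
    intro x
    apply Subtype.ext
    funext j
    rw [mono_smul]
    exact h x j
  rw [h1]
  exact mono_mem_crossStab _ _ _ _

/-! ### The vectors `±4e_i ± 4e_j` -/

/-- The set of the vectors `±4e_i ± 4e_j`. -/
def fourSet : Set leechLattice := {x | sqNorm (x : GolayPt → ℤ) = 32 ∧ ∀ i, (4 : ℤ) ∣ (x : GolayPt → ℤ) i}

theorem ncard_fourSet : fourSet.ncard = 1104 := by
  have h := ncard_even' {0, 4, -4} ∅ (by decide) (by decide) (by decide) (by decide) (by decide) 8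
    (fun B => 1 + 2 * B ^ 4) (fun _ => 0) (by
      intro B
      rw [Finset.sum_insert (by decide), Finset.sum_insert (by decide), Finset.sum_singleton]
      have h1 : ee 0 = 0 := by decide
      have h2 : ee 4 = 4 := by decide
      have h3 : ee (-4) = 4 := by decide
      rw [h1, h2, h3]; ring) (by intro B; simp)
  have h2 : fourSet.ncard = {x : GolayPt → ℤ | IsEvenVec x ∧ sqNorm x = 4 * ((8 : ℕ) : ℤ) ∧
      ∀ i, x i ∈ ({0, 4, -4} : Finset ℤ) ∨ x i ∈ (∅ : Finset ℤ)}.ncard := by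
    apply Set.ncard_congr (fun (x : leechLattice) _ => (x : GolayPt → ℤ))
    · rintro x ⟨h1, h2⟩
      refine ⟨?_, by rw [h1]; norm_num, fun i => Or.inl ?_⟩
      · rw [isEven_iff x.2]
        exact (by norm_num : (2 : ℤ) ∣ 4).trans (h2 none)
      · have h3 := abs_le_of_norm h1 (by norm_num) i
        obtain ⟨k, hk⟩ := h2 i
        have h4 : (x : GolayPt → ℤ) i ^ 2 ≤ sqNorm (x : GolayPt → ℤ) := by
          unfold sqNorm
          exact Finset.single_le_sum (f := fun i => (x : GolayPt → ℤ) i ^ 2) (fun j _ => sq_nonneg _)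
            (Finset.mem_univ i)
        rw [h1] at h4
        have h5 : -2 ≤ k ∧ k ≤ 2 := by omega
        simp only [Finset.mem_insert, Finset.mem_singleton]
        obtain ⟨h5, h6⟩ := h5
        interval_cases k <;> simp_all
    · intro x y _ _ h; exact Subtype.ext h
    · rintro x ⟨h1, h2, h3⟩
      refine ⟨⟨x, (mem_iff _).2 (Or.inl h1)⟩, ⟨by rw [h2]; norm_num, fun i => ?_⟩, rfl⟩
      have h4 := h3 i
      simp only [Finset.mem_insert, Finset.mem_singleton, Finset.notMem_empty, or_false] at h4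
      show (4 : ℤ) ∣ x i
      rcases h4 with h4 | h4 | h4 <;> rw [h4] <;> decide
  rw [h2, h]
  decide +kernel

theorem exists_code_pair (a b : ZMod 2) : ∃ c ∈ golayCode, c none = a ∧ c (some 0) = b := by
  obtain ⟨c, hc, h1, h2⟩ := exists_code_sep (i := some 0) (by decide)
  have h3 : c (some 0) ≠ 0 := (lift_eq_one_iff c _).1 h1
  have h4 : c none = 0 := (lift_eq_zero_iff c _).1 h2
  have h5 : c (some 0) = 1 := by
    have key : ∀ a : ZMod 2, a ≠ 0 → a = 1 := by decide
    exact key _ h3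
  have key : ∀ a : ZMod 2, a = 0 ∨ a = 1 := by decide
  rcases key a with rfl | rfl <;> rcases key b with rfl | rfl
  · exact ⟨0, golayCode.zero_mem, rfl, rfl⟩
  · exact ⟨c, hc, h4, h5⟩
  · refine ⟨1 + c, golayCode.add_mem one_mem_code hc, ?_, ?_⟩
    · rw [Pi.add_apply, h4]; rfl
    · rw [Pi.add_apply, h5]; decide
  · exact ⟨1, one_mem_code, rfl, rfl⟩

theorem flipElt_mem_crossStab (c : GolayPt → ZMod 2) (hc : c ∈ golayCode) : flipElt c hc ∈ crossStab := by
  have h := mono_mem_crossStab c hc 1 (one_mem _)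
  have h2 : permElt 1 (one_mem _) = 1 := by
    apply co0_ext; intro x; apply Subtype.ext; funext j
    rw [permElt_apply, one_smul]; rfl
  rwa [h2, mul_one] at h

theorem permElt_mem_crossStab (σ : Equiv.Perm GolayPt) (hσ : σ ∈ M24) : permElt σ hσ ∈ crossStab := by
  have h := mono_mem_crossStab 0 golayCode.zero_mem σ hσ
  have h2 : flipElt 0 golayCode.zero_mem = 1 := by
    apply co0_ext; intro x; apply Subtype.ext; funext j
    rw [flipElt_apply, one_smul, lift_zero]; ring
  rwa [h2, one_mul] at h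

theorem leechU_apply (j : GolayPt) : (Spor.leechU : GolayPt → ℤ) j =
    (if j = none then 4 else 0) + (if j = some 0 then 4 else 0) := by
  rw [leechU_eq, vp_coe, Pi.add_apply, Pi.single_apply, Pi.single_apply]

theorem exists_pair_of_fourSet {x : leechLattice} (hx : x ∈ fourSet) : ∃ i j : GolayPt, i ≠ j ∧
    ((x : GolayPt → ℤ) i = 4 ∨ (x : GolayPt → ℤ) i = -4) ∧ ((x : GolayPt → ℤ) j = 4 ∨ (x : GolayPt → ℤ) j = -4) ∧
    ∀ k, k ≠ i → k ≠ j → (x : GolayPt → ℤ) k = 0 := by
  obtain ⟨h1, h2⟩ := hx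
  choose y hy using h2
  have h3 : ∑ k, y k ^ 2 = 2 := by
    have h4 : sqNorm (x : GolayPt → ℤ) = 16 * ∑ k, y k ^ 2 := by
      unfold sqNorm
      rw [Finset.mul_sum]
      apply Finset.sum_congr rfl
      intro k _
      rw [hy k]; ring
    omega
  have h4 : ∀ k, y k ^ 2 ≤ 2 := by
    intro k
    rw [← h3]
    exact Finset.single_le_sum (f := fun i => y i ^ 2) (fun j _ => sq_nonneg _) (Finset.mem_univ k)
  have h5 : ∀ k, y k = 0 ∨ y k = 1 ∨ y k = -1 := by
    intro k
    have := h4 k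
    have h6 : y k ≤ 1 := by nlinarith
    have h7 : -1 ≤ y k := by nlinarith
    omega
  have h6 : ((Finset.univ.filter fun k => y k ≠ 0).card : ℤ) = 2 := by
    rw [← h3, Finset.card_filter]
    push_cast
    apply Finset.sum_congr rfl
    intro k _
    rcases h5 k with h | h | h <;> rw [h] <;> decide
  obtain ⟨i, j, hij, h7⟩ := Finset.card_eq_two.1 (by exact_mod_cast h6 : (Finset.univ.filter fun k => y k ≠ 0).card = 2)
  have h8 : ∀ k, y k ≠ 0 ↔ k = i ∨ k = j := by
    intro k
    have : k ∈ (Finset.univ.filter fun k => y k ≠ 0) ↔ k ∈ ({i, j} : Finset GolayPt) := by rw [h7]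
    simpa using this
  refine ⟨i, j, hij, ?_, ?_, ?_⟩
  · rw [hy i]
    rcases h5 i with h | h | h
    · exact absurd h ((h8 i).2 (Or.inl rfl))
    · left; rw [h]; norm_num
    · right; rw [h]; norm_num
  · rw [hy j]
    rcases h5 j with h | h | h
    · exact absurd h ((h8 j).2 (Or.inr rfl))
    · left; rw [h]; norm_num
    · right; rw [h]; norm_num
  · intro k hk1 hk2
    rw [hy k]
    by_contra h
    have : y k ≠ 0 := fun h' => h (by rw [h']; norm_num)
    rcases (h8 k).1 this with h | h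
    · exact hk1 h
    · exact hk2 h

theorem orbit_fourSet : MulAction.orbit crossStab Spor.leechU = fourSet := by
  ext x
  constructor
  · rintro ⟨⟨g, hg⟩, rfl⟩
    obtain ⟨c, hc, σ, hσ, rfl⟩ := mem_crossStab_mono hg
    refine ⟨?_, fun i => ?_⟩
    · show sqNorm ((((flipElt c hc * permElt σ hσ : Co0).1) Spor.leechU : leechLattice) : GolayPt → ℤ) = 32
      rw [(flipElt c hc * permElt σ hσ).2.2]
      exact sqNorm_leechU
    · show (4 : ℤ) ∣ (((flipElt c hc * permElt σ hσ) • Spor.leechU : leechLattice) : GolayPt → ℤ) i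
      rw [mono_smul, leechU_apply]
      apply Dvd.dvd.mul_left
      apply dvd_add
      · split_ifs <;> decide
      · split_ifs <;> decide
  · intro hx
    obtain ⟨i, j, hij, hi, hj, h0⟩ := exists_pair_of_fourSet hx
    obtain ⟨σ, hσ, hσi, hσj⟩ := M24_two (a := none) (b := some 0) (a' := i) (b' := j) (by decide) hij
    have ha : ∃ a : ZMod 2, (x : GolayPt → ℤ) i = (1 - 2 * (a.val : ℤ)) * 4 := by
      rcases hi with h | h
      · exact ⟨0, by rw [h]; decide⟩
      · exact ⟨1, by rw [h]; decide⟩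
    have hb : ∃ a : ZMod 2, (x : GolayPt → ℤ) j = (1 - 2 * (a.val : ℤ)) * 4 := by
      rcases hj with h | h
      · exact ⟨0, by rw [h]; decide⟩
      · exact ⟨1, by rw [h]; decide⟩
    obtain ⟨a, ha⟩ := ha
    obtain ⟨b, hb⟩ := hb
    obtain ⟨c, hc, hca, hcb⟩ := exists_code_pair a b
    refine ⟨⟨permElt σ hσ * flipElt c hc, mul_mem (permElt_mem_crossStab _ _) (flipElt_mem_crossStab _ _)⟩, ?_⟩
    apply Subtype.ext
    funext k
    show (((permElt σ hσ * flipElt c hc) • Spor.leechU : leechLattice) : GolayPt → ℤ) k = _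
    rw [mul_smul, permElt_apply, flipElt_apply, leechU_apply]
    by_cases hki : k = i
    · have h1 : σ.symm k = none := by rw [hki, ← hσi, Equiv.symm_apply_apply]
      rw [h1, hki, ha]
      unfold lift
      rw [hca]
      simp
    · by_cases hkj : k = j
      · have h1 : σ.symm k = some 0 := by rw [hkj, ← hσj, Equiv.symm_apply_apply]
        rw [h1, hkj, hb]
        unfold lift
        rw [hcb]
        simp
      · rw [h0 k hki hkj, if_neg, if_neg]
        · ring
        · intro h; apply hkj; rw [← hσj, ← h, Equiv.apply_symm_apply]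
        · intro h; apply hki; rw [← hσi, ← h, Equiv.apply_symm_apply]

/-- The stabilizer of `u` in the monomial group. -/
theorem card_stab_cross : Nat.card (MulAction.stabilizer crossStab Spor.leechU) = 908328960 := by
  have h := orbit_mul_card (G := crossStab) Spor.leechU
  rw [orbit_fourSet, ncard_fourSet, card_crossStab] at h
  omega

theorem normal_le_of_odd_index {G : Type*} [Group G] [Finite G] (M T : Subgroup G) (hM : M.Normal)
    (h2 : IsPGroup 2 M) (hodd : ¬ 2 ∣ T.index) : M ≤ T := by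
  have : Fact (Nat.Prime 2) := ⟨Nat.prime_two⟩
  obtain ⟨q, hq⟩ := h2.nonempty_fixed_point_of_prime_not_dvd_card (G ⧸ T) hodd
  obtain ⟨g, rfl⟩ := QuotientGroup.mk_surjective q
  intro m hm
  have h1 := hM.conj_mem m hm g
  have h3 := hq ⟨g * m * g⁻¹, h1⟩
  have h4 : ((g * m * g⁻¹ * g : G) : G ⧸ T) = (g : G ⧸ T) := h3
  rw [QuotientGroup.eq] at h4
  have h5 : (g * m * g⁻¹ * g)⁻¹ * g = m⁻¹ := by group
  rw [h5] at h4
  exact (Subgroup.inv_mem_iff _).1 h4

/-- `M24` is transitive on 4-tuples of distinct points. -/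
theorem exists_map4' {a b c d : GolayPt} (hab : a ≠ b) (hac : a ≠ c) (had : a ≠ d)
    (hbc : b ≠ c) (hbd : b ≠ d) (hcd : c ≠ d)
    {a' b' c' d' : GolayPt} (hab' : a' ≠ b') (hac' : a' ≠ c') (had' : a' ≠ d')
    (hbc' : b' ≠ c') (hbd' : b' ≠ d') (hcd' : c' ≠ d') :
    ∃ σ ∈ M24, σ a = a' ∧ σ b = b' ∧ σ c = c' ∧ σ d = d' := by
  have hfresh : ∀ s : Finset GolayPt, s.card < 24 → ∃ p, p ∉ s := by
    intro s hs
    by_contra h
    push Not at h
    have : s = Finset.univ := Finset.eq_univ_of_forall h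
    rw [this, Finset.card_univ, Golay.card_golayPt] at hs
    exact lt_irrefl _ hs
  obtain ⟨e, he⟩ := hfresh {a, b, c, d} (lt_of_le_of_lt Finset.card_le_four (by norm_num))
  obtain ⟨e', he'⟩ := hfresh {a', b', c', d'} (lt_of_le_of_lt Finset.card_le_four (by norm_num))
  simp only [Finset.mem_insert, Finset.mem_singleton, not_or] at he he'
  have hinj : ∀ {a b c d e : GolayPt}, a ≠ b → a ≠ c → a ≠ d → a ≠ e → b ≠ c → b ≠ d → b ≠ e → c ≠ d →
      c ≠ e → d ≠ e → Function.Injective (![a, b, c, d, e] : Fin 5 → GolayPt) := by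
    intro a b c d e h1 h2 h3 h4 h5 h6 h7 h8 h9 h10 x y hxy
    fin_cases x <;> fin_cases y <;> simp at hxy ⊢ <;> first | exact absurd hxy ‹_› | exact absurd hxy.symm ‹_›
  obtain ⟨σ, hσ, h⟩ := Golay.M24_exists_map ![a, b, c, d, e] ![a', b', c', d', e']
    (hinj hab hac had (Ne.symm he.1) hbc hbd (Ne.symm he.2.1) hcd (Ne.symm he.2.2.1) (Ne.symm he.2.2.2))
    (hinj hab' hac' had' (Ne.symm he'.1) hbc' hbd' (Ne.symm he'.2.1) hcd' (Ne.symm he'.2.2.1)
      (Ne.symm he'.2.2.2))
  exact ⟨σ, hσ, h 0, h 1, h 2, h 3⟩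

theorem exists_map3' {a b c : GolayPt} (hab : a ≠ b) (hac : a ≠ c) (hbc : b ≠ c)
    {a' b' c' : GolayPt} (hab' : a' ≠ b') (hac' : a' ≠ c') (hbc' : b' ≠ c') :
    ∃ σ ∈ M24, σ a = a' ∧ σ b = b' ∧ σ c = c' := by
  have hfresh : ∀ s : Finset GolayPt, s.card < 24 → ∃ p, p ∉ s := by
    intro s hs
    by_contra h
    push Not at h
    have : s = Finset.univ := Finset.eq_univ_of_forall h
    rw [this, Finset.card_univ, Golay.card_golayPt] at hs
    exact lt_irrefl _ hs
  obtain ⟨e, he⟩ := hfresh {a, b, c} (lt_of_le_of_lt Finset.card_le_three (by norm_num))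
  obtain ⟨e', he'⟩ := hfresh {a', b', c'} (lt_of_le_of_lt Finset.card_le_three (by norm_num))
  simp only [Finset.mem_insert, Finset.mem_singleton, not_or] at he he'
  obtain ⟨σ, hσ, h1, h2, h3, -⟩ := exists_map4' (d := e) (d' := e') hab hac (Ne.symm he.1) hbc (Ne.symm he.2.1)
    (Ne.symm he.2.2) hab' hac' (Ne.symm he'.1) hbc' (Ne.symm he'.2.1) (Ne.symm he'.2.2)
  exact ⟨σ, hσ, h1, h2, h3⟩

theorem co2_le_cross (N : Subgroup (Equiv.Perm leechLattice)) (hN : N ≤ Spor.Co2)
    (hnorm : ∀ g ∈ Spor.Co2, ∀ n ∈ N, g * n * g⁻¹ ∈ N) (h2 : ∀ n ∈ N, ∃ k : ℕ, n ^ (2 ^ k) = 1) :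
    ∀ n ∈ N, ∃ σ ∈ M24, ∃ c ∈ golayCode, IsMono n c σ := by
  let H : Subgroup Co0 := MulAction.stabilizer Co0 Spor.leechU
  have hcardH : Nat.card H = 42305421312000 := card_stab_32 _ sqNorm_leechU
  have hfin : Finite H := Nat.finite_of_card_ne_zero (by rw [hcardH]; norm_num)
  let M : Subgroup H := (N.subgroupOf Co0).subgroupOf H
  have hM : ∀ x : H, x ∈ M ↔ (x.1.1 : Equiv.Perm leechLattice) ∈ N := fun x => Iff.rfl
  have hnormM : M.Normal := by
    refine ⟨fun n hn g => ?_⟩
    exact hnorm g.1.1 ⟨g.1.2, g.2⟩ _ hn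
  have h2M : IsPGroup 2 M := by
    rintro ⟨⟨⟨n, hn0⟩, hn1⟩, hn⟩
    obtain ⟨k, hk⟩ := h2 n hn
    refine ⟨k, ?_⟩
    apply Subtype.ext; apply Subtype.ext; apply Subtype.ext
    exact hk
  let T : Subgroup H := crossStab.subgroupOf H
  have hcardT : Nat.card T = 908328960 := by
    rw [← card_stab_cross]
    apply Nat.card_congr
    exact ⟨fun x => ⟨⟨x.1.1, x.2⟩, x.1.2⟩, fun x => ⟨⟨x.1.1, x.2⟩, x.1.2⟩, fun x => rfl, fun x => rfl⟩
  have hidx : T.index = 46575 := by
    have := T.card_mul_index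
    rw [hcardT, hcardH] at this
    omega
  have hle := normal_le_of_odd_index M T hnormM h2M (by rw [hidx]; norm_num)
  intro n hn
  have hn2 := hN hn
  have h3 : (⟨⟨n, hn2.1⟩, hn2.2⟩ : H) ∈ T := hle hn
  exact frame_of_cg n hn2.1 (cg_of_mem_crossStab h3)

theorem mono_co2_pres {n : Equiv.Perm leechLattice} {c : GolayPt → ZMod 2} {σ : Equiv.Perm GolayPt}
    (h : IsMono n c σ) (hn : n Spor.leechU = Spor.leechU) (i : GolayPt) :
    (i = none ∨ i = some 0) ↔ (σ i = none ∨ σ i = some 0) := by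
  have h1 := h Spor.leechU i
  rw [hn] at h1
  have h2 : ∀ j : GolayPt, (Spor.leechU : GolayPt → ℤ) j ≠ 0 ↔ (j = none ∨ j = some 0) := by
    intro j
    rw [leechU_apply]
    by_cases h3 : j = none
    · subst h3; simp
    · by_cases h4 : j = some 0
      · subst h4; simp
      · simp [h3, h4]
  rw [← h2, ← h2, h1]
  have h3 := sgn_ne_zero (c i)
  constructor
  · intro h4 h5; apply h4; rw [h5]; ring
  · intro h4; exact mul_ne_zero h3 h4

theorem permCo_mem_co2 (τ : Equiv.Perm GolayPt) (hτ : τ ∈ M24) (h1 : τ none = none) (h2 : τ (some 0) = some 0) :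
    permCo τ hτ ∈ Spor.Co2 := by
  refine ⟨permCo_mem τ hτ, ?_⟩
  show permCo τ hτ Spor.leechU = Spor.leechU
  apply Subtype.ext
  funext j
  show (Spor.leechU : GolayPt → ℤ) (τ j) = _
  have h3 : τ j = none ↔ j = none := by
    rw [← τ.injective.eq_iff (a := j) (b := none), h1]
  have h4 : τ j = some 0 ↔ j = some 0 := by
    rw [← τ.injective.eq_iff (a := j) (b := some 0), h2]
  rw [leechU_apply, leechU_apply]
  simp only [h3, h4]

theorem co2_le_flips (N : Subgroup (Equiv.Perm leechLattice)) (hN : N ≤ Spor.Co2)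
    (hnorm : ∀ g ∈ Spor.Co2, ∀ n ∈ N, g * n * g⁻¹ ∈ N) (h2 : ∀ n ∈ N, ∃ k : ℕ, n ^ (2 ^ k) = 1) :
    ∀ n ∈ N, ∃ c ∈ golayCode, IsMono n c 1 := by
  have hmono := co2_le_cross N hN hnorm h2
  let P : Subgroup (Equiv.Perm GolayPt) :=
    { carrier := {σ | ∃ g ∈ N, ∃ c, IsMono g c σ}
      one_mem' := ⟨1, N.one_mem, 0, isMono_one⟩
      mul_mem' := by
        rintro σ τ ⟨g, hg, c, h⟩ ⟨g', hg', c', h'⟩
        exact ⟨g' * g, N.mul_mem hg' hg, _, h'.mul h⟩
      inv_mem' := by
        rintro σ ⟨g, hg, c, h⟩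
        exact ⟨g⁻¹, N.inv_mem hg, _, h.inv⟩ }
  have hP24 : ∀ σ ∈ P, σ ∈ M24 := by
    rintro σ ⟨g, hg, c, h⟩
    obtain ⟨σ', hσ', c', hc', h'⟩ := hmono g hg
    rw [h.perm_unique h']; exact hσ'
  have hpres : ∀ σ ∈ P, ∀ i, (i = none ∨ i = some 0) ↔ (σ i = none ∨ σ i = some 0) := by
    rintro σ ⟨g, hg, c, h⟩ i
    exact mono_co2_pres h (hN hg).2 i
  have hconj : ∀ τ ∈ M24, τ none = none → τ (some 0) = some 0 → ∀ σ ∈ P, τ * σ * τ⁻¹ ∈ P := by
    rintro τ hτ h1 h3 σ ⟨g, hg, c, h⟩
    have hτ' := inv_mem hτ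
    have h4 := ((isMono_permCo _ hτ').mul h).mul (isMono_permCo _ hτ').inv
    rw [inv_inv, ← mul_assoc] at h4
    refine ⟨_, hnorm _ (permCo_mem_co2 _ hτ' ?_ ?_) g hg, _, h4⟩
    · exact Equiv.Perm.inv_eq_iff_eq.2 h1.symm
    · exact Equiv.Perm.inv_eq_iff_eq.2 h3.symm
  -- the two-point stabilizer
  let A : Subgroup M24 := MulAction.stabilizer M24 (none : GolayPt) ⊓ MulAction.stabilizer M24 (some 0 : GolayPt)
  have hs : IsSimpleGroup A := Golay.simple_stab2_M24 none (some 0) (by decide)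
  have hcA : Nat.card A = 443520 := Golay.card_stab2_M24 none (some 0) (by decide)
  have hA : ∀ a : A, (a.1.1 : Equiv.Perm GolayPt) none = none ∧ (a.1.1 : Equiv.Perm GolayPt) (some 0) = some 0 :=
    fun a => ⟨a.2.1, a.2.2⟩
  let PA : Subgroup A := (P.subgroupOf M24).subgroupOf A
  have hn : PA.Normal := by
    refine ⟨fun σ hσ τ => ?_⟩
    exact hconj τ.1.1 τ.1.2 (hA τ).1 (hA τ).2 _ hσ
  have hbot : PA = ⊥ := by
    rcases hs.eq_bot_or_eq_top_of_normal _ hn with h | h
    · exact h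
    · exfalso
      have hp : IsPGroup 2 A := by
        intro σ
        have h1 : σ ∈ PA := by rw [h]; trivial
        obtain ⟨g, hg, c, hgc⟩ := h1
        obtain ⟨k, hk⟩ := h2 g hg
        obtain ⟨c', hc'⟩ := hgc.pow (2 ^ k)
        rw [hk] at hc'
        refine ⟨k, ?_⟩
        apply Subtype.ext; apply Subtype.ext
        exact hc'.perm_unique isMono_one
      have hfin : Finite A := Nat.finite_of_card_ne_zero (by rw [hcA]; norm_num)
      obtain ⟨n, hn⟩ := (haveFact2 (hp := hp))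
      rw [hcA] at hn
      have h3 : (3 : ℕ) ∣ 2 ^ n := by rw [← hn]; norm_num
      have h4 := Nat.Prime.dvd_of_dvd_pow (by norm_num : Nat.Prime 3) h3
      norm_num at h4
  have hfix : ∀ σ ∈ P, σ none = none → σ (some 0) = some 0 → σ = 1 := by
    intro σ hσ h1 h3
    have h4 : (⟨⟨σ, hP24 σ hσ⟩, ⟨h1, h3⟩⟩ : A) ∈ PA := hσ
    rw [hbot, Subgroup.mem_bot] at h4
    exact congrArg (fun x : A => (x.1.1 : Equiv.Perm GolayPt)) h4
  have hP1 : ∀ σ ∈ P, σ = 1 := by
    intro σ hσ
    have h1 := (hpres σ hσ none).1 (Or.inl rfl)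
    have h3 := (hpres σ hσ (some 0)).1 (Or.inr rfl)
    rcases h1 with h1 | h1
    · rcases h3 with h3 | h3
      · exact absurd (σ.injective (h1.trans h3.symm)) (by decide)
      · exact hfix σ hσ h1 h3
    · rcases h3 with h3 | h3
      · exfalso
        -- the element commutes with the two-point stabilizer
        have hcomm : ∀ τ ∈ M24, τ none = none → τ (some 0) = some 0 → σ * τ = τ * σ := by
          intro τ hτ h5 h6
          have h7 := mul_mem hσ (hconj τ hτ h5 h6 σ⁻¹ (inv_mem hσ))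
          have h5' : τ⁻¹ none = none := Equiv.Perm.inv_eq_iff_eq.2 h5.symm
          have h6' : τ⁻¹ (some 0) = some 0 := Equiv.Perm.inv_eq_iff_eq.2 h6.symm
          have h1' : σ⁻¹ (some 0) = none := Equiv.Perm.inv_eq_iff_eq.2 h1.symm
          have h3' : σ⁻¹ none = some 0 := Equiv.Perm.inv_eq_iff_eq.2 h3.symm
          have h8 := hfix _ h7 (by
            show σ (τ (σ⁻¹ (τ⁻¹ none))) = none
            rw [h5', h3', h6, h3]) (by
            show σ (τ (σ⁻¹ (τ⁻¹ (some 0)))) = some 0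
            rw [h6', h1', h5, h1])
          have h9 : σ * τ * (τ * σ)⁻¹ = 1 := by
            rw [← h8]; group
          exact mul_inv_eq_one.1 h9
        have hrest : ∀ k, k ≠ none → k ≠ some 0 → σ k = k := by
          intro k hk1 hk2
          by_contra hne
          have h5 : ¬ (σ k = none ∨ σ k = some 0) := by
            rw [← hpres σ hσ k]; push Not; exact ⟨hk1, hk2⟩
          push Not at h5
          obtain ⟨l, hl⟩ : ∃ l, l ∉ ({none, some 0, k, σ k} : Finset GolayPt) := by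
            by_contra h
            push Not at h
            have h6 : ({none, some 0, k, σ k} : Finset GolayPt) = Finset.univ := Finset.eq_univ_of_forall h
            have h7 := Finset.card_le_four (a := (none : GolayPt)) (b := some 0) (c := k) (d := σ k)
            rw [h6, Finset.card_univ, Golay.card_golayPt] at h7
            norm_num at h7
          simp only [Finset.mem_insert, Finset.mem_singleton, not_or] at hl
          obtain ⟨τ, hτ, t1, t2, t3, t4⟩ := exists_map4' (a := none) (b := some 0) (c := k) (d := σ k)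
            (a' := none) (b' := some 0) (c' := k) (d' := l) (by decide) (Ne.symm hk1) (Ne.symm h5.1)
            (Ne.symm hk2) (Ne.symm h5.2) (Ne.symm hne) (by decide) (Ne.symm hk1) (Ne.symm hl.1)
            (Ne.symm hk2) (Ne.symm hl.2.1) (Ne.symm hl.2.2.1)
          have h6 := congrArg (fun f : Equiv.Perm GolayPt => f k) (hcomm τ hτ t1 t2)
          have h7 : σ (τ k) = τ (σ k) := h6
          rw [t3, t4] at h7
          exact hl.2.2.2 h7.symm
        have hswap : σ = Equiv.swap none (some 0) := by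
          ext1 k
          by_cases hk1 : k = none
          · rw [hk1, h1, Equiv.swap_apply_left]
          · by_cases hk2 : k = some 0
            · rw [hk2, h3, Equiv.swap_apply_right]
            · rw [hrest k hk1 hk2, Equiv.swap_apply_of_ne_of_ne hk1 hk2]
        exact swap_not_mem_M24 (p := none) (q := some 0) (by decide) (hswap ▸ hP24 σ hσ)
      · exact absurd (σ.injective (h1.trans h3.symm)) (by decide)
  intro n hnN
  obtain ⟨σ, hσ, c, hc, h⟩ := hmono n hnN
  rw [hP1 σ ⟨n, hnN, c, h⟩] at h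
  exact ⟨c, hc, h⟩

theorem co2_trivial (N : Subgroup (Equiv.Perm leechLattice)) (hN : N ≤ Spor.Co2)
    (hnorm : ∀ g ∈ Spor.Co2, ∀ n ∈ N, g * n * g⁻¹ ∈ N) (h2 : ∀ n ∈ N, ∃ k : ℕ, n ^ (2 ^ k) = 1) :
    ∀ n ∈ N, n = 1 := by
  have hflip := co2_le_flips N hN hnorm h2
  intro n₀ hn₀
  by_contra hne
  obtain ⟨c₀, hc₀, hm₀⟩ := hflip n₀ hn₀
  -- the words vanish at the two points
  have hz : ∀ n ∈ N, ∀ c, IsMono n c 1 → ∀ i, (i = none ∨ i = some 0) → lift c i = 0 := by
    intro n hn c h i hi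
    have h1 := h Spor.leechU i
    have h3 : n Spor.leechU = Spor.leechU := (hN hn).2
    have h4 : (Spor.leechU : GolayPt → ℤ) i = 4 := by
      rw [leechU_apply]
      rcases hi with rfl | rfl <;> simp
    rw [h3, Equiv.Perm.one_apply, h4] at h1
    rcases lift_zero_or_one c i with h5 | h5
    · exact h5
    · rw [h5] at h1; norm_num at h1
  obtain ⟨a, ha⟩ : ∃ a, c₀ a ≠ 0 := by
    by_contra h
    push Not at h
    have h1 : c₀ = 0 := funext h
    rw [h1] at hm₀
    exact hne (hm₀.eq isMono_one)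
  have ha1 : a ≠ none ∧ a ≠ some 0 := by
    constructor
    · intro h; exact ha ((lift_eq_zero_iff c₀ a).1 (hz n₀ hn₀ c₀ hm₀ a (Or.inl h)))
    · intro h; exact ha ((lift_eq_zero_iff c₀ a).1 (hz n₀ hn₀ c₀ hm₀ a (Or.inr h)))
  -- vectors fixed by N
  have hfixed : ∀ v : leechLattice, (∀ n ∈ N, n v = v) → ∀ x, x ≠ none → x ≠ some 0 →
      (v : GolayPt → ℤ) x = 0 := by
    intro v hv x hx1 hx2
    obtain ⟨τ, hτ, t1, t2, t3⟩ := exists_map3' (a := none) (b := some 0) (c := x) (a' := none) (b' := some 0)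
      (c' := a) (by decide) (Ne.symm hx1) (Ne.symm hx2) (by decide) (Ne.symm ha1.1) (Ne.symm ha1.2)
    have h1 := ((isMono_permCo _ hτ).mul hm₀).mul (isMono_permCo _ hτ).inv
    have h3 := hnorm _ (permCo_mem_co2 τ hτ t1 t2) n₀ hn₀
    have h4 := h1 v x
    rw [hv _ h3] at h4
    have h5 : (τ⁻¹ * (1 * τ)) x = x := by simp
    rw [h5] at h4
    have h6 : ∀ z : ZMod 2, z ≠ 0 → z = 1 := by decide
    have h7 : (((0 : GolayPt → ZMod 2) + fun i => c₀ (τ i)) + fun i => (fun j => (0 : GolayPt → ZMod 2) (τ⁻¹ j)) ((1 * τ) i)) x = 1 := by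
      simp only [Pi.add_apply, Pi.zero_apply, zero_add, add_zero]
      rw [t3]; exact h6 _ ha
    unfold lift at h4
    rw [h7] at h4
    have h8 : ((1 : ZMod 2).val : ℤ) = 1 := by decide
    rw [h8] at h4
    omega
  have hwfix : ∀ n ∈ N, n (vm none (some 0)) = vm none (some 0) := by
    intro n hn
    obtain ⟨c, hc, h⟩ := hflip n hn
    apply Subtype.ext
    funext i
    rw [h _ i, Equiv.Perm.one_apply]
    by_cases hi : i = none ∨ i = some 0
    · rw [hz n hn c h i hi]; ring
    · push Not at hi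
      rw [vm_coe, Pi.sub_apply, Pi.single_eq_of_ne hi.1, Pi.single_eq_of_ne hi.2]; ring
  have hcg : ∀ g ∈ Spor.Co2, Cg (g (v8 none)) (v8 none) := by
    intro g hg
    have hgu : g Spor.leechU = Spor.leechU := hg.2
    have h1 : ∀ n ∈ N, n (g (vm none (some 0))) = g (vm none (some 0)) := by
      intro n hn
      have h3 := hnorm g⁻¹ (inv_mem hg) n hn
      have h4 := hwfix _ h3
      rw [inv_inv] at h4
      have h5 : g ((g⁻¹ * n * g) (vm none (some 0))) = n (g (vm none (some 0))) := by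
        show g (g⁻¹ (n (g (vm none (some 0))))) = _
        exact g.apply_symm_apply _
      rw [← h5, h4]
    have h3 := hfixed _ h1
    have h4 : sqNorm ((g (vm none (some 0)) : leechLattice) : GolayPt → ℤ) = 32 := by
      rw [hg.1.2]; exact sqNorm_vm (by decide)
    have h5 : dotInt ((g (vm none (some 0)) : leechLattice) : GolayPt → ℤ) (Spor.leechU : GolayPt → ℤ) = 0 := by
      have h6 := dotInt_map hg.1 (vm none (some 0)) Spor.leechU
      rw [hgu] at h6
      rw [h6, dot_leechU, vm_coe]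
      simp
    rw [dot_leechU] at h5
    have h6 : ((g (vm none (some 0)) : leechLattice) : GolayPt → ℤ) none ^ 2 +
        ((g (vm none (some 0)) : leechLattice) : GolayPt → ℤ) (some 0) ^ 2 = 32 := by
      rw [← h4]
      unfold sqNorm
      rw [← Finset.sum_pair (f := fun i => ((g (vm none (some 0)) : leechLattice) : GolayPt → ℤ) i ^ 2)
        (by decide : (none : GolayPt) ≠ some 0)]
      apply Finset.sum_subset (Finset.subset_univ _)
      intro x _ hx
      simp only [Finset.mem_insert, Finset.mem_singleton, not_or] at hx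
      rw [h3 x hx.1 hx.2]; norm_num
    have h7 : g (vm none (some 0)) = vm none (some 0) ∨ g (vm none (some 0)) = - vm none (some 0) := by
      have h8 : ((g (vm none (some 0)) : leechLattice) : GolayPt → ℤ) (some 0) =
        - ((g (vm none (some 0)) : leechLattice) : GolayPt → ℤ) none := by linarith
      rw [h8] at h6
      have h9 : (((g (vm none (some 0)) : leechLattice) : GolayPt → ℤ) none - 4) *
        (((g (vm none (some 0)) : leechLattice) : GolayPt → ℤ) none + 4) = 0 := by nlinarith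
      rcases mul_eq_zero.1 h9 with h10 | h10
      · left
        apply Subtype.ext
        funext i
        by_cases hi : i = none
        · rw [hi, vm_coe]; simp; linarith
        · by_cases hi2 : i = some 0
          · rw [hi2, h8, vm_coe]; simp; linarith
          · rw [h3 i hi hi2, vm_coe, Pi.sub_apply, Pi.single_eq_of_ne hi, Pi.single_eq_of_ne hi2]; ring
      · right
        apply Subtype.ext
        funext i
        by_cases hi : i = none
        · rw [hi, AddSubgroup.coe_neg, vm_coe]; simp; linarith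
        · by_cases hi2 : i = some 0
          · rw [hi2, h8, AddSubgroup.coe_neg, vm_coe]; simp; linarith
          · rw [h3 i hi hi2, AddSubgroup.coe_neg, Pi.neg_apply, vm_coe, Pi.sub_apply, Pi.single_eq_of_ne hi,
              Pi.single_eq_of_ne hi2]; ring
    rw [v8_none_eq, map_add_Co0 hg.1, hgu]
    rcases h7 with h7 | h7
    · rw [h7]; exact Cg.refl _
    · rw [h7, ← sub_eq_add_neg, ← v8_zero_eq, ← v8_none_eq]; exact cg_v8 _ _
  -- hence the stabilizer is contained in the monomial group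
  have hle : MulAction.stabilizer Co0 Spor.leechU ≤ crossStab := by
    intro g hg
    exact mem_crossStab_of_cg (hcg g.1 ⟨g.2, hg⟩)
  have hfin : Finite crossStab := Nat.finite_of_card_ne_zero (by rw [card_crossStab]; norm_num)
  have h10 := Subgroup.card_le_of_le hle
  rw [card_stab_32 _ sqNorm_leechU, card_crossStab] at h10
  norm_num at h10

theorem leechFacts : LeechFacts where
  t2 v w hv hw := by
    obtain ⟨g, hg⟩ := trans_32 v w hv hw
    exact ⟨g, g.2, hg⟩
  t3 v w hv hw := by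
    obtain ⟨g, hg⟩ := trans_48 v w hv hw
    exact ⟨g, g.2, hg⟩
  t4 v w hv hw := by
    obtain ⟨g, hg⟩ := trans_64 v w hv hw
    refine ⟨g, g.2, ?_⟩
    have h1 : g.1 v = w := hg
    rw [h1]; exact Cg.refl _
  frame := frame_of_cg
  co2 := co2_trivial

end Cfsg.Agent.H90
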