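import Cfsg.Agent.H90.LeechFacts
import Cfsg.Agent.Golay.Steiner

/-!
# More facts on the lattice modulo 2 used for Baby Monster type (owner: helper90)
-/

set_option autoImplicit false

namespace Cfsg.Agent.H90

open Cfsg Cfsg.Agent.Leech

theorem leechU_coe : (Spor.leechU : GolayPt → ℤ) = Spor.vecU := rfl

theorem sqNorm_leechU : sqNorm (Spor.leechU : GolayPt → ℤ) = 32 := by
  rw [leechU_eq]; exact sqNorm_vp (by decide)

theorem dot_leechU (x : GolayPt → ℤ) : dotInt x (Spor.leechU : GolayPt → ℤ) = 4 * (x none + x (some 0)) := by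
  rw [leechU_eq, vp_coe, dotInt_add_right, dot_single, dot_single]; ring

theorem v8_none_eq : v8 none = Spor.leechU + vm none (some 0) := by
  rw [leechU_eq]
  show emb4 _ = emb4 _ + emb4 _
  rw [← map_add]
  congr 1
  apply Subtype.ext
  simp only [AddSubgroup.coe_add, AddSubgroup.coe_sub, EE_coe]; abel

theorem v8_zero_eq : v8 (some 0) = Spor.leechU - vm none (some 0) := by
  rw [leechU_eq]
  show emb4 _ = emb4 _ - emb4 _
  rw [← map_sub]
  congr 1
  apply Subtype.ext
  simp only [AddSubgroup.coe_add, AddSubgroup.coe_sub, EE_coe]; abel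

theorem v8_eq (i j : GolayPt) : v8 i = vp i j + vm i j := by
  show emb4 _ = emb4 _ + emb4 _
  rw [← map_add]
  congr 1
  apply Subtype.ext
  simp only [AddSubgroup.coe_add, AddSubgroup.coe_sub, EE_coe]; abel

theorem dot_vp_vp (i j k : GolayPt) (hij : i ≠ j) (hik : i ≠ k) : dotInt (vp i j : GolayPt → ℤ) (vp i k) ≠ 0 := by
  rw [vp_coe, vp_coe, dotInt_add_right, dot_single, dot_single]
  simp only [Pi.add_apply, Pi.single_eq_same, Pi.single_eq_of_ne hij, Pi.single_eq_of_ne (Ne.symm hik)]
  by_cases hjk : k = j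
  · subst hjk; simp
  · simp [Pi.single_eq_of_ne hjk]

theorem dot_vp_vm (i j k : GolayPt) (hij : i ≠ j) (hik : i ≠ k) (hjk : j ≠ k) :
    dotInt (vp i k : GolayPt → ℤ) (vm i j) ≠ 0 := by
  rw [vp_coe, vm_coe, dotInt_sub_right, dot_single, dot_single]
  simp only [Pi.add_apply, Pi.single_eq_same, Pi.single_eq_of_ne hik, Pi.single_eq_of_ne (Ne.symm hij),
    Pi.single_eq_of_ne hjk]
  norm_num

theorem vp_comm (i j : GolayPt) : vp i j = vp j i := by unfold vp; rw [EE_comm]

theorem swap_not_mem_M24 {p q : GolayPt} (hpq : p ≠ q) : Equiv.swap p q ∉ M24 := by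
  intro h
  -- an octad containing p but not q
  obtain ⟨s, hs, hs3⟩ := Finset.exists_subset_card_eq (s := (Finset.univ.erase p).erase q) (n := 4) (by
    rw [Finset.card_erase_of_mem (Finset.mem_erase.2 ⟨hpq.symm, Finset.mem_univ _⟩),
      Finset.card_erase_of_mem (Finset.mem_univ _), Finset.card_univ, Golay.card_golayPt]; norm_num)
  have hps : p ∉ s := fun hp => by
    have := hs hp
    simp at this
  have hqs : q ∉ s := fun hq => by
    have := hs hq
    simp at this
  -- the five octads over s partition the rest: at most one contains q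
  obtain ⟨o, ho, hso⟩ := Golay.exists_octad (s := insert p s) (by rw [Finset.card_insert_of_notMem hps, hs3])
  by_cases hqo : q ∈ o
  · -- choose another 4-subset: replace one point of s by a point off o
    obtain ⟨r, hr⟩ : ∃ r, r ∉ o := by
      by_contra hcon
      push Not at hcon
      have h1 := Golay.card_octad ho
      rw [Finset.eq_univ_of_forall hcon, Finset.card_univ, Golay.card_golayPt] at h1
      norm_num at h1
    obtain ⟨s', hs', hs'3⟩ := Finset.exists_subset_card_eq (s := s) (n := 3) (by rw [hs3]; norm_num)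
    have hrs : r ∉ insert p s' := by
      intro h1
      apply hr
      rw [Finset.mem_insert] at h1
      rcases h1 with h1 | h1
      · rw [h1]; exact hso (Finset.mem_insert_self _ _)
      · exact hso (Finset.mem_insert_of_mem (hs' h1))
    have hps' : p ∉ s' := fun h1 => hps (hs' h1)
    obtain ⟨o', ho', hso'⟩ := Golay.exists_octad (s := insert r (insert p s')) (by
      rw [Finset.card_insert_of_notMem hrs, Finset.card_insert_of_notMem hps', hs'3])
    have hqo' : q ∉ o' := by
      intro h1
      have h2 : o = o' := by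
        apply Golay.octad_eq_of_five ho ho'
        have h3 : insert q (insert p s') ⊆ o ∩ o' := by
          intro a ha
          rw [Finset.mem_insert, Finset.mem_insert] at ha
          rcases ha with rfl | rfl | ha
          · exact Finset.mem_inter.2 ⟨hqo, h1⟩
          · exact Finset.mem_inter.2 ⟨hso (Finset.mem_insert_self _ _),
              hso' (Finset.mem_insert_of_mem (Finset.mem_insert_self _ _))⟩
          · exact Finset.mem_inter.2 ⟨hso (Finset.mem_insert_of_mem (hs' ha)),
              hso' (Finset.mem_insert_of_mem (Finset.mem_insert_of_mem ha))⟩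
        have h4 : q ∉ insert p s' := by
          rw [Finset.mem_insert, not_or]
          exact ⟨hpq.symm, fun h => hqs (hs' h)⟩
        have h5 := Finset.card_le_card h3
        rw [Finset.card_insert_of_notMem h4, Finset.card_insert_of_notMem hps', hs'3] at h5
        exact h5
      apply hr
      rw [h2]
      exact hso' (Finset.mem_insert_self _ _)
    exact swap_aux hpq h ho' (hso' (Finset.mem_insert_of_mem (Finset.mem_insert_self _ _))) hqo'
  · exact swap_aux hpq h ho (hso (Finset.mem_insert_self _ _)) hqo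
where
  swap_aux {p q : GolayPt} (hpq : p ≠ q) (h : Equiv.swap p q ∈ M24) {o : Finset GolayPt} (ho : o ∈ octads)
      (hp : p ∈ o) (hq : q ∉ o) : False := by
    -- c and c ∘ swap differ in two places
    obtain ⟨c, hc, rfl⟩ := ho.1
    have h1 := comp_mem_code h hc
    have h2 := code_weights _ (golayCode.add_mem hc h1)
    have hcp : c p ≠ 0 := by simpa [support₂] using hp
    have hcq : c q = 0 := by simpa [support₂] using hq
    have h3 : hammingNorm (c + fun i => c (Equiv.swap p q i)) = 2 := by
      unfold hammingNorm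
      have : (Finset.univ.filter fun i => (c + fun i => c (Equiv.swap p q i)) i ≠ 0) = {p, q} := by
        ext i
        simp only [Finset.mem_filter, Finset.mem_univ, true_and, Finset.mem_insert, Finset.mem_singleton,
          Pi.add_apply]
        by_cases hip : i = p
        · subst hip
          rw [Equiv.swap_apply_left, hcq, add_zero]
          simp [hcp]
        · by_cases hiq : i = q
          · subst hiq
            rw [Equiv.swap_apply_right, hcq, zero_add]
            simp [hcp]
          · rw [Equiv.swap_apply_of_ne_of_ne hip hiq]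
            have : ∀ a : ZMod 2, a + a = 0 := by decide
            simp [this, hip, hiq]
      rw [this, Finset.card_pair hpq]
    rw [h3] at h2
    omega

/-- the stabilizer of `u` acts faithfully on `u^⊥ / u` modulo 2 -/
theorem co2_faithful (L : LeechFacts) {g : Equiv.Perm leechLattice} (hg : g ∈ Spor.Co2)
    (h : ∀ x : leechLattice, (16 : ℤ) ∣ dotInt (x : GolayPt → ℤ) (Spor.leechU : GolayPt → ℤ) →
      Cg (g x) x ∨ Cg (g x) (x + Spor.leechU)) : g = 1 := by
  have hgC : g ∈ Co0 := hg.1
  have hgu : g Spor.leechU = Spor.leechU := hg.2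
  -- vectors of squared length 32 orthogonal to u
  have hn : ∀ x : leechLattice, sqNorm (x : GolayPt → ℤ) = 32 →
      dotInt (x : GolayPt → ℤ) (Spor.leechU : GolayPt → ℤ) = 0 → g x = x ∨ g x = -x := by
    intro x hx h0
    rcases h x (by rw [h0]; exact dvd_zero _) with h1 | h1
    · exact h1.eq_or_neg (by rw [hgC.2]; exact hx) (by rw [hx]; norm_num)
    · exfalso
      have h64 : sqNorm ((x + Spor.leechU : leechLattice) : GolayPt → ℤ) = 64 := by
        rw [AddSubgroup.coe_add, sqNorm_add, hx, h0, sqNorm_leechU]; norm_num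
      rcases h1.eq_or_neg (by rw [hgC.2]; exact hx) (by rw [h64]) with h2 | h2
      · have := hgC.2 x
        rw [h2, h64, hx] at this
        norm_num at this
      · have := hgC.2 x
        rw [h2, AddSubgroup.coe_neg, sqNorm_neg, h64, hx] at this
        norm_num at this
  have hsg : ∀ v w : leechLattice, sqNorm (v : GolayPt → ℤ) = 32 → sqNorm (w : GolayPt → ℤ) = 32 →
      dotInt (v : GolayPt → ℤ) (Spor.leechU : GolayPt → ℤ) = 0 →
      dotInt (w : GolayPt → ℤ) (Spor.leechU : GolayPt → ℤ) = 0 →
      dotInt (v : GolayPt → ℤ) w ≠ 0 → g v = v → g w = w := by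
    intro v w hv hw hv0 hw0 hd hgv
    rcases hn w hw hw0 with h1 | h1
    · exact h1
    · exfalso
      have h2 := dotInt_map hgC v w
      rw [hgv, h1, AddSubgroup.coe_neg, dotInt_neg_right] at h2
      omega
  have hsg' : ∀ v w : leechLattice, sqNorm (v : GolayPt → ℤ) = 32 → sqNorm (w : GolayPt → ℤ) = 32 →
      dotInt (v : GolayPt → ℤ) (Spor.leechU : GolayPt → ℤ) = 0 →
      dotInt (w : GolayPt → ℤ) (Spor.leechU : GolayPt → ℤ) = 0 →
      dotInt (v : GolayPt → ℤ) w ≠ 0 → g v = -v → g w = -w := by
    intro v w hv hw hv0 hw0 hd hgv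
    rcases hn w hw hw0 with h1 | h1
    · exfalso
      have h2 := hsg w v hw hv hw0 hv0 (by rw [dotInt_comm]; exact hd) h1
      rw [h2] at hgv
      exact ne_neg_self (by rw [hv]; norm_num) hgv
    · exact h1
  -- orthogonality of the vectors away from none and some 0
  have o1 : ∀ i j : GolayPt, i ≠ none → j ≠ none → i ≠ some 0 → j ≠ some 0 →
      dotInt (vp i j : GolayPt → ℤ) (Spor.leechU : GolayPt → ℤ) = 0 := by
    intro i j hi hj hi' hj'
    rw [dot_leechU, vp_coe]
    simp [Pi.single_eq_of_ne (Ne.symm hi), Pi.single_eq_of_ne (Ne.symm hj), Pi.single_eq_of_ne (Ne.symm hi'),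
      Pi.single_eq_of_ne (Ne.symm hj')]
  have o2 : ∀ i j : GolayPt, i ≠ none → j ≠ none → i ≠ some 0 → j ≠ some 0 →
      dotInt (vm i j : GolayPt → ℤ) (Spor.leechU : GolayPt → ℤ) = 0 := by
    intro i j hi hj hi' hj'
    rw [dot_leechU, vm_coe]
    simp [Pi.single_eq_of_ne (Ne.symm hi), Pi.single_eq_of_ne (Ne.symm hj), Pi.single_eq_of_ne (Ne.symm hi'),
      Pi.single_eq_of_ne (Ne.symm hj')]
  have hfresh : ∀ i j : GolayPt, ∃ k, k ≠ i ∧ k ≠ j ∧ k ≠ none ∧ k ≠ some 0 := by
    intro i j
    by_contra hcon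
    push Not at hcon
    have : (Finset.univ : Finset GolayPt) ⊆ {i, j, none, some 0} := by
      intro k _
      simp only [Finset.mem_insert, Finset.mem_singleton]
      by_cases h1 : k = i
      · exact Or.inl h1
      by_cases h2 : k = j
      · exact Or.inr (Or.inl h2)
      by_cases h3 : k = none
      · exact Or.inr (Or.inr (Or.inl h3))
      · exact Or.inr (Or.inr (Or.inr (hcon k h1 h2 h3)))
    have h2 := Finset.card_le_card this
    have h3 := Finset.card_le_four (a := i) (b := j) (c := (none : GolayPt)) (d := some 0)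
    rw [Finset.card_univ, Golay.card_golayPt] at h2
    omega
  have hvm0 : dotInt (vm none (some 0) : GolayPt → ℤ) (Spor.leechU : GolayPt → ℤ) = 0 := by
    rw [dot_leechU, vm_coe]; simp
  -- the two vectors 8 e_none, 8 e_0 are permuted
  have h8n : (g (v8 none) = v8 none ∧ g (v8 (some 0)) = v8 (some 0)) ∨
      (g (v8 none) = v8 (some 0) ∧ g (v8 (some 0)) = v8 none) := by
    have hs : ∀ a b : leechLattice, g (a - b) = g a - g b := by
      intro a b
      rw [sub_eq_add_neg, hgC.1, map_neg_Co0 hgC, ← sub_eq_add_neg]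
    rcases hn (vm none (some 0)) (sqNorm_vm (by decide)) hvm0 with h1 | h1
    · left
      rw [v8_none_eq, v8_zero_eq, hgC.1, hs, hgu, h1]; exact ⟨rfl, rfl⟩
    · right
      rw [v8_none_eq, v8_zero_eq, hgC.1, hs, hgu, h1]
      exact ⟨by abel, by abel⟩
  have hcg : Cg (g (v8 none)) (v8 none) := by
    rcases h8n with ⟨h1, -⟩ | ⟨h1, -⟩
    · rw [h1]; exact Cg.refl _
    · rw [h1]; exact cg_v8 _ _
  obtain ⟨σ, hσ, c, hc, hm⟩ := L.frame g hgC hcg
  -- images of the 8 e_i for the other i, up to a common sign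
  obtain ⟨i₀, -, -, hi₀, hi₀'⟩ := hfresh none none
  obtain ⟨j₀, hj₀i, -, hj₀, hj₀'⟩ := hfresh i₀ i₀
  have hmain : ∃ ε : ℤ, (ε = 1 ∨ ε = -1) ∧ ∀ i, i ≠ none → i ≠ some 0 →
      (g (v8 i) : GolayPt → ℤ) = ε • (v8 i : GolayPt → ℤ) := by
    rcases hn (vp i₀ j₀) (sqNorm_vp hj₀i.symm) (o1 _ _ hi₀ hj₀ hi₀' hj₀') with h1 | h1
    · refine ⟨1, Or.inl rfl, ?_⟩
      have hp : ∀ j, j ≠ i₀ → j ≠ none → j ≠ some 0 → g (vp i₀ j) = vp i₀ j := fun j hj hjn hj0 =>
        hsg _ _ (sqNorm_vp hj₀i.symm) (sqNorm_vp hj.symm) (o1 _ _ hi₀ hj₀ hi₀' hj₀') (o1 _ _ hi₀ hjn hi₀' hj0)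
          (dot_vp_vp _ _ _ hj₀i.symm hj.symm) h1
      have hp2 : ∀ i j, i ≠ j → i ≠ none → i ≠ some 0 → j ≠ none → j ≠ some 0 → g (vp i j) = vp i j := by
        intro i j hij hin hi0 hjn hj0
        by_cases hi : i = i₀
        · subst hi; exact hp j hij.symm hjn hj0
        · exact hsg _ _ (sqNorm_vp hi) (sqNorm_vp hij) (o1 _ _ hin hi₀ hi0 hi₀') (o1 _ _ hin hjn hi0 hj0)
            (dot_vp_vp _ _ _ hi hij) (by rw [vp_comm]; exact hp i hi hin hi0)
      intro i hin hi0
      obtain ⟨j, hji, -, hjn, hj0⟩ := hfresh i i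
      obtain ⟨k, hki, hkj, hkn, hk0⟩ := hfresh i j
      have hm2 : g (vm i j) = vm i j :=
        hsg _ _ (sqNorm_vp hki.symm) (sqNorm_vm hji.symm) (o1 _ _ hin hkn hi0 hk0) (o2 _ _ hin hjn hi0 hj0)
          (dot_vp_vm i j k hji.symm hki.symm hkj.symm) (hp2 i k hki.symm hin hi0 hkn hk0)
      rw [v8_eq i j, hgC.1, hp2 i j hji.symm hin hi0 hjn hj0, hm2, one_smul]
    · refine ⟨-1, Or.inr rfl, ?_⟩
      have hp : ∀ j, j ≠ i₀ → j ≠ none → j ≠ some 0 → g (vp i₀ j) = -vp i₀ j := fun j hj hjn hj0 =>
        hsg' _ _ (sqNorm_vp hj₀i.symm) (sqNorm_vp hj.symm) (o1 _ _ hi₀ hj₀ hi₀' hj₀') (o1 _ _ hi₀ hjn hi₀' hj0)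
          (dot_vp_vp _ _ _ hj₀i.symm hj.symm) h1
      have hp2 : ∀ i j, i ≠ j → i ≠ none → i ≠ some 0 → j ≠ none → j ≠ some 0 → g (vp i j) = -vp i j := by
        intro i j hij hin hi0 hjn hj0
        by_cases hi : i = i₀
        · subst hi; exact hp j hij.symm hjn hj0
        · exact hsg' _ _ (sqNorm_vp hi) (sqNorm_vp hij) (o1 _ _ hin hi₀ hi0 hi₀') (o1 _ _ hin hjn hi0 hj0)
            (dot_vp_vp _ _ _ hi hij) (by rw [vp_comm]; exact hp i hi hin hi0)
      intro i hin hi0
      obtain ⟨j, hji, -, hjn, hj0⟩ := hfresh i i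
      obtain ⟨k, hki, hkj, hkn, hk0⟩ := hfresh i j
      have hm2 : g (vm i j) = -vm i j :=
        hsg' _ _ (sqNorm_vp hki.symm) (sqNorm_vm hji.symm) (o1 _ _ hin hkn hi0 hk0) (o2 _ _ hin hjn hi0 hj0)
          (dot_vp_vm i j k hji.symm hki.symm hkj.symm) (hp2 i k hki.symm hin hi0 hkn hk0)
      rw [v8_eq i j, hgC.1, hp2 i j hji.symm hin hi0 hjn hj0, hm2]
      simp only [AddSubgroup.coe_add, AddSubgroup.coe_neg, neg_smul, one_smul]
      abel
  obtain ⟨ε, hε, hmain⟩ := hmain
  -- the permutation and the signs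
  have hσi : ∀ i, i ≠ none → i ≠ some 0 → σ i = i ∧ (1 - 2 * lift c i) = ε := by
    intro i hin hi0
    have h1 := hm (v8 i) i
    rw [hmain i hin hi0, v8_coe] at h1
    have h2 : (ε • (Pi.single i 8 : GolayPt → ℤ)) i = ε * 8 := by simp
    rw [h2] at h1
    by_cases hσ1 : σ i = i
    · refine ⟨hσ1, ?_⟩
      rw [hσ1, Pi.single_eq_same] at h1
      omega
    · exfalso
      rw [Pi.single_eq_of_ne hσ1, mul_zero] at h1
      rcases hε with h | h <;> rw [h] at h1 <;> norm_num at h1
  have hsgn : (1 - 2 * lift c none) = 1 ∧ (1 - 2 * lift c (some 0)) = 1 := by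
    have e1 : ∀ (i j : GolayPt) , g (v8 i) = v8 j → (1 - 2 * lift c j) = 1 := by
      intro i j hij
      have h1 := hm (v8 i) j
      rw [hij, v8_coe, v8_coe, Pi.single_eq_same] at h1
      by_cases h2 : σ j = i
      · rw [h2, Pi.single_eq_same] at h1
        rcases lift_zero_or_one c j with h3 | h3 <;> rw [h3] at h1 ⊢ <;> omega
      · rw [Pi.single_eq_of_ne h2, mul_zero] at h1
        norm_num at h1
    rcases h8n with ⟨h1, h2⟩ | ⟨h1, h2⟩
    · exact ⟨e1 _ _ h1, e1 _ _ h2⟩
    · exact ⟨e1 _ _ h2, e1 _ _ h1⟩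
  have hσ1 : σ = 1 := by
    by_contra hne
    have hsw : σ = Equiv.swap none (some 0) := by
      have hn0 : σ none ≠ none := by
        intro h1
        apply hne
        ext1 i
        by_cases hin : i = none
        · subst hin; exact h1
        by_cases hi0 : i = some 0
        · subst hi0
          have h2 : σ (some 0) = some 0 := by
            by_contra h3
            by_cases h4 : σ (some 0) = none
            · have := σ.injective (h4.trans h1.symm)
              exact absurd this (by decide)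
            · have := (hσi _ h4 h3).1
              exact h3 (σ.injective this)
          exact h2
        · exact (hσi i hin hi0).1
      have h5 : σ none = some 0 := by
        by_contra h3
        exact hn0 (σ.injective (hσi _ hn0 h3).1)
      have h6 : σ (some 0) = none := by
        by_contra h3
        by_cases h4 : σ (some 0) = some 0
        · have := σ.injective (h4.trans h5.symm)
          exact absurd this (by decide)
        · exact h4 (σ.injective (hσi _ h3 h4).1)
      ext1 i
      by_cases hin : i = none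
      · subst hin; rw [Equiv.swap_apply_left]; exact h5
      by_cases hi0 : i = some 0
      · subst hi0; rw [Equiv.swap_apply_right]; exact h6
      · rw [Equiv.swap_apply_of_ne_of_ne hin hi0]; exact (hσi i hin hi0).1
    rw [hsw] at hσ
    exact swap_not_mem_M24 (by decide) hσ
  have hc0 : c = 0 := by
    rcases hε with h1 | h1
    · ext1 i
      rw [Pi.zero_apply, ← lift_eq_zero_iff]
      by_cases hin : i = none
      · subst hin; have := hsgn.1; omega
      by_cases hi0 : i = some 0
      · subst hi0; have := hsgn.2; omega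
      · have := (hσi i hin hi0).2; omega
    · exfalso
      have hl : ∀ i, i ≠ none → i ≠ some 0 → lift c i = 1 := by
        intro i hin hi0
        have := (hσi i hin hi0).2
        omega
      have hs1 : (hammingNorm c : ℤ) = 22 := by
        rw [← sum_lift]
        have h2 : ∀ i, lift c i = (fun i : GolayPt => if i = none ∨ i = some 0 then (0 : ℤ) else 1) i := by
          intro i
          by_cases hin : i = none
          · subst hin; have := hsgn.1; simp; omega
          by_cases hi0 : i = some 0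
          · subst hi0; have := hsgn.2; simp; omega
          · rw [hl i hin hi0]; simp [hin, hi0]
        rw [Finset.sum_congr rfl (fun i _ => h2 i)]
        decide
      rcases code_weights c hc with h3 | h3 | h3 | h3 | h3 <;> rw [h3] at hs1 <;> norm_num at hs1
  rw [hσ1, hc0] at hm
  exact hm.eq isMono_one

/-- vectors of the lattice divisible by 4 -/
theorem exists_emb4 {w : leechLattice} (h4 : ∀ i, (4 : ℤ) ∣ (w : GolayPt → ℤ) i) :
    ∃ y : evenSum, w = emb4 y := by
  choose y hy using h4
  have heven : IsEvenVec (w : GolayPt → ℤ) := by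
    rw [isEven_iff w.2, hy none]
    exact ⟨2 * y none, by ring⟩
  obtain ⟨c, hc, -, hs⟩ := heven
  have hs2 : ∑ i, (w : GolayPt → ℤ) i = 4 * ∑ i, y i := by
    rw [Finset.mul_sum]; exact Finset.sum_congr rfl (fun i _ => hy i)
  refine ⟨⟨y, ?_⟩, ?_⟩
  · rw [mem_evenSum]
    rw [hs2] at hs
    unfold Int.ModEq at hs
    omega
  · apply Subtype.ext
    rw [emb4_coe]
    ext i
    rw [hy i]; rfl

/-- vectors moved by all sign changes only by `0` or `8 e_none` modulo 2 -/
theorem exists_emb4_of_flips (w : leechLattice)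
    (h : ∀ c (hc : c ∈ golayCode), Cg (flipCo c hc w) w ∨ Cg (flipCo c hc w) (w + v8 none)) :
    ∃ y : evenSum, Cg w (emb4 y) := by
  -- restrictions modulo 4
  have h1 : ∀ c ∈ golayCode, ∃ x ∈ leechLattice, ∀ i, x i ≡ lift c i * (w : GolayPt → ℤ) i [ZMOD 4] := by
    intro c hc
    rcases h c hc with ⟨u, hu⟩ | ⟨u, hu⟩
    · refine ⟨-u, neg_mem u.2, fun i => ?_⟩
      have h2 := congrArg (fun v : leechLattice => (v : GolayPt → ℤ) i) hu
      have h3 : (1 - 2 * lift c i) * (w : GolayPt → ℤ) i =
        (w : GolayPt → ℤ) i + ((u : GolayPt → ℤ) i + (u : GolayPt → ℤ) i) := h2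
      have h4 : -(u : GolayPt → ℤ) i = lift c i * (w : GolayPt → ℤ) i := by linarith
      show -(u : GolayPt → ℤ) i ≡ _ [ZMOD 4]
      rw [h4]
    · refine ⟨-u, neg_mem u.2, fun i => ?_⟩
      have h2 := congrArg (fun v : leechLattice => (v : GolayPt → ℤ) i) hu
      have h3 : (1 - 2 * lift c i) * (w : GolayPt → ℤ) i =
        ((w : GolayPt → ℤ) i + (v8 none : GolayPt → ℤ) i) + ((u : GolayPt → ℤ) i + (u : GolayPt → ℤ) i) := h2
      have h5 : ∃ m : ℤ, (v8 none : GolayPt → ℤ) i = 8 * m := by
        rw [v8_coe]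
        by_cases hi : i = none
        · subst hi; exact ⟨1, by simp⟩
        · exact ⟨0, by rw [Pi.single_eq_of_ne hi]; ring⟩
      obtain ⟨m, hm⟩ := h5
      rw [hm] at h3
      have h4 : -(u : GolayPt → ℤ) i = lift c i * (w : GolayPt → ℤ) i + 4 * m := by linarith
      show -(u : GolayPt → ℤ) i ≡ _ [ZMOD 4]
      rw [h4]
      unfold Int.ModEq; omega
  -- w is even
  rcases (mem_iff (w : GolayPt → ℤ)).1 w.2 with hev | ⟨d, hd, h4, -⟩
  swap
  · exfalso
    have hc : qrWord 0 ∈ golayCode := Submodule.subset_span (Set.mem_union_left _ ⟨0, rfl⟩)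
    obtain ⟨x, hx, hxi⟩ := h1 _ hc
    have e0 := hxi (some 0)
    have e1 := hxi none
    have l0 : lift (qrWord 0) (some 0) = 1 := by decide
    have l1 : lift (qrWord 0) none = 0 := by decide
    rw [l0, one_mul] at e0
    rw [l1, zero_mul] at e1
    have h40 := h4 (some 0)
    rcases (mem_iff x).1 hx with ⟨c', hc', h', -⟩ | ⟨c', hc', h', -⟩
    · have := h' (some 0)
      unfold Int.ModEq at *; omega
    · have := h' none
      unfold Int.ModEq at *; omega
  obtain ⟨d, hd, h4, hs⟩ := hev
  -- products with d stay in the code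
  have h2 : ∀ c ∈ golayCode, ∃ e ∈ golayCode, ∀ i, e i = c i * d i := by
    intro c hc
    obtain ⟨x, hx, hxi⟩ := h1 c hc
    rcases (mem_iff x).1 hx with ⟨e, he, h', -⟩ | ⟨e, he, h', -⟩
    · refine ⟨e, he, fun i => ?_⟩
      have a1 := h' i
      have a2 := hxi i
      have a3 := h4 i
      have key : lift e i = lift c i * lift d i := by
        rcases lift_zero_or_one c i with l1 | l1 <;> rcases lift_zero_or_one d i with l2 | l2 <;>
        rcases lift_zero_or_one e i with l3 | l3 <;> rw [l1] at a2 ⊢ <;> rw [l2] at a3 ⊢ <;> rw [l3] at a1 ⊢ <;>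
        unfold Int.ModEq at * <;> omega
      unfold lift at key
      have hk : ∀ a b c : ZMod 2, (a.val : ℤ) = (b.val : ℤ) * (c.val : ℤ) → a = b * c := by decide
      exact hk _ _ _ key
    · exfalso
      have a1 := h' none
      have a2 := hxi none
      have a3 := h4 none
      rcases lift_zero_or_one c none with l1 | l1 <;> rcases lift_zero_or_one d none with l2 | l2 <;>
      rcases lift_zero_or_one e none with l3 | l3 <;> rw [l1] at a2 <;> rw [l2] at a3 <;> rw [l3] at a1 <;>
        unfold Int.ModEq at * <;> omega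
  -- d is constant
  have h3 : (∀ p, d p = 0) ∨ (∀ p, d p ≠ 0) := by
    by_contra hcon
    push Not at hcon
    obtain ⟨⟨p, hp⟩, ⟨q, hq⟩⟩ := hcon
    obtain ⟨o, ho, hpq⟩ := Golay.exists_octad_of_le (s := {p, q}) (le_trans Finset.card_le_two (by norm_num))
    obtain ⟨c, hc, hco⟩ := ho.1
    have ho8 := ho.2
    obtain ⟨e, he, hec⟩ := h2 c hc
    have hpo : c p ≠ 0 := by
      have : p ∈ o := hpq (by simp)
      rw [← hco] at this; simpa [support₂] using this
    have hqo : c q ≠ 0 := by
      have : q ∈ o := hpq (by simp)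
      rw [← hco] at this; simpa [support₂] using this
    have hep : e p ≠ 0 := by
      rw [hec]; exact mul_ne_zero hpo hp
    have hsub : support₂ e ⊆ (support₂ c).erase q := by
      intro i hi
      simp only [support₂, Finset.mem_filter, Finset.mem_univ, true_and] at hi
      rw [hec] at hi
      rw [Finset.mem_erase]
      refine ⟨?_, ?_⟩
      · rintro rfl; rw [hq, mul_zero] at hi; exact hi rfl
      · simp only [support₂, Finset.mem_filter, Finset.mem_univ, true_and]
        intro h0; rw [h0, zero_mul] at hi; exact hi rfl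
    have hc1 := Finset.card_le_card hsub
    have hqc : q ∈ support₂ c := by simpa [support₂] using hqo
    rw [Finset.card_erase_of_mem hqc, hco, ho8] at hc1
    have hc2 : 0 < (support₂ e).card := Finset.card_pos.2 ⟨p, by simpa [support₂] using hep⟩
    have hc3 : hammingNorm e = (support₂ e).card := rfl
    have := code_weights e he
    rw [hc3] at this
    omega
  rcases h3 with h3 | h3
  · have h5 : ∀ i, (4 : ℤ) ∣ (w : GolayPt → ℤ) i := by
      intro i
      have a3 := h4 i
      rw [(lift_eq_zero_iff d i).2 (h3 i)] at a3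
      unfold Int.ModEq at a3; omega
    obtain ⟨y, hy⟩ := exists_emb4 h5
    exact ⟨y, by rw [hy]; exact Cg.refl _⟩
  · have h5 : ∀ i, (4 : ℤ) ∣ ((w + ((⟨oddVec, oddVec_mem⟩ : leechLattice) + ⟨oddVec, oddVec_mem⟩) : leechLattice) :
        GolayPt → ℤ) i := by
      intro i
      have a3 := h4 i
      rw [(lift_eq_one_iff d i).2 (h3 i)] at a3
      show (4 : ℤ) ∣ (w : GolayPt → ℤ) i + (oddVec i + oddVec i)
      unfold oddVec
      split_ifs <;> unfold Int.ModEq at a3 <;> omega
    obtain ⟨y, hy⟩ := exists_emb4 h5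
    refine ⟨y, ?_⟩
    rw [← hy]
    exact Cg.symm ⟨_, rfl⟩

end Cfsg.Agent.H90
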