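import Cfsg.Agent.Leech.Classes
import Cfsg.Agent.H90.InvForm
import Cfsg.Prelude.Def_MonsterType

/-!
# Facts on the rank-24 lattice used for groups of Monster type (owner: helper90)
-/

set_option autoImplicit false

namespace Cfsg.Agent.H90

open Cfsg Cfsg.Agent.Leech

/-- congruence modulo twice the lattice -/
def Cg (v w : leechLattice) : Prop := ∃ u : leechLattice, v = w + (u + u)

theorem Cg.refl (v : leechLattice) : Cg v v := ⟨0, by simp⟩

theorem Cg.symm {v w : leechLattice} (h : Cg v w) : Cg w v := by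
  obtain ⟨u, rfl⟩ := h
  exact ⟨-u, by abel⟩

theorem Cg.trans {v w x : leechLattice} (h : Cg v w) (h' : Cg w x) : Cg v x := by
  obtain ⟨u, rfl⟩ := h
  obtain ⟨u', rfl⟩ := h'
  exact ⟨u + u', by abel⟩

theorem Cg.add {v w v' w' : leechLattice} (h : Cg v w) (h' : Cg v' w') : Cg (v + v') (w + w') := by
  obtain ⟨u, rfl⟩ := h
  obtain ⟨u', rfl⟩ := h'
  exact ⟨u + u', by abel⟩

theorem Cg.neg (v : leechLattice) : Cg (-v) v := ⟨-v, by abel⟩

theorem cg_iff (v w : leechLattice) :
    Cg v w ↔ ∃ z ∈ leechLattice, (v : GolayPt → ℤ) - (w : GolayPt → ℤ) = 2 • z := by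
  constructor
  · rintro ⟨u, rfl⟩
    refine ⟨u, u.2, ?_⟩
    simp only [AddSubgroup.coe_add]
    rw [two_smul]; abel
  · rintro ⟨u, hu, h⟩
    refine ⟨⟨u, hu⟩, Subtype.ext ?_⟩
    simp only [AddSubgroup.coe_add]
    rw [two_smul] at h
    rw [← h]; abel

theorem Cg.norm32 {v w : leechLattice} (h : Cg v w) :
    (32 : ℤ) ∣ sqNorm (v : GolayPt → ℤ) ↔ (32 : ℤ) ∣ sqNorm (w : GolayPt → ℤ) := by
  obtain ⟨u, rfl⟩ := h
  have h1 : sqNorm ((w + (u + u) : leechLattice) : GolayPt → ℤ) =
      sqNorm (w : GolayPt → ℤ) + 4 * sqNorm (u : GolayPt → ℤ) + 4 * dotInt (w : GolayPt → ℤ) u := by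
    simp only [AddSubgroup.coe_add]
    rw [sqNorm_add, sqNorm_add, dotInt_comm (w : GolayPt → ℤ) ((u : GolayPt → ℤ) + u),
      Leech.dotInt_add_left, dotInt_comm (u : GolayPt → ℤ) w, dotInt_self]
    ring
  have h2 := sixteen_dvd_sqNorm u.2
  have h3 := eight_dvd_dotInt w.2 u.2
  rw [h1]
  omega

theorem map_add_Co0 {g : Equiv.Perm leechLattice} (hg : g ∈ Co0) (v w : leechLattice) :
    g (v + w) = g v + g w := hg.1 v w

theorem Cg.map {g : Equiv.Perm leechLattice} (hg : g ∈ Co0) {v w : leechLattice} (h : Cg v w) :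
    Cg (g v) (g w) := by
  obtain ⟨u, rfl⟩ := h
  exact ⟨g u, by rw [hg.1, hg.1]⟩

theorem map_zero_Co0 {g : Equiv.Perm leechLattice} (hg : g ∈ Co0) : g 0 = 0 := by
  have h := hg.1 0 0
  rw [add_zero] at h
  exact left_eq_add.1 h

theorem map_neg_Co0 {g : Equiv.Perm leechLattice} (hg : g ∈ Co0) (v : leechLattice) :
    g (-v) = - g v := by
  have h := hg.1 v (-v)
  rw [add_neg_cancel, map_zero_Co0 hg] at h
  exact (neg_eq_of_add_eq_zero_right h.symm).symm

theorem map_nsmul_Co0 {g : Equiv.Perm leechLattice} (hg : g ∈ Co0) (n : ℕ) (v : leechLattice) :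
    g (n • v) = n • g v := by
  induction n with
  | zero => simp [map_zero_Co0 hg]
  | succ n ih => rw [succ_nsmul, succ_nsmul, hg.1, ih]

/-- isometries preserve inner products -/
theorem dotInt_map {g : Equiv.Perm leechLattice} (hg : g ∈ Co0) (v w : leechLattice) :
    dotInt (g v : GolayPt → ℤ) (g w) = dotInt (v : GolayPt → ℤ) w := by
  have h1 := hg.2 (v + w)
  rw [hg.1] at h1
  simp only [AddSubgroup.coe_add] at h1
  rw [sqNorm_add, sqNorm_add, hg.2, hg.2] at h1
  omega

/-- negation -/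
def negCo : Equiv.Perm leechLattice where
  toFun v := -v
  invFun v := -v
  left_inv v := by simp
  right_inv v := by simp

theorem negCo_mem : negCo ∈ Co0 := by
  refine ⟨fun v w => ?_, fun v => ?_⟩
  · show -(v + w) = -v + -w
    abel
  · show sqNorm ((-v : leechLattice) : GolayPt → ℤ) = _
    rw [AddSubgroup.coe_neg, sqNorm_neg]

theorem negCo_central {g : Equiv.Perm leechLattice} (hg : g ∈ Co0) : negCo * g = g * negCo := by
  ext1 v
  show -(g v) = g (-v)
  rw [map_neg_Co0 hg]

theorem negCo_sq : negCo * negCo = 1 := by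
  ext1 v
  show - -v = v
  simp

theorem negCo_ne_one : negCo ≠ 1 := by
  intro h
  have := congrArg (fun g : Equiv.Perm leechLattice => (g Spor.leechU : GolayPt → ℤ) none) h
  revert this
  show ((-Spor.leechU : leechLattice) : GolayPt → ℤ) none ≠ (Spor.leechU : GolayPt → ℤ) none
  rw [AddSubgroup.coe_neg]
  show - Spor.vecU none ≠ Spor.vecU none
  decide

/-- the vector `8 e_i` -/
def v8 (i : GolayPt) : leechLattice := emb4 (EE i i)

/-- the vector `4 e_i + 4 e_j` -/
def vp (i j : GolayPt) : leechLattice := emb4 (EE i j)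

/-- the vector `4 e_i - 4 e_j` -/
def vm (i j : GolayPt) : leechLattice := emb4 (EE i j - EE j j)

theorem v8_coe (i : GolayPt) : (v8 i : GolayPt → ℤ) = Pi.single i 8 := by
  ext k
  show (4 : ℤ) • ((Pi.single i 1 + Pi.single i 1 : GolayPt → ℤ) k) = _
  by_cases h : k = i
  · subst h; simp
  · simp [Pi.single_eq_of_ne h]

theorem vp_coe (i j : GolayPt) : (vp i j : GolayPt → ℤ) = Pi.single i 4 + Pi.single j 4 := by
  ext k
  show (4 : ℤ) • ((Pi.single i 1 + Pi.single j 1 : GolayPt → ℤ) k) = _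
  by_cases h : k = i <;> by_cases h' : k = j
  · subst h; subst h'; simp
  · subst h; simp [Pi.single_eq_of_ne h']
  · subst h'; simp [Pi.single_eq_of_ne h]
  · simp [Pi.single_eq_of_ne h, Pi.single_eq_of_ne h']

theorem vm_coe (i j : GolayPt) : (vm i j : GolayPt → ℤ) = Pi.single i 4 - Pi.single j 4 := by
  ext k
  show (4 : ℤ) • (((Pi.single i 1 + Pi.single j 1) - (Pi.single j 1 + Pi.single j 1) : GolayPt → ℤ) k) = _
  by_cases h : k = i <;> by_cases h' : k = j
  · subst h; subst h'; simp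
  · subst h; simp [Pi.single_eq_of_ne h']
  · subst h'; simp [Pi.single_eq_of_ne h]
  · simp [Pi.single_eq_of_ne h, Pi.single_eq_of_ne h']

theorem dot_single (x : GolayPt → ℤ) (i : GolayPt) (a : ℤ) : dotInt x (Pi.single i a) = x i * a := by
  unfold dotInt
  rw [Finset.sum_eq_single i]
  · simp
  · intro b _ hb; rw [Pi.single_eq_of_ne hb]; simp
  · intro h; exact absurd (Finset.mem_univ i) h

theorem dotInt_add_right (x y z : GolayPt → ℤ) : dotInt x (y + z) = dotInt x y + dotInt x z := by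
  rw [dotInt_comm, dotInt_add_left, dotInt_comm y, dotInt_comm z]

theorem dotInt_sub_right (x y z : GolayPt → ℤ) : dotInt x (y - z) = dotInt x y - dotInt x z := by
  have := dotInt_add_right x (y - z) z
  rw [sub_add_cancel] at this
  omega

theorem dotInt_neg_right (x y : GolayPt → ℤ) : dotInt x (-y) = - dotInt x y := by
  have := dotInt_sub_right x 0 y
  rw [zero_sub] at this
  rw [this]
  simp [dotInt]

theorem sqNorm_v8 (i : GolayPt) : sqNorm (v8 i : GolayPt → ℤ) = 64 := by
  rw [← dotInt_self, v8_coe, dot_single]; simp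

theorem sqNorm_vp {i j : GolayPt} (h : i ≠ j) : sqNorm (vp i j : GolayPt → ℤ) = 32 := by
  rw [← dotInt_self, vp_coe, dotInt_add_right, dot_single, dot_single]
  simp [Pi.single_eq_of_ne h, Pi.single_eq_of_ne (Ne.symm h)]

theorem sqNorm_vm {i j : GolayPt} (h : i ≠ j) : sqNorm (vm i j : GolayPt → ℤ) = 32 := by
  rw [← dotInt_self, vm_coe, dotInt_sub_right, dot_single, dot_single]
  simp [Pi.single_eq_of_ne h, Pi.single_eq_of_ne (Ne.symm h)]

theorem leechU_eq : Spor.leechU = vp none (some 0) := by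
  apply Subtype.ext
  rw [vp_coe]
  show Spor.vecU = _
  ext k
  revert k
  decide

/-- An isometry that is determined on all `8 e_i`: if `g (8 e_i) = ε 8 e_i` for all `i` then `g = ε`. -/
theorem eq_smul_of_v8 {g : Equiv.Perm leechLattice} (hg : g ∈ Co0) (ε : ℤ)
    (h : ∀ i, (g (v8 i) : GolayPt → ℤ) = ε • (v8 i : GolayPt → ℤ)) (v : leechLattice) :
    (g v : GolayPt → ℤ) = ε • (v : GolayPt → ℤ) := by
  -- compare inner products with all g (8 e_i)
  have h1 : ∀ i, dotInt (g v : GolayPt → ℤ) (g (v8 i)) = dotInt (v : GolayPt → ℤ) (v8 i) :=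
    fun i => dotInt_map hg v (v8 i)
  have hε : ε * ε = 1 := by
    have h2 := hg.2 (v8 none)
    rw [h none, sqNorm_smul, sqNorm_v8] at h2
    nlinarith
  ext i
  have h3 := h1 i
  rw [h i, v8_coe, dot_single] at h3
  have h4 : ε • (Pi.single i 8 : GolayPt → ℤ) = Pi.single i (ε * 8) := by
    ext k
    by_cases hk : k = i
    · subst hk; simp
    · simp [Pi.single_eq_of_ne hk]
  rw [h4, dot_single] at h3
  have h5 : (g v : GolayPt → ℤ) i * ε = (v : GolayPt → ℤ) i := by linarith
  calc (g v : GolayPt → ℤ) i = (g v : GolayPt → ℤ) i * (ε * ε) := by rw [hε, mul_one]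
    _ = ((g v : GolayPt → ℤ) i * ε) * ε := by ring
    _ = ε • (v : GolayPt → ℤ) i := by rw [h5, smul_eq_mul, mul_comm]

/-- Two vectors of squared length 32 that are congruent modulo 2 are equal up to sign. -/
theorem Cg.eq_or_neg {v w : leechLattice} (h : Cg v w) (hv : Cfsg.sqNorm (v : GolayPt → ℤ) = 32)
    (hw : Cfsg.sqNorm (w : GolayPt → ℤ) ≤ 64) : v = w ∨ v = -w := by
  rcases cong_small v w v.2 w.2 (by rw [hv]; norm_num) hw ((cg_iff v w).1 h) with h1 | h1 | ⟨h1, -⟩
  · exact Or.inl (Subtype.ext h1)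
  · exact Or.inr (Subtype.ext h1)
  · omega

theorem ne_neg_self {v : leechLattice} (hv : Cfsg.sqNorm (v : GolayPt → ℤ) ≠ 0) : v ≠ -v := by
  intro h
  apply hv
  rw [sqNorm_eq_zero_iff]
  have h2 : (v : GolayPt → ℤ) = -(v : GolayPt → ℤ) := congrArg Subtype.val h
  ext i
  have := congrFun h2 i
  simp only [Pi.neg_apply] at this
  simp only [Pi.zero_apply]
  omega

/-- An automorphism acting trivially modulo 2 is `1` or `-1`. -/
theorem trivial_mod_two {g : Equiv.Perm leechLattice} (hg : g ∈ Co0) (h : ∀ v, Cg (g v) v) :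
    g = 1 ∨ g = negCo := by
  have hn : ∀ v : leechLattice, Cfsg.sqNorm (v : GolayPt → ℤ) = 32 → g v = v ∨ g v = -v :=
    fun v hv => (h v).eq_or_neg (by rw [hg.2]; exact hv) (by rw [hv]; norm_num)
  -- signs agree on non-orthogonal vectors
  have hsg : ∀ v w : leechLattice, Cfsg.sqNorm (v : GolayPt → ℤ) = 32 → Cfsg.sqNorm (w : GolayPt → ℤ) = 32 →
      dotInt (v : GolayPt → ℤ) w ≠ 0 → g v = v → g w = w := by
    intro v w hv hw hd hgv
    rcases hn w hw with h1 | h1
    · exact h1
    · exfalso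
      have h2 := dotInt_map hg v w
      rw [hgv, h1, AddSubgroup.coe_neg, dotInt_neg_right] at h2
      omega
  have hsg' : ∀ v w : leechLattice, Cfsg.sqNorm (v : GolayPt → ℤ) = 32 → Cfsg.sqNorm (w : GolayPt → ℤ) = 32 →
      dotInt (v : GolayPt → ℤ) w ≠ 0 → g v = -v → g w = -w := by
    intro v w hv hw hd hgv
    rcases hn w hw with h1 | h1
    · exfalso
      have h2 := hsg w v hw hv (by rw [dotInt_comm]; exact hd) h1
      rw [h2] at hgv
      exact ne_neg_self (by rw [hv]; norm_num) hgv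
    · exact h1
  have hd1 : ∀ i j k : GolayPt, i ≠ j → i ≠ k → dotInt (vp i j : GolayPt → ℤ) (vp i k) ≠ 0 := by
    intro i j k hij hik
    rw [vp_coe, vp_coe, dotInt_add_right, dot_single, dot_single]
    simp only [Pi.add_apply, Pi.single_eq_same, Pi.single_eq_of_ne hij, Pi.single_eq_of_ne (Ne.symm hik)]
    by_cases hjk : k = j
    · subst hjk; simp
    · simp [Pi.single_eq_of_ne hjk]
  have hd2 : ∀ i j k : GolayPt, i ≠ j → i ≠ k → j ≠ k → dotInt (vp i k : GolayPt → ℤ) (vm i j) ≠ 0 := by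
    intro i j k hij hik hjk
    rw [vp_coe, vm_coe, dotInt_sub_right, dot_single, dot_single]
    simp only [Pi.add_apply, Pi.single_eq_same, Pi.single_eq_of_ne hik, Pi.single_eq_of_ne (Ne.symm hij),
      Pi.single_eq_of_ne hjk]
    norm_num
  have hfresh : ∀ i j : GolayPt, ∃ k, k ≠ i ∧ k ≠ j := by
    intro i j
    by_contra hcon
    push Not at hcon
    have : (Finset.univ : Finset GolayPt) ⊆ {i, j} := by
      intro k _
      rw [Finset.mem_insert, Finset.mem_singleton]
      by_cases hk : k = i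
      · exact Or.inl hk
      · exact Or.inr (hcon k hk)
    have h2 := Finset.card_le_card this
    have h3 := Finset.card_le_two (a := i) (b := j)
    rw [Finset.card_univ, Golay.card_golayPt] at h2
    omega
  -- v8 i = vp i j + vm i j
  have hv8 : ∀ i j, v8 i = vp i j + vm i j := by
    intro i j
    apply Subtype.ext
    rw [AddSubgroup.coe_add, v8_coe, vp_coe, vm_coe]
    ext k
    by_cases h : k = i <;> by_cases h' : k = j
    · subst h; subst h'; simp
    · subst h; simp [Pi.single_eq_of_ne h']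
    · subst h'; simp [Pi.single_eq_of_ne h]
    · simp [Pi.single_eq_of_ne h, Pi.single_eq_of_ne h']
  have h0 : (none : GolayPt) ≠ some 0 := by decide
  rcases hn (vp none (some 0)) (sqNorm_vp h0) with h1 | h1
  · -- all signs are +
    left
    have hp : ∀ j, j ≠ none → g (vp none j) = vp none j := fun j hj =>
      hsg _ _ (sqNorm_vp h0) (sqNorm_vp (Ne.symm hj)) (hd1 _ _ _ h0 (Ne.symm hj)) h1
    have hp2 : ∀ i j, i ≠ j → g (vp i j) = vp i j := by
      intro i j hij
      by_cases hi : i = none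
      · subst hi; exact hp j (Ne.symm hij)
      · have e : vp i none = vp none i := by unfold vp; rw [EE_comm]
        exact hsg _ _ (sqNorm_vp hi) (sqNorm_vp hij) (hd1 _ _ _ hi hij) (by rw [e]; exact hp i hi)
    have hm2 : ∀ i j, i ≠ j → g (vm i j) = vm i j := by
      intro i j hij
      obtain ⟨k, hki, hkj⟩ := hfresh i j
      exact hsg _ _ (sqNorm_vp (Ne.symm hki)) (sqNorm_vm hij) (hd2 i j k hij (Ne.symm hki) (Ne.symm hkj))
        (hp2 i k (Ne.symm hki))
    have h8 : ∀ i, (g (v8 i) : GolayPt → ℤ) = (1 : ℤ) • (v8 i : GolayPt → ℤ) := by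
      intro i
      obtain ⟨j, hji, -⟩ := hfresh i i
      rw [hv8 i j, hg.1, hp2 i j (Ne.symm hji), hm2 i j (Ne.symm hji), one_smul]
    ext1 v
    apply Subtype.ext
    rw [eq_smul_of_v8 hg 1 h8 v, one_smul]; rfl
  · right
    have hp : ∀ j, j ≠ none → g (vp none j) = -vp none j := fun j hj =>
      hsg' _ _ (sqNorm_vp h0) (sqNorm_vp (Ne.symm hj)) (hd1 _ _ _ h0 (Ne.symm hj)) h1
    have hp2 : ∀ i j, i ≠ j → g (vp i j) = -vp i j := by
      intro i j hij
      by_cases hi : i = none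
      · subst hi; exact hp j (Ne.symm hij)
      · have e : vp i none = vp none i := by unfold vp; rw [EE_comm]
        exact hsg' _ _ (sqNorm_vp hi) (sqNorm_vp hij) (hd1 _ _ _ hi hij) (by rw [e]; exact hp i hi)
    have hm2 : ∀ i j, i ≠ j → g (vm i j) = -vm i j := by
      intro i j hij
      obtain ⟨k, hki, hkj⟩ := hfresh i j
      exact hsg' _ _ (sqNorm_vp (Ne.symm hki)) (sqNorm_vm hij) (hd2 i j k hij (Ne.symm hki) (Ne.symm hkj))
        (hp2 i k (Ne.symm hki))
    have h8 : ∀ i, (g (v8 i) : GolayPt → ℤ) = (-1 : ℤ) • (v8 i : GolayPt → ℤ) := by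
      intro i
      obtain ⟨j, hji, -⟩ := hfresh i i
      rw [hv8 i j, hg.1, hp2 i j (Ne.symm hji), hm2 i j (Ne.symm hji)]
      simp only [AddSubgroup.coe_add, AddSubgroup.coe_neg, neg_smul, one_smul]
      abel
    ext1 v
    apply Subtype.ext
    rw [eq_smul_of_v8 hg (-1) h8 v]
    show _ = ((-v : leechLattice) : GolayPt → ℤ)
    rw [AddSubgroup.coe_neg, neg_smul, one_smul]

end Cfsg.Agent.H90
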