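import Cfsg.Agent.H90.QForm
import Cfsg.Agent.H90.InvForm

/-!
# The quadratic form on the lattice attached to an extraspecial centralizer of Monster type (owner: helper90)
-/

set_option autoImplicit false

namespace Cfsg.Agent.H90

open Cfsg

section
variable {G : Type*} [Group G] {z : G} {Q : Subgroup (Subgroup.centralizer ({z} : Set G))} [Q.Normal]

theorem mk_eq_iff_center {H : Type*} [Group H] {Q : Subgroup H} {ζ : H} (hX : XS Q ζ) (q r : Q) :
    (QuotientGroup.mk q : Q ⧸ Subgroup.center Q) = QuotientGroup.mk r ↔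
      ∃ c : H, (c = 1 ∨ c = ζ) ∧ (r : H) = q * c := by
  rw [QuotientGroup.eq, hX.mem_center_iff]
  constructor
  · intro h
    exact ⟨_, h, by simp⟩
  · rintro ⟨c, hc, h⟩
    have : ((q⁻¹ * r : Q) : H) = c := by
      rw [Subgroup.coe_mul, Subgroup.coe_inv, h]; group
    rw [this]; exact hc

/-- the quadratic form attached to `ψ` -/
noncomputable def mform (ψ : Cfsg.leechLattice → Q ⧸ Subgroup.center Q) (v : Cfsg.leechLattice) : ZMod 2 :=
  qf (((ψ v).out : Q) : Subgroup.centralizer ({z} : Set G))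

/-- the bilinear form attached to `ψ` -/
noncomputable def mbil (ψ : Cfsg.leechLattice → Q ⧸ Subgroup.center Q) (v w : Cfsg.leechLattice) : ZMod 2 :=
  bf (((ψ v).out : Q) : Subgroup.centralizer ({z} : Set G)) (((ψ w).out : Q) : Subgroup.centralizer ({z} : Set G))

variable {ζ : Subgroup.centralizer ({z} : Set G)} (hX : XS Q ζ)
include hX

omit [Q.Normal] in
theorem mform_eq {ψ : Cfsg.leechLattice → Q ⧸ Subgroup.center Q} {v : Cfsg.leechLattice} {q : Q}
    (h : ψ v = QuotientGroup.mk q) : mform ψ v = qf (q : Subgroup.centralizer ({z} : Set G)) := by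
  have h1 : (QuotientGroup.mk (ψ v).out : Q ⧸ Subgroup.center Q) = QuotientGroup.mk q := by
    rw [QuotientGroup.out_eq', h]
  obtain ⟨c, hc, h2⟩ := (mk_eq_iff_center hX _ _).1 h1
  rw [h2, hX.qf_mul_z (ψ v).out.2 hc]; rfl

omit [Q.Normal] in
theorem mbil_eq {ψ : Cfsg.leechLattice → Q ⧸ Subgroup.center Q} {v w : Cfsg.leechLattice} {q r : Q}
    (h : ψ v = QuotientGroup.mk q) (h' : ψ w = QuotientGroup.mk r) :
    mbil ψ v w = bf (q : Subgroup.centralizer ({z} : Set G)) r := by
  have h1 : (QuotientGroup.mk (ψ v).out : Q ⧸ Subgroup.center Q) = QuotientGroup.mk q := by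
    rw [QuotientGroup.out_eq', h]
  have h1' : (QuotientGroup.mk (ψ w).out : Q ⧸ Subgroup.center Q) = QuotientGroup.mk r := by
    rw [QuotientGroup.out_eq', h']
  obtain ⟨c, hc, h2⟩ := (mk_eq_iff_center hX _ _).1 h1
  obtain ⟨c', hc', h2'⟩ := (mk_eq_iff_center hX _ _).1 h1'
  have h3 : ((ψ v).out : Subgroup.centralizer ({z} : Set G)) * c ∈ Q := by rw [← h2]; exact q.2
  rw [h2, h2', hX.bf_symm, hX.bf_mul_z (ψ w).out.2 h3 hc', hX.bf_symm,
    hX.bf_mul_z (ψ v).out.2 (ψ w).out.2 hc]
  rfl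

/-- The attached form is a quadratic form invariant under `Co0`. -/
theorem invForm_of_isLeechModTwoIso {e : (Subgroup.centralizer ({z} : Set G)) ⧸ Q ≃* Spor.Co1}
    {ψ : Cfsg.leechLattice → Q ⧸ Subgroup.center Q} (hψ : IsLeechModTwoIso Q e ψ) :
    InvForm (mform ψ) (mbil ψ) where
  add v w := by
    obtain ⟨q, hq⟩ := QuotientGroup.mk_surjective (ψ v)
    obtain ⟨r, hr⟩ := QuotientGroup.mk_surjective (ψ w)
    have h1 : ψ (v + w) = QuotientGroup.mk (q * r) := by rw [hψ.1, ← hq, ← hr]; rfl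
    rw [mform_eq hX h1, mform_eq hX hq.symm, mform_eq hX hr.symm, mbil_eq hX hq.symm hr.symm,
      Subgroup.coe_mul, hX.qf_mul q.2 r.2, hX.bf_symm]
  addl u v w := by
    obtain ⟨p, hp⟩ := QuotientGroup.mk_surjective (ψ u)
    obtain ⟨q, hq⟩ := QuotientGroup.mk_surjective (ψ v)
    obtain ⟨r, hr⟩ := QuotientGroup.mk_surjective (ψ w)
    have h1 : ψ (u + v) = QuotientGroup.mk (p * q) := by rw [hψ.1, ← hp, ← hq]; rfl
    rw [mbil_eq hX h1 hr.symm, mbil_eq hX hp.symm hr.symm, mbil_eq hX hq.symm hr.symm,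
      Subgroup.coe_mul, hX.bf_mul p.2 q.2 r.2]
  dbl v := by
    have h1 : ψ (v + v) = QuotientGroup.mk 1 := (hψ.2.2.1 _).2 ⟨v, rfl⟩
    rw [mform_eq hX h1, Subgroup.coe_one, qf_eq_zero, one_mul]
  inv g hg v := by
    obtain ⟨x, hx⟩ := e.surjective (QuotientGroup.mk (⟨g, hg⟩ : Co0) : Spor.Co1)
    obtain ⟨h, rfl⟩ := QuotientGroup.mk_surjective x
    obtain ⟨q, hq⟩ := QuotientGroup.mk_surjective (ψ v)
    have h1 := hψ.2.2.2 h ⟨g, hg⟩ hx.symm v q hq.symm
    have h2 : ((⟨g, hg⟩ : Co0) • v : Cfsg.leechLattice) = g v := rfl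
    rw [h2] at h1
    rw [mform_eq hX h1, mform_eq hX hq.symm]
    exact qf_conj _ _

/-- Plus type: an elementary abelian subgroup of order `2 ^ 13`. -/
theorem exists_elementaryAbelian {e : (Subgroup.centralizer ({z} : Set G)) ⧸ Q ≃* Spor.Co1}
    {ψ : Cfsg.leechLattice → Q ⧸ Subgroup.center Q} (hψ : IsLeechModTwoIso Q e ψ) :
    ∃ E : Subgroup Q, (∀ q : Q, q ∈ E ↔ ∃ y : evenSum, ψ (emb4 y) = QuotientGroup.mk q) ∧
      IsElementaryAbelian 2 E ∧ Nat.card E = 2 ^ 13 := by
  have F := invForm_of_isLeechModTwoIso hX hψ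
  let φ : Multiplicative evenSum →* Q ⧸ Subgroup.center Q :=
    { toFun := fun y => ψ (emb4 y.toAdd)
      map_one' := by
        show ψ (emb4 0) = 1
        rw [map_zero]
        exact (hψ.2.2.1 0).2 ⟨0, by simp⟩
      map_mul' := fun a b => by
        show ψ (emb4 (a.toAdd + b.toAdd)) = _
        rw [map_add, hψ.1] }
  have hφ : ∀ y : Multiplicative evenSum, φ y = ψ (emb4 y.toAdd) := fun _ => rfl
  let E : Subgroup Q := φ.range.comap (QuotientGroup.mk' (Subgroup.center Q))
  have hE : ∀ q : Q, q ∈ E ↔ ∃ y : evenSum, ψ (emb4 y) = QuotientGroup.mk q := by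
    intro q
    constructor
    · rintro ⟨y, hy⟩; exact ⟨y.toAdd, hy⟩
    · rintro ⟨y, hy⟩; exact ⟨Multiplicative.ofAdd y, hy⟩
  have hsq : ∀ q ∈ E, q * q = 1 := by
    intro q hq
    obtain ⟨y, hy⟩ := (hE q).1 hq
    have h1 := F.eq_zero y
    rw [mform_eq hX hy, qf_eq_zero] at h1
    exact Subtype.ext h1
  refine ⟨E, hE, ⟨?_, fun a ha => by rw [pow_two]; exact hsq a ha⟩, ?_⟩
  · refine ⟨⟨fun a b => ?_⟩⟩
    apply Subtype.ext
    have ha := hsq a a.2
    have hb := hsq b b.2
    have hab := hsq (a * b) (E.mul_mem a.2 b.2)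
    show (a : Q) * b = b * a
    have ha' : (a : Q)⁻¹ = a := inv_eq_of_mul_eq_one_left ha
    have hb' : (b : Q)⁻¹ = b := inv_eq_of_mul_eq_one_left hb
    calc (a : Q) * b = ((a : Q) * b)⁻¹ := (inv_eq_of_mul_eq_one_left hab).symm
      _ = (b : Q)⁻¹ * (a : Q)⁻¹ := mul_inv_rev _ _
      _ = b * a := by rw [ha', hb']
  · -- the order
    have hker : φ.ker = AddSubgroup.toSubgroup (Leech.halfEven.addSubgroupOf evenSum) := by
      ext y
      rw [MonoidHom.mem_ker, hφ, hψ.2.2.1]
      constructor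
      · rintro ⟨w, hw⟩
        show (y.toAdd : GolayPt → ℤ) ∈ Leech.halfEven
        have h1 : (4 : ℤ) • (y.toAdd : GolayPt → ℤ) = (w : GolayPt → ℤ) + w := by
          rw [← emb4_coe, hw]; rfl
        have h2 : (w : GolayPt → ℤ) = Leech.dbl (y.toAdd : GolayPt → ℤ) := by
          ext i
          have := congrFun h1 i
          simp only [Pi.smul_apply, smul_eq_mul, Pi.add_apply] at this
          show (w : GolayPt → ℤ) i = (2 : ℤ) • (y.toAdd : GolayPt → ℤ) i
          rw [smul_eq_mul]; omega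
        have h3 : (w : GolayPt → ℤ) ∈ Leech.evenSub := by
          rw [Leech.mem_evenSub_iff, Leech.isEven_iff w.2, h2]
          exact ⟨_, rfl⟩
        obtain ⟨x, hx, hxw⟩ := h3
        rw [h2] at hxw
        rw [← Leech.dbl_injective hxw]; exact hx
      · intro hy
        exact emb4_of_halfEven hy
    have h1 : φ.ker.index = 2 ^ 12 := by
      rw [hker]
      exact halfEven_relIndex_evenSum
    rw [Subgroup.index_ker] at h1
    have h2 : Nat.card E = Nat.card (Subgroup.center Q) * Nat.card φ.range := by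
      have h3 := Subgroup.card_mul_index ((Subgroup.center Q).subgroupOf E)
      have h4 : Subgroup.center Q ≤ E := by
        intro c hc
        rw [hE]
        refine ⟨0, ?_⟩
        rw [map_zero]
        have : (QuotientGroup.mk c : Q ⧸ Subgroup.center Q) = 1 := (QuotientGroup.eq_one_iff c).2 hc
        rw [this]
        exact (hψ.2.2.1 0).2 ⟨0, by simp⟩
      have h5 : Nat.card ((Subgroup.center Q).subgroupOf E) = Nat.card (Subgroup.center Q) :=
        Nat.card_congr (Subgroup.subgroupOfEquivOfLe h4).toEquiv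
      have h6 : ((Subgroup.center Q).subgroupOf E).index = Nat.card φ.range := by
        have h7 : E.map (QuotientGroup.mk' (Subgroup.center Q)) = φ.range :=
          Subgroup.map_comap_eq_self_of_surjective (QuotientGroup.mk'_surjective _) _
        have h8 : (Subgroup.center Q).subgroupOf E = ((QuotientGroup.mk' (Subgroup.center Q)).comp E.subtype).ker := by
          ext x
          rw [Subgroup.mem_subgroupOf, MonoidHom.mem_ker, MonoidHom.comp_apply, ← MonoidHom.mem_ker,
            QuotientGroup.ker_mk']; rfl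
        rw [h8, Subgroup.index_ker]
        have h9 : ((QuotientGroup.mk' (Subgroup.center Q)).comp E.subtype).range = φ.range := by
          rw [← h7]
          ext x
          constructor
          · rintro ⟨a, rfl⟩; exact ⟨a, a.2, rfl⟩
          · rintro ⟨a, ha, rfl⟩; exact ⟨⟨a, ha⟩, rfl⟩
        rw [h9]
      rw [h5, h6] at h3
      exact h3.symm
    rw [h2, h1, hX.card_center]; norm_num

end

end Cfsg.Agent.H90
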