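import Cfsg.Agent.H90.LeechFacts
import Cfsg.Agent.H90.MonsterForm
import Cfsg.Agent.H90.Setting

/-!
# Groups of Monster type: elementwise set-up (owner: helper90)
-/

set_option autoImplicit false

namespace Cfsg.Agent.H90

open Cfsg

/-- `Q` (a subgroup of `G`) with centre generated by `z`, a relation `R` between lattice vectors and elements of `Q`
(`x` modulo `z` is the image of `v`), and the map from the centralizer of `z` onto the first Conway group. -/
structure Mon {G : Type*} [Group G] (z : G) (Q : Subgroup G) (R : leechLattice → G → Prop)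
    (π : Subgroup.centralizer ({z} : Set G) →* Spor.Co1) : Prop extends PL Q z where
  card : Nat.card Q = 2 ^ 25
  r_mem : ∀ {v x}, R v x → x ∈ Q
  r_ex : ∀ x ∈ Q, ∃ v, R v x
  r_ex' : ∀ v, ∃ x, R v x
  r_mul : ∀ {v w x y}, R v x → R w y → R (v + w) (x * y)
  r_z : ∀ {v x}, R v x → R v (x * z)
  r_one : ∀ {v}, R v 1 ↔ ∃ w, v = w + w
  r_uniq : ∀ {v x y}, R v x → R v y → y = x ∨ y = x * z
  form : ∃ f β, InvForm f β ∧ (∀ v x, R v x → f v = qf x) ∧ (∀ v w x y, R v x → R w y → β v w = bf x y)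
  π_surj : Function.Surjective π
  π_ker : ∀ h : Subgroup.centralizer ({z} : Set G), π h = 1 ↔ (h : G) ∈ Q
  π_r : ∀ (h : Subgroup.centralizer ({z} : Set G)) (g : Co0), π h = QuotientGroup.mk g →
    ∀ {v x}, R v x → R ((g : Equiv.Perm leechLattice) v) (h * x * (h : G)⁻¹)

section construct

variable {G : Type*} [Group G] {z : G} (Q : Subgroup (Subgroup.centralizer ({z} : Set G)))

/-- the relation attached to `ψ` -/
def MR (ψ : leechLattice → Q ⧸ Subgroup.center Q) (v : leechLattice) (x : G) : Prop :=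
  ∃ (hx : x ∈ Subgroup.centralizer ({z} : Set G)) (hq : (⟨x, hx⟩ : Subgroup.centralizer ({z} : Set G)) ∈ Q),
    ψ v = QuotientGroup.mk ⟨⟨x, hx⟩, hq⟩

theorem MR_coe {ψ : leechLattice → Q ⧸ Subgroup.center Q} {v : leechLattice} (q : Q) :
    MR Q ψ v ((q : Subgroup.centralizer ({z} : Set G)) : G) ↔ ψ v = QuotientGroup.mk q := by
  constructor
  · rintro ⟨hx, hq, h⟩; exact h
  · intro h; exact ⟨q.1.2, q.2, h⟩

theorem qf_coe {H : Subgroup G} (x : H) : qf (x : G) = qf x := by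
  apply eq_of_zero_iff
  rw [qf_eq_zero, qf_eq_zero]
  constructor
  · intro h; exact Subtype.ext h
  · intro h; exact congrArg Subtype.val h

theorem bf_coe {H : Subgroup G} (x y : H) : bf (x : G) y = bf x y := by
  apply eq_of_zero_iff
  rw [bf_eq_zero, bf_eq_zero]
  constructor
  · intro h; exact Subtype.ext h
  · intro h; exact congrArg Subtype.val h

theorem mon_of_setting [Finite G] [hn : Q.Normal] (h : IsExtraspecialCentralizerSetting z Q 12)
    {e : (Subgroup.centralizer ({z} : Set G)) ⧸ Q ≃* Spor.Co1} {ψ : leechLattice → Q ⧸ Subgroup.center Q}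
    (hψ : IsLeechModTwoIso Q e ψ) :
    Mon z (Q.map (Subgroup.centralizer ({z} : Set G)).subtype) (MR Q ψ)
      (e.toMonoidHom.comp (QuotientGroup.mk' Q)) := by
  obtain ⟨hzC, hX⟩ := xs_of_setting h
  have hcard := card_of_setting h
  have hmemQ : ∀ x : G, x ∈ Q.map (Subgroup.centralizer ({z} : Set G)).subtype ↔
      ∃ q : Q, ((q : Subgroup.centralizer ({z} : Set G)) : G) = x := by
    intro x
    constructor
    · rintro ⟨q, hq, rfl⟩; exact ⟨⟨q, hq⟩, rfl⟩
    · rintro ⟨q, rfl⟩; exact ⟨q, q.2, rfl⟩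
  have hR : ∀ {v : leechLattice} {x : G}, MR Q ψ v x → ∃ q : Q,
      ((q : Subgroup.centralizer ({z} : Set G)) : G) = x ∧ ψ v = QuotientGroup.mk q := by
    rintro v x ⟨hx, hq, h⟩
    exact ⟨⟨⟨x, hx⟩, hq⟩, rfl, h⟩
  refine { toPL := pl_of_setting h, card := hcard, r_mem := ?_, r_ex := ?_, r_ex' := ?_, r_mul := ?_, r_z := ?_,
           r_one := ?_, r_uniq := ?_, form := ?_, π_surj := ?_, π_ker := ?_, π_r := ?_ }
  · intro v x hx
    obtain ⟨q, rfl, -⟩ := hR hx
    exact ⟨q, q.2, rfl⟩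
  · intro x hx
    obtain ⟨q, rfl⟩ := (hmemQ x).1 hx
    obtain ⟨v, hv⟩ := hψ.2.1 (QuotientGroup.mk q)
    exact ⟨v, (MR_coe Q q).2 hv⟩
  · intro v
    obtain ⟨q, hq⟩ := QuotientGroup.mk_surjective (ψ v)
    exact ⟨_, (MR_coe Q q).2 hq.symm⟩
  · intro v w x y hx hy
    obtain ⟨q, rfl, hq⟩ := hR hx
    obtain ⟨r, rfl, hr⟩ := hR hy
    have : ψ (v + w) = QuotientGroup.mk (q * r) := by rw [hψ.1, hq, hr]; rfl
    exact (MR_coe Q (q * r)).2 this
  · intro v x hx
    obtain ⟨q, rfl, hq⟩ := hR hx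
    have : ψ v = QuotientGroup.mk (q * ⟨⟨z, hzC⟩, hX.mem⟩) := by
      rw [hq, mk_eq_iff_center hX]
      exact ⟨_, Or.inr rfl, rfl⟩
    exact (MR_coe Q _).2 this
  · intro v
    rw [← hψ.2.2.1 v]
    constructor
    · intro h1
      obtain ⟨q, hq1, hq⟩ := hR h1
      have : q = 1 := Subtype.ext (Subtype.ext hq1)
      rw [hq, this]; rfl
    · intro h1
      exact (MR_coe Q 1).2 h1
  · intro v x y hx hy
    obtain ⟨q, rfl, hq⟩ := hR hx
    obtain ⟨r, rfl, hr⟩ := hR hy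
    rw [hq] at hr
    obtain ⟨c, hc, h1⟩ := (mk_eq_iff_center hX _ _).1 hr
    rcases hc with rfl | rfl
    · left; rw [h1, mul_one]
    · right; rw [h1]; rfl
  · refine ⟨mform ψ, mbil ψ, invForm_of_isLeechModTwoIso hX hψ, fun v x hx => ?_, fun v w x y hx hy => ?_⟩
    · obtain ⟨q, rfl, hq⟩ := hR hx
      rw [mform_eq hX hq]
      exact (qf_coe (q : Subgroup.centralizer ({z} : Set G))).symm
    · obtain ⟨q, rfl, hq⟩ := hR hx
      obtain ⟨r, rfl, hr⟩ := hR hy
      rw [mbil_eq hX hq hr]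
      exact (bf_coe (q : Subgroup.centralizer ({z} : Set G)) r).symm
  · exact e.surjective.comp (QuotientGroup.mk'_surjective Q)
  · intro h1
    have h2 : (e.toMonoidHom.comp (QuotientGroup.mk' Q)) h1 = e (QuotientGroup.mk h1) := rfl
    rw [h2, MulEquiv.map_eq_one_iff, QuotientGroup.eq_one_iff]
    constructor
    · intro h3; exact ⟨h1, h3, rfl⟩
    · rintro ⟨q, hq, h3⟩
      have : q = h1 := Subtype.ext h3
      rwa [← this]
  · intro h1 g hg v x hx
    obtain ⟨q, rfl, hq⟩ := hR hx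
    have h2 := hψ.2.2.2 h1 g hg.symm v q hq
    have h3 : (g • v : leechLattice) = (g : Equiv.Perm leechLattice) v := rfl
    rw [h3] at h2
    exact (MR_coe Q _).2 h2

end construct

namespace Mon

variable {G : Type*} [Group G] {z : G} {Q : Subgroup G} {R : leechLattice → G → Prop}
  {π : Subgroup.centralizer ({z} : Set G) →* Spor.Co1} (M : Mon z Q R π)
include M

theorem mem_cent {h : G} : h ∈ Subgroup.centralizer ({z} : Set G) ↔ h * z = z * h := by
  have _ := M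
  rw [Subgroup.mem_centralizer_singleton_iff]

theorem le_cent : Q ≤ Subgroup.centralizer ({z} : Set G) := fun q hq => M.mem_cent.2 (M.central q hq)

theorem r_zero_one : R 0 1 := M.r_one.2 ⟨0, by simp⟩

theorem r_zero_z : R 0 z := by simpa using M.r_z M.r_zero_one

theorem r_of_z {v : leechLattice} {x : G} (h : R v (x * z)) : R v x := by
  have := M.r_z h
  rwa [mul_assoc, M.sq, mul_one] at this

theorem r_zero {x : G} (h : R 0 x) : x = 1 ∨ x = z := by
  rcases M.r_uniq M.r_zero_one h with h1 | h1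
  · exact Or.inl h1
  · right; rw [h1, one_mul]

/-- congruent vectors have the same relation -/
theorem r_cg {v w : leechLattice} {x : G} (h : R v x) (hc : Cg v w) : R w x := by
  obtain ⟨u, hu⟩ := hc.symm
  have h1 : R (u + u) 1 := M.r_one.2 ⟨u, rfl⟩
  have h2 := M.r_mul h h1
  rw [mul_one, ← hu] at h2
  exact h2

theorem cg_of_r {v w : leechLattice} {x : G} (h : R v x) (h' : R w x) : Cg v w := by
  obtain ⟨y, hy⟩ := M.r_ex' (-w)
  have h1 := M.r_mul h' hy
  rw [add_neg_cancel] at h1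
  have h2 := M.r_mul h hy
  have h3 : R (v + -w) 1 := by
    rcases M.r_zero h1 with h4 | h4
    · rw [h4] at h2; exact h2
    · rw [h4] at h2
      have := M.r_z h2
      rwa [M.sq] at this
  obtain ⟨u, hu⟩ := M.r_one.1 h3
  exact ⟨u, by rw [← hu]; abel⟩

theorem r_z_iff {v : leechLattice} : R v z ↔ Cg v 0 := by
  constructor
  · intro h; exact M.cg_of_r h M.r_zero_z
  · intro h; exact M.r_cg M.r_zero_z h.symm

theorem exists_form : ∃ f β, InvForm f β ∧ (∀ v x, R v x → (f v = 0 ↔ x * x = 1)) ∧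
    (∀ v w x y, R v x → R w y → (β v w = 0 ↔ x * y = y * x)) ∧ ∃ v, f v ≠ 0 := by
  obtain ⟨f, β, F, h1, h2⟩ := M.form
  have h3 : ∀ v x, R v x → (f v = 0 ↔ x * x = 1) := fun v x hx => by rw [h1 v x hx, qf_eq_zero]
  have h4 : ∀ v w x y, R v x → R w y → (β v w = 0 ↔ x * y = y * x) :=
    fun v w x y hx hy => by rw [h2 v w x y hx hy, bf_eq_zero]
  refine ⟨f, β, F, h3, h4, ?_⟩
  by_contra hcon
  push Not at hcon
  -- then Q has exponent 2, hence is abelian, so equal to its centre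
  have hsq : ∀ x ∈ Q, x * x = 1 := by
    intro x hx
    obtain ⟨v, hv⟩ := M.r_ex x hx
    exact (h3 v x hv).1 (hcon v)
  have hab : ∀ x ∈ Q, ∀ y ∈ Q, x * y = y * x := by
    intro x hx y hy
    have e1 := hsq x hx
    have e2 := hsq y hy
    have e3 := hsq (x * y) (Q.mul_mem hx hy)
    have hx' : x⁻¹ = x := inv_eq_of_mul_eq_one_left e1
    have hy' : y⁻¹ = y := inv_eq_of_mul_eq_one_left e2
    calc x * y = (x * y)⁻¹ := (inv_eq_of_mul_eq_one_left e3).symm
      _ = y⁻¹ * x⁻¹ := mul_inv_rev _ _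
      _ = y * x := by rw [hx', hy']
  have h5 : (Q : Set G) ⊆ {1, z} := by
    intro x hx
    rcases M.nondeg x hx (hab x hx) with h | h
    · rw [h]; exact Set.mem_insert _ _
    · rw [h]; exact Set.mem_insert_of_mem _ rfl
  have h6 : Nat.card Q ≤ 2 := by
    have h7 := Set.ncard_le_ncard h5 (Set.toFinite _)
    have h8 := Set.ncard_pair (M.ne_one.symm)
    have h9 : Nat.card Q = (Q : Set G).ncard := rfl
    omega
  rw [M.card] at h6
  norm_num at h6

/-- squares in `Q` -/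
theorem sq_iff (L : LeechFacts) {v : leechLattice} {x : G} (h : R v x) :
    x * x = 1 ↔ (32 : ℤ) ∣ sqNorm (v : GolayPt → ℤ) := by
  obtain ⟨f, β, F, h1, -, hne⟩ := M.exists_form
  rw [← h1 v x h, F.eq_norm L hne]

/-- commuting in `Q` -/
theorem comm_iff (L : LeechFacts) {v w : leechLattice} {x y : G} (h : R v x) (h' : R w y) :
    x * y = y * x ↔ (16 : ℤ) ∣ dotInt (v : GolayPt → ℤ) w := by
  obtain ⟨f, β, F, -, h2, hne⟩ := M.exists_form
  rw [← h2 v w x y h h', F.bil_eq L hne]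

/-- Every automorphism is realised by an element of the centralizer. -/
theorem exists_lift (g : Equiv.Perm leechLattice) (hg : g ∈ Co0) :
    ∃ h : Subgroup.centralizer ({z} : Set G), π h = QuotientGroup.mk (⟨g, hg⟩ : Co0) := M.π_surj _

theorem exists_proj (h : Subgroup.centralizer ({z} : Set G)) :
    ∃ g : Co0, π h = QuotientGroup.mk g := by
  have _ := M
  obtain ⟨g, hg⟩ := QuotientGroup.mk_surjective (π h)
  exact ⟨g, hg.symm⟩

/-- an element acting trivially on `Q` modulo `z` is in `Q` -/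
theorem mem_of_r {h : Subgroup.centralizer ({z} : Set G)} {g : Co0} (hg : π h = QuotientGroup.mk g)
    (h1 : ∀ v, Cg ((g : Equiv.Perm leechLattice) v) v) : (h : G) ∈ Q := by
  rw [← M.π_ker, hg]
  rcases trivial_mod_two g.2 h1 with h2 | h2
  · have : g = 1 := Subtype.ext h2
    rw [this]; rfl
  · apply (QuotientGroup.eq_one_iff _).2
    rw [Subgroup.mem_center_iff]
    intro k
    apply Subtype.ext
    show (k : Equiv.Perm leechLattice) * g = g * k
    rw [h2]; exact (negCo_central k.2).symm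

/-- Some element of `Q` conjugates `s` to `s z` -/
theorem exists_conj_z {s : G} (hs : s ∈ Q) (h1 : s ≠ 1) (hz : s ≠ z) :
    ∃ q ∈ Q, q * s * q⁻¹ = s * z := M.exists_conj hs h1 hz

/-- Elements of `Q` with classes in one `Co0`-orbit are conjugate in the centralizer of `z`. -/
theorem conj_of_orbit {v w : leechLattice} {s t : G} (hs : R v s) (ht : R w t) (hs1 : s ≠ 1) (hsz : s ≠ z)
    {g : Equiv.Perm leechLattice} (hg : g ∈ Co0) (hgv : Cg (g v) w) :
    ∃ h ∈ Subgroup.centralizer ({z} : Set G), h * s * h⁻¹ = t := by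
  obtain ⟨h, hh⟩ := M.exists_lift g hg
  have h1 := M.r_cg (M.π_r h _ hh hs) hgv
  rcases M.r_uniq h1 ht with h2 | h2
  · exact ⟨h, h.2, h2.symm⟩
  · obtain ⟨q, hq, hqs⟩ := M.exists_conj_z (M.r_mem hs) hs1 hsz
    refine ⟨h * q, Subgroup.mul_mem _ h.2 (M.le_cent hq), ?_⟩
    have hhz : (h : G) * z * (h : G)⁻¹ = z := by
      rw [M.mem_cent.1 h.2]; group
    calc (h : G) * q * s * ((h : G) * q)⁻¹ = h * (q * s * q⁻¹) * (h : G)⁻¹ := by group
      _ = h * (s * z) * (h : G)⁻¹ := by rw [hqs]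
      _ = (h * s * (h : G)⁻¹) * (h * z * (h : G)⁻¹) := by group
      _ = t := by rw [hhz, h2]

/-- An automorphism fixing the class of `v` lifts to an element centralizing `z` and `s`. -/
theorem exists_lift_cent {v : leechLattice} {s : G} (hs : R v s) (hs1 : s ≠ 1) (hsz : s ≠ z)
    {g : Equiv.Perm leechLattice} (hg : g ∈ Co0) (hgv : Cg (g v) v) :
    ∃ h : Subgroup.centralizer ({z} : Set G), (h : G) * s = s * h ∧
      π h = QuotientGroup.mk (⟨g, hg⟩ : Co0) := by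
  obtain ⟨h, hh⟩ := M.exists_lift g hg
  have h1 := M.r_cg (M.π_r h _ hh hs) hgv
  rcases M.r_uniq h1 hs with h2 | h2
  · refine ⟨h, ?_, hh⟩
    exact (mul_inv_eq_iff_eq_mul.1 h2.symm)
  · obtain ⟨q, hq, hqs⟩ := M.exists_conj_z (M.r_mem hs) hs1 hsz
    have hhz : (h : G) * z * (h : G)⁻¹ = z := by
      rw [M.mem_cent.1 h.2]; group
    refine ⟨h * ⟨q, M.le_cent hq⟩, ?_, ?_⟩
    · show (h : G) * q * s = s * (h * q)
      have h3 : (h : G) * q * s * ((h : G) * q)⁻¹ = s := by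
        calc (h : G) * q * s * ((h : G) * q)⁻¹ = h * (q * s * q⁻¹) * (h : G)⁻¹ := by group
          _ = h * (s * z) * (h : G)⁻¹ := by rw [hqs]
          _ = (h * s * (h : G)⁻¹) * (h * z * (h : G)⁻¹) := by group
          _ = s := by rw [hhz]; exact h2.symm
      exact mul_inv_eq_iff_eq_mul.1 h3
    · rw [map_mul, (M.π_ker ⟨q, M.le_cent hq⟩).2 hq, mul_one, hh]

theorem cg_of_cent {v : leechLattice} {s : G} (hs : R v s) {h : Subgroup.centralizer ({z} : Set G)}
    (hc : (h : G) * s = s * h) {g : Co0} (hg : π h = QuotientGroup.mk g) :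
    Cg ((g : Equiv.Perm leechLattice) v) v := by
  have h1 := M.π_r h g hg hs
  rw [hc, mul_assoc, mul_inv_cancel, mul_one] at h1
  exact M.cg_of_r h1 hs

/-- change of the identification by an element of `Co0` -/
theorem twist {g₀ : Equiv.Perm leechLattice} (hg₀ : g₀ ∈ Co0) :
    Mon z Q (fun v x => R (g₀⁻¹ v) x)
      ((MulAut.conj (QuotientGroup.mk (⟨g₀, hg₀⟩ : Co0) : Spor.Co1)).toMonoidHom.comp π) where
  toPL := M.toPL
  card := M.card
  r_mem h := M.r_mem h
  r_ex x hx := by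
    obtain ⟨v, hv⟩ := M.r_ex x hx
    exact ⟨g₀ v, by simpa using hv⟩
  r_ex' v := M.r_ex' _
  r_mul {v w x y} hx hy := by
    show R (g₀⁻¹ (v + w)) (x * y)
    rw [(inv_mem hg₀ : g₀⁻¹ ∈ Co0).1]
    exact M.r_mul hx hy
  r_z h := M.r_z h
  r_one {v} := by
    show R (g₀⁻¹ v) 1 ↔ _
    rw [M.r_one]
    constructor
    · rintro ⟨w, hw⟩
      refine ⟨g₀ w, ?_⟩
      rw [← hg₀.1, ← hw]
      exact (g₀.apply_symm_apply v).symm
    · rintro ⟨w, rfl⟩
      exact ⟨g₀⁻¹ w, (inv_mem hg₀ : g₀⁻¹ ∈ Co0).1 w w⟩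
  r_uniq h h' := M.r_uniq h h'
  form := by
    obtain ⟨f, β, F, h1, h2⟩ := M.form
    refine ⟨fun v => f (g₀⁻¹ v), fun v w => β (g₀⁻¹ v) (g₀⁻¹ w), ?_, fun v x hx => h1 _ _ hx,
      fun v w x y hx hy => h2 _ _ _ _ hx hy⟩
    have hg' : g₀⁻¹ ∈ Co0 := inv_mem hg₀
    refine ⟨fun v w => ?_, fun u v w => ?_, fun v => ?_, fun g hg v => ?_⟩
    · show f (g₀⁻¹ (v + w)) = _
      rw [hg'.1]; exact F.add _ _
    · show β (g₀⁻¹ (u + v)) _ = _
      rw [hg'.1]; exact F.addl _ _ _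
    · show f (g₀⁻¹ (v + v)) = _
      rw [hg'.1]; exact F.dbl _
    · show f (g₀⁻¹ (g v)) = f (g₀⁻¹ v)
      rw [F.inv _ hg', F.inv _ hg', F.inv _ hg]
  π_surj := (MulAut.conj _).surjective.comp M.π_surj
  π_ker h := by
    have h1 : ((MulAut.conj (QuotientGroup.mk (⟨g₀, hg₀⟩ : Co0) : Spor.Co1)).toMonoidHom.comp π) h =
      (MulAut.conj (QuotientGroup.mk (⟨g₀, hg₀⟩ : Co0) : Spor.Co1)) (π h) := rfl
    rw [h1, MulEquiv.map_eq_one_iff, M.π_ker]
  π_r h g hg {v x} hx := by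
    have h1 : (QuotientGroup.mk (⟨g₀, hg₀⟩ : Co0) : Spor.Co1) * π h *
      (QuotientGroup.mk (⟨g₀, hg₀⟩ : Co0) : Spor.Co1)⁻¹ = QuotientGroup.mk g := hg
    have h2 : π h = QuotientGroup.mk ((⟨g₀, hg₀⟩ : Co0)⁻¹ * g * ⟨g₀, hg₀⟩) := by
      have : π h = (QuotientGroup.mk (⟨g₀, hg₀⟩ : Co0) : Spor.Co1)⁻¹ * QuotientGroup.mk g *
          QuotientGroup.mk (⟨g₀, hg₀⟩ : Co0) := by rw [← h1]; group
      rw [this]; rfl
    have h3 := M.π_r h _ h2 hx
    have h4 : (((⟨g₀, hg₀⟩ : Co0)⁻¹ * g * ⟨g₀, hg₀⟩ : Co0) : Equiv.Perm leechLattice) (g₀⁻¹ v) =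
        g₀⁻¹ ((g : Equiv.Perm leechLattice) v) := by
      show g₀⁻¹ ((g : Equiv.Perm leechLattice) (g₀ (g₀⁻¹ v))) = _
      rw [show g₀ (g₀⁻¹ v) = v from g₀.apply_symm_apply v]
    rw [h4] at h3
    exact h3

end Mon

end Cfsg.Agent.H90
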