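import Cfsg.Agent.H90.MonTen
import Cfsg.Agent.H90.LeechMore

/-!
# Groups of Monster type: fusion of `z` inside the centralizer of an involution of type 2 (owner: helper90)
-/

set_option autoImplicit false

namespace Cfsg.Agent.H90

open Cfsg

theorem dot_emb4 (y y' : evenSum) : (16 : ℤ) ∣ dotInt (emb4 y : GolayPt → ℤ) (emb4 y' : GolayPt → ℤ) := by
  unfold dotInt
  apply Finset.dvd_sum
  intro i _
  refine ⟨(y : GolayPt → ℤ) i * (y' : GolayPt → ℤ) i, ?_⟩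
  show ((4 : ℤ) • (y : GolayPt → ℤ) i) * ((4 : ℤ) • (y' : GolayPt → ℤ) i) = _
  simp only [smul_eq_mul]; ring

namespace Mon

variable {G : Type*} [Group G] [Finite G] {z s : G} {Q Q' : Subgroup G} {R : leechLattice → G → Prop}
  {π : Subgroup.centralizer ({z} : Set G) →* Spor.Co1} (M : Mon z Q R π)

/-- the elements with class `4 y` -/
def E0 (M : Mon z Q R π) : Subgroup G where
  carrier := {x | ∃ y : evenSum, R (emb4 y) x}
  one_mem' := ⟨0, by rw [map_zero]; exact M.r_zero_one⟩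
  mul_mem' := by
    rintro a b ⟨y, hy⟩ ⟨y', hy'⟩
    exact ⟨y + y', by rw [map_add]; exact M.r_mul hy hy'⟩
  inv_mem' := by
    rintro a ⟨y, hy⟩
    refine ⟨y, ?_⟩
    rcases M.sqr (M.r_mem hy) with h | h
    · rw [inv_eq_of_mul_eq_one_left h]; exact hy
    · have h1 : a⁻¹ = a * z := by
        rw [inv_eq_iff_mul_eq_one, ← mul_assoc, h, M.sq]
      rw [h1]; exact M.r_z hy

omit [Finite G] in
theorem mem_E0 {x : G} : x ∈ M.E0 ↔ ∃ y : evenSum, R (emb4 y) x := Iff.rfl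

include M

theorem card_E0_le (L : LeechFacts) : Nat.card M.E0 ≤ 2 ^ 13 := by
  have hle : M.E0 ≤ Q := by rintro x ⟨y, hy⟩; exact M.r_mem hy
  have hz : z ∈ M.E0 := ⟨0, by rw [map_zero]; exact M.r_zero_z⟩
  have h1 := M.dual M.E0 hle hz
  have h2 : Nat.card M.E0 ≤ Nat.card ↥(Q ⊓ Subgroup.centralizer (M.E0 : Set G)) := by
    have hle2 : M.E0 ≤ Q ⊓ Subgroup.centralizer (M.E0 : Set G) := by
      intro x hx
      refine ⟨hle hx, ?_⟩
      show x ∈ Subgroup.centralizer _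
      rw [Subgroup.mem_centralizer_iff]
      rintro a ⟨y, hy⟩
      obtain ⟨y', hy'⟩ := hx
      exact (M.comm_iff L hy hy').2 (dot_emb4 _ _)
    exact Nat.card_le_card_of_injective (Subgroup.inclusion hle2) (Subgroup.inclusion_injective _)
  rw [M.card] at h1
  have h3 : Nat.card M.E0 * Nat.card M.E0 ≤ 2 * 2 ^ 25 := by
    rw [← h1]; exact Nat.mul_le_mul_left _ h2
  by_contra hcon
  push Not at hcon
  have := (Nat.mul_le_mul hcon hcon).trans h3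
  norm_num at this

/-- In standard coordinates, `Q ∩ Q'` is the group of all elements with class `4 y`. -/
theorem inter_eq_E0 (L : LeechFacts) (hs : R (v8 none) s) (h' : PL Q' s) (hcard' : Nat.card Q' = 2 ^ 25)
    (hz : z ∈ Q') (hsz : s ≠ z) : Q ⊓ Q' = M.E0 := by
  obtain ⟨h1, h2, -⟩ := M.four_std L hs h' hcard' hz hsz
  apply Subgroup.eq_of_le_of_card_ge
  · intro w hw
    obtain ⟨v, hv⟩ := M.r_ex w hw.1
    have hsw : R (v + v8 none) (w * s) := M.r_mul hv hs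
    obtain ⟨y, hy⟩ := exists_emb4_of_flips v (fun c hc => by
      have h3 : (QuotientGroup.mk (flipHom (Multiplicative.ofAdd ⟨c, hc⟩)) : Spor.Co1) ∈ (theta Q' π).range := by
        rw [h2]; exact ⟨_, rfl⟩
      obtain ⟨k, hk⟩ := h3
      have h4 : π ⟨k, k.2.2⟩ = QuotientGroup.mk (flipHom (Multiplicative.ofAdd ⟨c, hc⟩)) := hk
      have h5 := M.π_r ⟨k, k.2.2⟩ _ h4 hv
      rcases h'.conj_eq hw.2 k.2.1 with h6 | h6
      · left
        rw [show ((⟨(k : G), k.2.2⟩ : Subgroup.centralizer ({z} : Set G)) : G) = k from rfl, h6] at h5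
        exact M.cg_of_r h5 hv
      · right
        rw [show ((⟨(k : G), k.2.2⟩ : Subgroup.centralizer ({z} : Set G)) : G) = k from rfl, h6] at h5
        exact M.cg_of_r h5 hsw)
    exact ⟨y, M.r_cg hv hy⟩
  · rw [h1]; exact M.card_E0_le L

omit [Finite G] in
theorem not_r_of_norm {v w : leechLattice} {x : G} (h : R v x) (h' : R w x)
    (hv : sqNorm (v : GolayPt → ℤ) = 32) (hw : sqNorm (w : GolayPt → ℤ) = 64) : False := by
  rcases (M.cg_of_r h h').eq_or_neg hv (by rw [hw]) with h1 | h1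
  · rw [h1, hw] at hv; norm_num at hv
  · rw [h1, AddSubgroup.coe_neg, Leech.sqNorm_neg, hw] at hv; norm_num at hv

omit [Finite G] in
theorem ne_of_r {v : leechLattice} {x : G} (h : R v x) (hv : sqNorm (v : GolayPt → ℤ) = 32) :
    x ≠ 1 ∧ x ≠ z := by
  have key : ¬ Cg v 0 := by
    intro h1
    have h0 : sqNorm ((0 : leechLattice) : GolayPt → ℤ) = 0 := (Leech.sqNorm_eq_zero_iff _).2 rfl
    rcases h1.eq_or_neg hv (by rw [h0]; norm_num) with h2 | h2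
    · rw [h2, h0] at hv; norm_num at hv
    · rw [h2, neg_zero, h0] at hv; norm_num at hv
  constructor
  · rintro rfl; exact key (M.cg_of_r h M.r_zero_one)
  · rintro rfl; exact key (M.cg_of_r h M.r_zero_z)

/-- For an involution `t` of `Q` not conjugate to `z`, some element centralizing `t` moves `z` inside `Q`. -/
theorem exists_swap (L : LeechFacts) (hconj : ∃ g : G, g * z * g⁻¹ ∈ Q ∧ g * z * g⁻¹ ≠ z) {t : G}
    (ht : t ∈ Q) (ht2 : t * t = 1) (ht1 : t ≠ 1) (htc : ¬ IsConj z t) :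
    ∃ k : G, k * t * k⁻¹ = t ∧ k * z * k⁻¹ ∈ Q ∧ k * z * k⁻¹ ≠ z := by
  obtain ⟨g, hgQ, hgz⟩ := hconj
  have hconj : ∃ g : G, g * z * g⁻¹ ∈ Q ∧ g * z * g⁻¹ ≠ z := ⟨g, hgQ, hgz⟩
  obtain ⟨h', hz⟩ := M.toPL.pair (by rw [M.card]; norm_num) rfl hgQ hgz
  have hcard' : Nat.card (Q.map (MulAut.conj g).toMonoidHom) = 2 ^ 25 := by rw [card_map_conj, M.card]
  obtain ⟨v, hv⟩ := M.r_ex _ hgQ
  obtain ⟨w, hw, hw64⟩ := M.type_four L hv h' hcard' hz hgz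
  obtain ⟨g₀, hg₀, hcg⟩ := L.t4 w (v8 none) hw64 (sqNorm_v8 _)
  have M' := M.twist hg₀
  have hs' := M.twist_four hw hg₀ hcg
  set R' : leechLattice → G → Prop := fun v x => R (g₀⁻¹ v) x with hR'
  have hs'' : R' (v8 none) (g * z * g⁻¹) := hs'
  have hE := M'.inter_eq_E0 L hs'' h' hcard' hz hgz
  obtain ⟨t₀, ht₀⟩ := M'.r_ex' (vp none (some 0))
  have hvp : sqNorm (vp none (some 0) : GolayPt → ℤ) = 32 := sqNorm_vp (by decide)
  have ht₀W : t₀ ∈ Q ⊓ Q.map (MulAut.conj g).toMonoidHom := by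
    rw [hE]; exact ⟨_, ht₀⟩
  obtain ⟨ht₀1, ht₀z⟩ := M'.ne_of_r ht₀ hvp
  have ht₀2 : t₀ * t₀ = 1 := inter_sq M.toPL h' hgz ht₀W.1 ht₀W.2
  have ht₀c : ¬ IsConj z t₀ := by
    intro hc
    obtain ⟨w', hw', hw'64⟩ := (M'.conj_iff L hconj ht₀W.1).1 ⟨hc, ht₀z⟩
    exact M'.not_r_of_norm ht₀ hw' hvp hw'64
  obtain ⟨h₀, hh₀, hh₀t⟩ := M.trans_nonconj L hconj ht₀W.1 ht ht₀2 ht₀1 ht2 ht1 ht₀c htc
  obtain ⟨q, hq, hqt⟩ := ht₀W.2
  have hqt' : g * q * g⁻¹ = t₀ := hqt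
  have hq2 : q * q = 1 := by
    calc q * q = g⁻¹ * ((g * q * g⁻¹) * (g * q * g⁻¹)) * g := by group
      _ = 1 := by rw [hqt', ht₀2]; group
  have hq1 : q ≠ 1 := by
    rintro rfl
    apply ht₀1
    rw [← hqt']; group
  have hqc : ¬ IsConj z q := by
    intro hc
    exact ht₀c (hc.trans (isConj_iff.2 ⟨g, hqt'⟩))
  obtain ⟨h₁, hh₁, hh₁t⟩ := M.trans_nonconj L hconj hq ht hq2 hq1 ht2 ht1 hqc htc
  have hh₀z := M.mem_cent.1 hh₀
  have hh₁z := M.mem_cent.1 hh₁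
  have hh₁z' : h₁⁻¹ * z * h₁ = z := by
    calc h₁⁻¹ * z * h₁ = h₁⁻¹ * (z * h₁) := by group
      _ = h₁⁻¹ * (h₁ * z) := by rw [hh₁z]
      _ = z := by group
  have hkz : (h₀ * g * h₁⁻¹) * z * (h₀ * g * h₁⁻¹)⁻¹ = h₀ * (g * z * g⁻¹) * h₀⁻¹ := by
    calc (h₀ * g * h₁⁻¹) * z * (h₀ * g * h₁⁻¹)⁻¹ = h₀ * g * (h₁⁻¹ * z * h₁) * g⁻¹ * h₀⁻¹ := by group
      _ = h₀ * (g * z * g⁻¹) * h₀⁻¹ := by rw [hh₁z']; group
  refine ⟨h₀ * g * h₁⁻¹, ?_, ?_, ?_⟩
  · have h2 : h₁⁻¹ * t * h₁ = q := by rw [← hh₁t]; group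
    calc (h₀ * g * h₁⁻¹) * t * (h₀ * g * h₁⁻¹)⁻¹ = h₀ * (g * (h₁⁻¹ * t * h₁) * g⁻¹) * h₀⁻¹ := by group
      _ = t := by rw [h2, hqt', hh₀t]
  · rw [hkz]; exact M.norm h₀ hh₀z _ hgQ
  · rw [hkz]
    intro h3
    apply hgz
    calc g * z * g⁻¹ = h₀⁻¹ * (h₀ * (g * z * g⁻¹) * h₀⁻¹) * h₀ := by group
      _ = h₀⁻¹ * (z * h₀) := by rw [h3]; group
      _ = h₀⁻¹ * (h₀ * z) := by rw [hh₀z]
      _ = z := by group

end Mon

end Cfsg.Agent.H90
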