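import Cfsg.Agent.H90.MonBabyA
import Cfsg.Agent.H90.FStarEq

/-!
# Groups of Monster type: the centralizer of an involution of type 2 is of Baby Monster type (owner: helper90)
-/

set_option autoImplicit false

namespace Cfsg.Agent.H90

open Cfsg

/-- the map from the stabilizer of `u` to the first Conway group -/
def jCo : Spor.Co2 →* Spor.Co1 :=
  (QuotientGroup.mk' (Subgroup.center Co0)).comp (Subgroup.inclusion inf_le_left)

theorem jCo_apply (g : Spor.Co2) : jCo g = QuotientGroup.mk (⟨g, g.2.1⟩ : Co0) := rfl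

theorem negCo_leechU : negCo Spor.leechU ≠ Spor.leechU := by
  intro h
  exact ne_neg_self (by rw [sqNorm_leechU]; norm_num) (Eq.symm h)

namespace Mon

variable {G : Type*} [Group G] [Finite G] {z t : G} {Q : Subgroup G} {R : leechLattice → G → Prop}
  {π : Subgroup.centralizer ({z} : Set G) →* Spor.Co1} (M : Mon z Q R π)
include M

omit [Finite G] in
theorem jCo_injective : Function.Injective jCo := by
  rw [injective_iff_map_eq_one]
  intro g hg
  rcases M.central_of_mk_one (g := ⟨g, g.2.1⟩) hg with h | h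
  · exact Subtype.ext h
  · exfalso
    have h1 : (g : Equiv.Perm leechLattice) Spor.leechU = Spor.leechU := g.2.2
    have h2 : (g : Equiv.Perm leechLattice) = negCo := h
    rw [h2] at h1
    exact negCo_leechU h1

omit [Finite G] in
/-- an element centralizing `z` and `t` maps into the stabilizer of `u` -/
theorem exists_co2 (hu : R Spor.leechU t) {k : Subgroup.centralizer ({z} : Set G)} (hk : (k : G) * t = t * k) :
    ∃ g : Spor.Co2, π k = jCo g := by
  obtain ⟨g, hg⟩ := M.exists_proj k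
  have h1 := M.cg_of_cent hu hk hg
  rcases h1.eq_or_neg (by rw [g.2.2]; exact sqNorm_leechU) (by rw [sqNorm_leechU]; norm_num) with h2 | h2
  · exact ⟨⟨g, g.2, h2⟩, hg⟩
  · have h3 : negCo * (g : Equiv.Perm leechLattice) ∈ Spor.Co2 := by
      refine ⟨mul_mem negCo_mem g.2, ?_⟩
      show -((g : Equiv.Perm leechLattice) Spor.leechU) = Spor.leechU
      rw [h2, neg_neg]
    refine ⟨⟨_, h3⟩, ?_⟩
    have h4 : (QuotientGroup.mk (⟨negCo, negCo_mem⟩ : Co0) : Spor.Co1) = 1 := mk_one_of_neg (Or.inr rfl)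
    have h5 : jCo ⟨_, h3⟩ = QuotientGroup.mk (⟨negCo, negCo_mem⟩ : Co0) * QuotientGroup.mk g := rfl
    rw [h5, h4, one_mul, hg]

/-- `C_Q(t)` contains two elements that do not commute -/
theorem exists_noncomm (htQ : t ∈ Q) (ht2 : t * t = 1) (ht1 : t ≠ 1) (htz : t ≠ z) :
    ∃ a b : G, a ∈ Q ∧ b ∈ Q ∧ a * t = t * a ∧ b * t = t * b ∧ a * b ≠ b * a := by
  by_contra hcon
  push Not at hcon
  have h1 := M.double htQ ht2 ht1 htz
  have h2 := M.card_centralizer htQ ht2 ht1 htz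
  have h3 := card_four_group M.sq ht2 M.ne_one ht1 htz (M.central t htQ)
  have hle : Q ⊓ Subgroup.centralizer ({t} : Set G) ≤
      Q ⊓ Subgroup.centralizer ((Q ⊓ Subgroup.centralizer ({t} : Set G) : Subgroup G) : Set G) := by
    intro x hx
    refine ⟨hx.1, ?_⟩
    show x ∈ Subgroup.centralizer _
    rw [Subgroup.mem_centralizer_iff]
    intro w hw
    exact hcon w x hw.1 hx.1 (Subgroup.mem_centralizer_singleton_iff.1 hw.2)
      (Subgroup.mem_centralizer_singleton_iff.1 hx.2)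
  rw [h1] at hle
  have h4 := Nat.card_le_card_of_injective (Subgroup.inclusion hle) (Subgroup.inclusion_injective _)
  rw [h3] at h4
  rw [M.card] at h2
  omega

set_option maxHeartbeats 2000000 in
theorem baby (L : LeechFacts) (hconj : ∃ g : G, g * z * g⁻¹ ∈ Q ∧ g * z * g⁻¹ ≠ z)
    (hu : R Spor.leechU t) (ht2 : t * t = 1) (htc : ¬ IsConj z t)
    [hT : ((Subgroup.zpowers t).subgroupOf (Subgroup.centralizer ({t} : Set G))).Normal] :
    IsOfBabyMonsterType (↥(Subgroup.centralizer ({t} : Set G)) ⧸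
      (Subgroup.zpowers t).subgroupOf (Subgroup.centralizer ({t} : Set G))) := by
  classical
  have htQ : t ∈ Q := M.r_mem hu
  obtain ⟨ht1, htz⟩ := M.ne_of_r hu sqNorm_leechU
  have hzt : z * t = t * z := (M.central t htQ).symm
  set H := Subgroup.centralizer ({t} : Set G) with hH
  set T := (Subgroup.zpowers t).subgroupOf H with hTdef
  have memH : ∀ {h : G}, h ∈ H ↔ h * t = t * h := fun {h} => Subgroup.mem_centralizer_singleton_iff
  have memC : ∀ {h : G}, h ∈ Subgroup.centralizer ({z} : Set G) ↔ h * z = z * h :=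
    fun {h} => Subgroup.mem_centralizer_singleton_iff
  have hzH : z ∈ H := memH.2 hzt
  have htH : t ∈ H := memH.2 rfl
  have hzp : ∀ x : G, x ∈ Subgroup.zpowers t ↔ x = 1 ∨ x = t := by
    intro x
    constructor
    · rintro ⟨n, rfl⟩
      rcases Int.even_or_odd' n with ⟨m, hm | hm⟩
      · left
        show t ^ n = 1
        rw [hm, zpow_mul, zpow_ofNat, pow_two, ht2, one_zpow]
      · right
        show t ^ n = t
        rw [hm, zpow_add, zpow_mul, zpow_ofNat, pow_two, ht2, one_zpow, one_mul, zpow_one]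
    · rintro (rfl | rfl)
      · exact Subgroup.one_mem _
      · exact Subgroup.mem_zpowers _
  let p : H →* H ⧸ T := QuotientGroup.mk' T
  have hps : Function.Surjective p := QuotientGroup.mk'_surjective T
  have hp1 : ∀ h : H, p h = 1 ↔ (h : G) = 1 ∨ (h : G) = t := by
    intro h
    show QuotientGroup.mk h = (1 : H ⧸ T) ↔ _
    rw [QuotientGroup.eq_one_iff, hTdef, Subgroup.mem_subgroupOf, hzp]
  let y : H ⧸ T := p ⟨z, hzH⟩
  have memD : ∀ d : H ⧸ T, d ∈ Subgroup.centralizer ({y} : Set (H ⧸ T)) ↔ d * y = y * d :=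
    fun d => Subgroup.mem_centralizer_singleton_iff
  -- `z t` is not conjugate to `z`
  have hztc : ¬ IsConj z (t * z) := by
    intro hc
    obtain ⟨q, hq, hqt⟩ := M.exists_conj_z htQ ht1 htz
    exact htc (hc.trans (isConj_iff.2 ⟨q, hqt⟩).symm)
  let K : Subgroup G := Subgroup.centralizer ({z} : Set G) ⊓ H
  have hKz : ∀ k : K, (k : G) * z = z * k := fun k => memC.1 k.2.1
  have hKt : ∀ k : K, (k : G) * t = t * k := fun k => memH.1 k.2.2
  have hpK : ∀ k : K, p ⟨k, k.2.2⟩ ∈ Subgroup.centralizer ({y} : Set (H ⧸ T)) := by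
    intro k
    rw [memD]
    show p _ * p _ = p _ * p _
    rw [← map_mul, ← map_mul]
    congr 1
    exact Subtype.ext (hKz k)
  let Φ : K →* Subgroup.centralizer ({y} : Set (H ⧸ T)) :=
    { toFun := fun k => ⟨p ⟨k, k.2.2⟩, hpK k⟩
      map_one' := by
        apply Subtype.ext
        exact map_one p
      map_mul' := fun a b => by
        apply Subtype.ext
        exact map_mul p ⟨a, a.2.2⟩ ⟨b, b.2.2⟩ }
  have hΦ : ∀ k : K, ((Φ k : Subgroup.centralizer ({y} : Set (H ⧸ T))) : H ⧸ T) = p ⟨k, k.2.2⟩ := fun _ => rfl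
  have hΦ1 : ∀ k : K, Φ k = 1 ↔ (k : G) = 1 ∨ (k : G) = t := by
    intro k
    rw [← hp1 ⟨k, k.2.2⟩, ← hΦ]
    exact ⟨fun h => by rw [h]; rfl, fun h => Subtype.ext h⟩
  have hΦs : Function.Surjective Φ := by
    rintro ⟨d, hd⟩
    obtain ⟨h, rfl⟩ := hps d
    have h1 := (memD _).1 hd
    have h2 : p (h * ⟨z, hzH⟩ * h⁻¹ * (⟨z, hzH⟩ : H)⁻¹) = 1 := by
      rw [map_mul, map_mul, map_mul, map_inv, map_inv]
      show p h * y * (p h)⁻¹ * y⁻¹ = 1
      rw [h1]; group
    rw [hp1] at h2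
    have h3 : (h : G) * z = z * h := by
      rcases h2 with h2 | h2
      · have h4 : (h : G) * z * (h : G)⁻¹ * z⁻¹ = 1 := h2
        calc (h : G) * z = ((h : G) * z * (h : G)⁻¹ * z⁻¹) * z * h := by group
          _ = z * h := by rw [h4, one_mul]
      · exfalso
        have h4 : (h : G) * z * (h : G)⁻¹ * z⁻¹ = t := h2
        apply hztc
        refine isConj_iff.2 ⟨h, ?_⟩
        rw [← h4]; group
    exact ⟨⟨h, memC.2 h3, h.2⟩, Subtype.ext rfl⟩
  -- the map to the stabilizer of u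
  let πK : K →* Spor.Co1 := π.comp (Subgroup.inclusion inf_le_left)
  have hπK : ∀ k : K, πK k = π ⟨k, k.2.1⟩ := fun _ => rfl
  have hj := M.jCo_injective
  have hrange : ∀ k : K, πK k ∈ jCo.range := by
    intro k
    obtain ⟨g, hg⟩ := M.exists_co2 hu (k := ⟨k, k.2.1⟩) (hKt k)
    exact ⟨g, hg.symm⟩
  let lam : K →* Spor.Co2 := (MonoidHom.ofInjective hj).symm.toMonoidHom.comp (πK.codRestrict jCo.range hrange)
  have hlam : ∀ k : K, jCo (lam k) = π ⟨k, k.2.1⟩ := by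
    intro k
    have h1 := MonoidHom.apply_ofInjective_symm hj (πK.codRestrict jCo.range hrange k)
    exact h1
  have hlamr : ∀ k : K, π ⟨k, k.2.1⟩ = QuotientGroup.mk (⟨lam k, (lam k).2.1⟩ : Co0) := fun k => (hlam k).symm
  have hlam1 : ∀ k : K, lam k = 1 ↔ (k : G) ∈ Q := by
    intro k
    rw [← M.π_ker ⟨k, k.2.1⟩, ← hlam k]
    exact ⟨fun h => by rw [h, map_one], fun h => hj (by rw [h, map_one])⟩
  have hlams : Function.Surjective lam := by
    intro g
    obtain ⟨h, hht, hh⟩ := M.exists_lift_cent hu ht1 htz g.2.1 (by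
      have h1 : (g : Equiv.Perm leechLattice) Spor.leechU = Spor.leechU := g.2.2
      rw [h1]; exact Cg.refl _)
    refine ⟨⟨h, h.2, memH.2 hht⟩, ?_⟩
    apply hj
    rw [hlam]
    exact hh
  have hker : Φ.ker ≤ lam.ker := by
    intro k hk
    rw [MonoidHom.mem_ker] at hk ⊢
    rw [hlam1]
    rcases (hΦ1 k).1 hk with h | h
    · rw [h]; exact Q.one_mem
    · rw [h]; exact htQ
  let lb : Subgroup.centralizer ({y} : Set (H ⧸ T)) →* Spor.Co2 := Φ.liftOfSurjective hΦs ⟨lam, hker⟩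
  have hlb : ∀ k : K, lb (Φ k) = lam k := fun k =>
    MonoidHom.liftOfRightInverse_comp_apply _ _ _ ⟨lam, hker⟩ k
  have hlbs : Function.Surjective lb := by
    intro g
    obtain ⟨k, hk⟩ := hlams g
    exact ⟨Φ k, by rw [hlb, hk]⟩
  let RR : Subgroup (Subgroup.centralizer ({y} : Set (H ⧸ T))) := lb.ker
  have hRRn : RR.Normal := MonoidHom.normal_ker lb
  have hRR : ∀ d, d ∈ RR ↔ ∃ k : K, (k : G) ∈ Q ∧ Φ k = d := by
    intro d
    obtain ⟨k, rfl⟩ := hΦs d
    have h1 : Φ k ∈ RR ↔ lb (Φ k) = 1 := MonoidHom.mem_ker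
    rw [h1, hlb, hlam1]
    constructor
    · intro h; exact ⟨k, h, rfl⟩
    · rintro ⟨k', hk', h⟩
      have h2 : Φ (k'⁻¹ * k) = 1 := by rw [map_mul, map_inv, h, inv_mul_cancel]
      have h3 : ((k'⁻¹ * k : K) : G) ∈ Q := by
        rcases (hΦ1 _).1 h2 with h4 | h4
        · rw [h4]; exact Q.one_mem
        · rw [h4]; exact htQ
      have h5 : (k : G) = k' * ((k'⁻¹ * k : K) : G) := by
        show (k : G) = k' * ((k' : G)⁻¹ * k); group
      rw [h5]; exact Q.mul_mem hk' h3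
  have hmemK : ∀ {a : G}, a ∈ Q → a * t = t * a → a ∈ K := fun {a} ha hat => ⟨memC.2 (M.central a ha), memH.2 hat⟩
  -- the central involution
  let zK : K := ⟨z, memC.2 rfl, hzH⟩
  let ζ : Subgroup.centralizer ({y} : Set (H ⧸ T)) := Φ zK
  have hζy : (ζ : H ⧸ T) = y := rfl
  have hζc : ∀ d : Subgroup.centralizer ({y} : Set (H ⧸ T)), d * ζ = ζ * d := by
    intro d
    apply Subtype.ext
    exact (memD d).1 d.2
  have hXS : XS RR ζ := by
    refine ⟨(hRR ζ).2 ⟨zK, M.mem, rfl⟩, ?_, ?_, fun q _ => hζc q, ?_, ?_⟩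
    · intro h
      rcases (hΦ1 zK).1 h with h1 | h1
      · exact M.ne_one h1
      · exact htz h1.symm
    · rw [← map_mul]
      apply (hΦ1 _).2
      left; exact M.sq
    · intro d hd d' hd'
      obtain ⟨a, ha, rfl⟩ := (hRR d).1 hd
      obtain ⟨b, hb, rfl⟩ := (hRR d').1 hd'
      rcases M.comm a ha b hb with h | h
      · left; rw [← map_mul, ← map_mul]; congr 1; exact Subtype.ext h
      · right
        show Φ a * Φ b = Φ zK * (Φ b * Φ a)
        rw [← map_mul, ← map_mul, ← map_mul]; congr 1; exact Subtype.ext h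
    · intro d hd hdc
      obtain ⟨a, ha, rfl⟩ := (hRR d).1 hd
      have h1 : (a : G) ∈ Q ⊓ Subgroup.centralizer
          ((Q ⊓ Subgroup.centralizer ({t} : Set G) : Subgroup G) : Set G) := by
        refine ⟨ha, ?_⟩
        show (a : G) ∈ Subgroup.centralizer _
        rw [Subgroup.mem_centralizer_iff]
        intro b hb
        have hbt : b * t = t * b := Subgroup.mem_centralizer_singleton_iff.1 hb.2
        have h2 := hdc (Φ ⟨b, hmemK hb.1 hbt⟩) ((hRR _).2 ⟨_, hb.1, rfl⟩)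
        rw [← map_mul, ← map_mul] at h2
        have h3 : Φ ((⟨b, hmemK hb.1 hbt⟩ * a)⁻¹ * (a * ⟨b, hmemK hb.1 hbt⟩)) = 1 := by
          rw [map_mul, map_inv, h2, inv_mul_cancel]
        have h4 : (b * (a : G))⁻¹ * ((a : G) * b) = 1 ∨ (b * (a : G))⁻¹ * ((a : G) * b) = t := (hΦ1 _).1 h3
        rcases h4 with h4 | h4
        · exact inv_mul_eq_one.1 h4
        · exfalso
          rcases M.comm a ha b hb.1 with h5 | h5
          · rw [h5, inv_mul_cancel] at h4; exact ht1 h4.symm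
          · have h6 : (b * (a : G))⁻¹ * ((a : G) * b) = z := by
              rw [h5, ← M.central _ (Q.mul_mem hb.1 ha)]; group
            rw [h6] at h4; exact htz h4.symm
      rw [M.double htQ ht2 ht1 htz,
        card_sup_zpowers_of_involutions M.sq ht2 M.ne_one ht1 htz (M.central t htQ)] at h1
      rcases h1 with h1 | h1 | h1 | h1
      · left; exact (hΦ1 a).2 (Or.inl h1)
      · right; show Φ a = Φ zK; congr 1; exact Subtype.ext h1
      · left; exact (hΦ1 a).2 (Or.inr h1)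
      · right
        have h2 : a = zK * ⟨t, memC.2 hzt.symm, htH⟩ := Subtype.ext h1
        rw [h2, map_mul, (hΦ1 ⟨t, memC.2 hzt.symm, htH⟩).2 (Or.inr rfl), mul_one]
  have hExt : IsExtraspecial 2 RR := by
    obtain ⟨a, b, ha, hb, hat, hbt, hab⟩ := M.exists_noncomm htQ ht2 ht1 htz
    apply hXS.isExtraspecial (a := Φ ⟨a, hmemK ha hat⟩) (b := Φ ⟨b, hmemK hb hbt⟩) ((hRR _).2 ⟨_, ha, rfl⟩)
      ((hRR _).2 ⟨_, hb, rfl⟩)
    intro h2
    rw [← map_mul, ← map_mul] at h2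
    have h3 : Φ ((⟨b, hmemK hb hbt⟩ * ⟨a, hmemK ha hat⟩)⁻¹ * (⟨a, hmemK ha hat⟩ * ⟨b, hmemK hb hbt⟩)) = 1 := by
      rw [map_mul, map_inv, h2, inv_mul_cancel]
    have h4 : (b * a)⁻¹ * (a * b) = 1 ∨ (b * a)⁻¹ * (a * b) = t := (hΦ1 _).1 h3
    rcases h4 with h4 | h4
    · exact hab (inv_mul_eq_one.1 h4).symm
    · rcases M.comm a ha b hb with h5 | h5
      · exact hab h5
      · have h6 : (b * a)⁻¹ * (a * b) = z := by
          rw [h5, ← M.central _ (Q.mul_mem hb ha)]; group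
        rw [h6] at h4; exact htz h4.symm
  have hcardRR : Nat.card RR = 2 ^ 23 := by
    -- the map from `C_Q(t)` onto `RR`
    let f : ↥(Q ⊓ H) →* RR :=
      { toFun := fun a => ⟨Φ ⟨a, hmemK a.2.1 (memH.1 a.2.2)⟩, (hRR _).2 ⟨_, a.2.1, rfl⟩⟩
        map_one' := by
          apply Subtype.ext
          exact (hΦ1 _).2 (Or.inl rfl)
        map_mul' := fun a b => by
          apply Subtype.ext
          exact map_mul Φ ⟨a, hmemK a.2.1 (memH.1 a.2.2)⟩ ⟨b, hmemK b.2.1 (memH.1 b.2.2)⟩ }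
    have hfs : Function.Surjective f := by
      rintro ⟨d, hd⟩
      obtain ⟨k, hk, rfl⟩ := (hRR d).1 hd
      exact ⟨⟨k, hk, k.2.2⟩, Subtype.ext rfl⟩
    have h1 := f.ker.card_mul_index
    rw [Subgroup.index_ker, MonoidHom.range_eq_top.2 hfs, Subgroup.card_top] at h1
    have h2 : Nat.card f.ker = 2 := by
      have h3 : f.ker = (Subgroup.zpowers t).subgroupOf (Q ⊓ H) := by
        ext a
        rw [MonoidHom.mem_ker, Subgroup.mem_subgroupOf, hzp]
        constructor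
        · intro h4
          exact (hΦ1 _).1 (congrArg Subtype.val h4)
        · intro h4
          apply Subtype.ext
          exact (hΦ1 _).2 h4
      rw [h3, Nat.card_congr (Subgroup.subgroupOfEquivOfLe _).toEquiv, Nat.card_zpowers]
      · rw [orderOf_eq_prime_iff]
        exact ⟨by rw [pow_two]; exact ht2, ht1⟩
      · rw [Subgroup.zpowers_le]
        exact ⟨htQ, htH⟩
    have h4 := M.card_centralizer htQ ht2 ht1 htz
    rw [M.card] at h4
    rw [h2] at h1
    have h5 : Nat.card ↥(Q ⊓ H) = Nat.card ↥(Q ⊓ Subgroup.centralizer ({t} : Set G)) := rfl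
    rw [← h5] at h4
    have h6 : (2 : ℕ) ^ 25 = 2 * (2 * 2 ^ 23) := by norm_num
    omega
  -- elements centralizing RR
  have hcentR : Subgroup.centralizer (RR : Set (Subgroup.centralizer ({y} : Set (H ⧸ T)))) ≤ RR := by
    intro d hd
    obtain ⟨k, rfl⟩ := hΦs d
    rw [Subgroup.mem_centralizer_iff] at hd
    have h1 : lam k = 1 := by
      apply Subtype.ext
      apply co2_faithful L (lam k).2
      intro x hx
      obtain ⟨a, ha⟩ := M.r_ex' x
      have haQ := M.r_mem ha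
      have hat : a * t = t * a := (M.comm_iff L ha hu).2 hx
      have h2 := hd (Φ ⟨a, hmemK haQ hat⟩) ((hRR _).2 ⟨_, haQ, rfl⟩)
      rw [← map_mul, ← map_mul] at h2
      have h3 : Φ (⟨a, hmemK haQ hat⟩⁻¹ * (k * ⟨a, hmemK haQ hat⟩ * k⁻¹)) = 1 := by
        have h4 : Φ (k * ⟨a, hmemK haQ hat⟩) = Φ (⟨a, hmemK haQ hat⟩ * k) := h2.symm
        rw [map_mul, map_inv, map_mul _ (k * _) k⁻¹, h4, map_mul, map_inv]; group
      have h5 : (a : G)⁻¹ * ((k : G) * a * (k : G)⁻¹) = 1 ∨ (a : G)⁻¹ * ((k : G) * a * (k : G)⁻¹) = t := (hΦ1 _).1 h3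
      have h6 := M.π_r ⟨k, k.2.1⟩ _ (hlamr k) ha
      rcases h5 with h5 | h5
      · left
        have h7 : (k : G) * a * (k : G)⁻¹ = a := (inv_mul_eq_one.1 h5).symm
        have h8 : ((⟨(k : G), k.2.1⟩ : Subgroup.centralizer ({z} : Set G)) : G) * a *
          ((⟨(k : G), k.2.1⟩ : Subgroup.centralizer ({z} : Set G)) : G)⁻¹ = a := h7
        rw [h8] at h6
        exact M.cg_of_r h6 ha
      · right
        have h7 : (k : G) * a * (k : G)⁻¹ = a * t := inv_mul_eq_iff_eq_mul.1 h5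
        have h8 : ((⟨(k : G), k.2.1⟩ : Subgroup.centralizer ({z} : Set G)) : G) * a *
          ((⟨(k : G), k.2.1⟩ : Subgroup.centralizer ({z} : Set G)) : G)⁻¹ = a * t := h7
        rw [h8] at h6
        exact M.cg_of_r h6 (M.r_mul ha hu)
    exact (hRR _).2 ⟨k, (hlam1 k).1 h1, rfl⟩
  have hF : generalizedFittingSubgroup (Subgroup.centralizer ({y} : Set (H ⧸ T))) = RR := by
    have h2p : Fact (Nat.Prime 2) := ⟨Nat.prime_two⟩
    apply generalizedFitting_eq_of (p := 2) RR hRRn hXS.isPGroup hcentR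
    intro N hN hNp hle n hn
    -- the image of N in Co2
    let N' : Subgroup (Equiv.Perm leechLattice) := (N.map lb).map Spor.Co2.subtype
    have h1 : ∀ g ∈ N', g = 1 := by
      apply L.co2
      · exact Subgroup.map_subtype_le _
      · rintro g hg _ ⟨_, ⟨n, hn, rfl⟩, rfl⟩
        obtain ⟨d, hd⟩ := hlbs ⟨g, hg⟩
        refine ⟨_, ⟨d * n * d⁻¹, hN.conj_mem n hn d, rfl⟩, ?_⟩
        have h9 : lb (d * n * d⁻¹) = ⟨g, hg⟩ * lb n * (⟨g, hg⟩ : Spor.Co2)⁻¹ := by
          rw [map_mul, map_mul, map_inv, hd]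
        exact congrArg Subtype.val h9
      · rintro _ ⟨_, ⟨n, hn, rfl⟩, rfl⟩
        obtain ⟨k, hk⟩ := hNp ⟨n, hn⟩
        refine ⟨k, ?_⟩
        have h2 : n ^ (2 ^ k) = 1 := congrArg Subtype.val hk
        rw [← map_pow, ← map_pow, h2, map_one, map_one]
    have h2 := h1 _ ⟨_, ⟨n, hn, rfl⟩, rfl⟩
    exact Subtype.ext h2
  -- not weakly closed
  have hwc : ∃ g : H ⧸ T, (∃ hq : g * y * g⁻¹ ∈ Subgroup.centralizer ({y} : Set (H ⧸ T)),
      (⟨g * y * g⁻¹, hq⟩ : Subgroup.centralizer ({y} : Set (H ⧸ T))) ∈ RR) ∧ g * y * g⁻¹ ≠ y := by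
    obtain ⟨k, hkt, hkQ, hkz⟩ := M.exists_swap L hconj htQ ht2 ht1 htc
    have hkH : k ∈ H := memH.2 (mul_inv_eq_iff_eq_mul.1 hkt)
    have hst : (k * z * k⁻¹) * t = t * (k * z * k⁻¹) := by
      have h1 : k⁻¹ * t * k = t := by
        calc k⁻¹ * t * k = k⁻¹ * (k * t * k⁻¹) * k := by rw [hkt]
          _ = t := by group
      calc (k * z * k⁻¹) * t = k * (z * (k⁻¹ * t * k)) * k⁻¹ := by group
        _ = k * (z * t) * k⁻¹ := by rw [h1]
        _ = k * (t * z) * k⁻¹ := by rw [hzt]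
        _ = (k * t * k⁻¹) * (k * z * k⁻¹) := by group
        _ = t * (k * z * k⁻¹) := by rw [hkt]
    have e1 : p ⟨k, hkH⟩ * y * (p ⟨k, hkH⟩)⁻¹ = ((Φ ⟨k * z * k⁻¹, hmemK hkQ hst⟩ :
        Subgroup.centralizer ({y} : Set (H ⧸ T))) : H ⧸ T) := by
      show p _ * p _ * (p _)⁻¹ = p _
      rw [← map_inv, ← map_mul, ← map_mul]; rfl
    refine ⟨p ⟨k, hkH⟩, ⟨?_, ?_⟩, ?_⟩
    · rw [e1]; exact (Φ _).2
    · rw [hRR]
      exact ⟨⟨k * z * k⁻¹, hmemK hkQ hst⟩, hkQ, Subtype.ext e1.symm⟩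
    · intro h1
      rw [e1] at h1
      have h2 : Φ (⟨k * z * k⁻¹, hmemK hkQ hst⟩ * zK⁻¹) = 1 := by
        apply Subtype.ext
        rw [map_mul, map_inv]
        show (Φ _ : H ⧸ T) * (y : H ⧸ T)⁻¹ = 1
        rw [h1, mul_inv_cancel]
      have h3 : (k * z * k⁻¹) * z⁻¹ = 1 ∨ (k * z * k⁻¹) * z⁻¹ = t := (hΦ1 _).1 h2
      rcases h3 with h3 | h3
      · exact hkz (mul_inv_eq_one.1 h3)
      · apply hztc
        refine isConj_iff.2 ⟨k, ?_⟩
        rw [← h3]; group
  have hy2 : orderOf y = 2 := by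
    rw [orderOf_eq_prime_iff]
    refine ⟨?_, ?_⟩
    · rw [pow_two]
      exact congrArg Subtype.val hXS.sq
    · intro h
      exact hXS.ne_one (Subtype.ext h)
  -- the module map
  let tr : ∀ a : G, a ∈ Q → a * t = t * a → RR := fun a ha hat =>
    ⟨Φ ⟨a, hmemK ha hat⟩, (hRR _).2 ⟨_, ha, rfl⟩⟩
  have hcomm : ∀ (x : leechPerpU) (a : G), R (x : leechLattice) a → a * t = t * a :=
    fun x a ha => (M.comm_iff L ha hu).2 x.2
  let ψ' : leechPerpU → RR ⧸ Subgroup.center RR := fun x =>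
    QuotientGroup.mk (tr (Classical.choose (M.r_ex' (x : leechLattice)))
      (M.r_mem (Classical.choose_spec (M.r_ex' (x : leechLattice))))
      (hcomm x _ (Classical.choose_spec (M.r_ex' (x : leechLattice)))))
  have hψ' : ∀ (x : leechPerpU) (a : G) (ha : R (x : leechLattice) a),
      ψ' x = QuotientGroup.mk (tr a (M.r_mem ha) (hcomm x a ha)) := by
    intro x a ha
    have h0 := Classical.choose_spec (M.r_ex' (x : leechLattice))
    rw [mk_eq_iff_center hXS]
    rcases M.r_uniq h0 ha with h1 | h1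
    · refine ⟨1, Or.inl rfl, ?_⟩
      rw [mul_one]
      show Φ _ = Φ _
      congr 1
      exact Subtype.ext h1
    · refine ⟨ζ, Or.inr rfl, ?_⟩
      show Φ _ = Φ _ * Φ zK
      rw [← map_mul]
      congr 1
      exact Subtype.ext h1
  refine ⟨y, RR, hRRn, ⟨hy2, hF, hExt, by rw [hcardRR], hwc⟩, QuotientGroup.quotientKerEquivOfSurjective lb hlbs,
    ψ', ?_, ?_, ?_, ?_⟩
  · -- additive
    intro x x'
    obtain ⟨a, ha⟩ := M.r_ex' (x : leechLattice)
    obtain ⟨b, hb⟩ := M.r_ex' (x' : leechLattice)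
    rw [hψ' x a ha, hψ' x' b hb, hψ' (x + x') (a * b) (M.r_mul ha hb)]
    rfl
  · -- surjective
    intro c
    obtain ⟨⟨d, hd⟩, rfl⟩ := QuotientGroup.mk_surjective c
    obtain ⟨k, hk, rfl⟩ := (hRR d).1 hd
    obtain ⟨v, hv⟩ := M.r_ex (k : G) hk
    have hv16 : (16 : ℤ) ∣ dotInt (v : GolayPt → ℤ) (Spor.leechU : GolayPt → ℤ) := (M.comm_iff L hv hu).1 (hKt k)
    exact ⟨⟨v, hv16⟩, hψ' ⟨v, hv16⟩ k hv⟩
  · -- kernel
    intro x
    obtain ⟨a, ha⟩ := M.r_ex' (x : leechLattice)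
    have h1 : ψ' x = 1 ↔ (a = 1 ∨ a = z ∨ a = t ∨ a = t * z) := by
      rw [hψ' x a ha]
      have h2 : (QuotientGroup.mk (tr a (M.r_mem ha) (hcomm x a ha)) : RR ⧸ Subgroup.center RR) = 1 ↔
          (Φ ⟨a, hmemK (M.r_mem ha) (hcomm x a ha)⟩ = 1 ∨ Φ ⟨a, hmemK (M.r_mem ha) (hcomm x a ha)⟩ = Φ zK) := by
        rw [QuotientGroup.eq_one_iff, hXS.mem_center_iff]
      rw [h2, hΦ1]
      have h3 : Φ ⟨a, hmemK (M.r_mem ha) (hcomm x a ha)⟩ = Φ zK ↔ a = z ∨ a = t * z := by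
        have h4 : Φ ⟨a, hmemK (M.r_mem ha) (hcomm x a ha)⟩ = Φ zK ↔
            Φ (⟨a, hmemK (M.r_mem ha) (hcomm x a ha)⟩ * zK⁻¹) = 1 := by
          rw [map_mul, map_inv, mul_inv_eq_one]
        rw [h4, hΦ1]
        show a * z⁻¹ = 1 ∨ a * z⁻¹ = t ↔ _
        rw [mul_inv_eq_one, mul_inv_eq_iff_eq_mul]
      rw [h3]
      show (a = 1 ∨ a = t) ∨ a = z ∨ a = t * z ↔ _
      tauto
    rw [h1]
    constructor
    · rintro (rfl | rfl | rfl | rfl)
      · left; exact M.r_one.1 ha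
      · left; exact M.r_one.1 (by have := M.r_z ha; rwa [M.sq] at this)
      · right
        obtain ⟨u, h⟩ := M.cg_of_r ha hu
        exact ⟨u, h⟩
      · right
        obtain ⟨u, h⟩ := M.cg_of_r (M.r_of_z ha) hu
        exact ⟨u, h⟩
    · rintro (⟨w, hw⟩ | ⟨w, hw⟩)
      · have h2 : R 0 a := M.r_cg ha ⟨w, by rw [hw]; abel⟩
        rcases M.r_zero h2 with h3 | h3
        · exact Or.inl h3
        · exact Or.inr (Or.inl h3)
      · have h2 : R Spor.leechU a := M.r_cg ha ⟨w, hw⟩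
        rcases M.r_uniq hu h2 with h3 | h3
        · exact Or.inr (Or.inr (Or.inl h3))
        · exact Or.inr (Or.inr (Or.inr h3))
  · -- equivariance
    intro d g hdg x x' hxx' q hq
    obtain ⟨k, rfl⟩ := hΦs d
    have hkg : lam k = g := by
      have h1 : lb (Φ k) = g := hdg
      rw [← h1, hlb]
    obtain ⟨a, ha⟩ := M.r_ex' (x : leechLattice)
    have h2 : R (x' : leechLattice) ((k : G) * a * (k : G)⁻¹) := by
      have h3 := M.π_r ⟨k, k.2.1⟩ _ (hlamr k) ha
      have h4 : ((⟨lam k, (lam k).2.1⟩ : Co0) : Equiv.Perm leechLattice) (x : leechLattice) = (x' : leechLattice) := by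
        rw [← hxx', ← hkg]; rfl
      rw [h4] at h3
      exact h3
    rw [hψ' x' _ h2]
    rw [hψ' x a ha] at hq
    obtain ⟨c, hc, hqc⟩ := (mk_eq_iff_center hXS _ _).1 hq
    rw [mk_eq_iff_center hXS]
    refine ⟨c, hc, ?_⟩
    have hc' : Φ k * c = c * Φ k := by
      rcases hc with rfl | rfl
      · rw [mul_one, one_mul]
      · exact hζc _
    have h5 : Φ ⟨(k : G) * a * (k : G)⁻¹, hmemK (M.r_mem h2) (hcomm x' _ h2)⟩ =
        Φ k * Φ ⟨a, hmemK (M.r_mem ha) (hcomm x a ha)⟩ * (Φ k)⁻¹ := by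
      rw [← map_inv, ← map_mul, ← map_mul]; rfl
    have h6 : (q : Subgroup.centralizer ({y} : Set (H ⧸ T))) =
      Φ ⟨a, hmemK (M.r_mem ha) (hcomm x a ha)⟩ * c := hqc
    show Φ k * (q : Subgroup.centralizer ({y} : Set (H ⧸ T))) * (Φ k)⁻¹ =
      Φ ⟨(k : G) * a * (k : G)⁻¹, hmemK (M.r_mem h2) (hcomm x' _ h2)⟩ * c
    rw [h6, h5]
    generalize Φ ⟨a, hmemK (M.r_mem ha) (hcomm x a ha)⟩ = A
    calc Φ k * (A * c) * (Φ k)⁻¹ = Φ k * A * (c * (Φ k)⁻¹) := by group
      _ = Φ k * A * ((Φ k)⁻¹ * c) := by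
          congr 1
          calc c * (Φ k)⁻¹ = (Φ k)⁻¹ * (Φ k * c) * (Φ k)⁻¹ := by group
            _ = (Φ k)⁻¹ * (c * Φ k) * (Φ k)⁻¹ := by rw [hc']
            _ = (Φ k)⁻¹ * c := by group
      _ = Φ k * A * (Φ k)⁻¹ * c := by group

end Mon

section
variable {G : Type*} [Group G] [Finite G] {z : G} {Q : Subgroup (Subgroup.centralizer ({z} : Set G))} [Q.Normal]

theorem final_5412 (L : LeechFacts) (hM : IsOfMonsterType z Q) (t : G)
    (htQ : ∃ htc : t ∈ Subgroup.centralizer ({z} : Set G), (⟨t, htc⟩ : Subgroup.centralizer ({z} : Set G)) ∈ Q)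
    (ht2 : orderOf t = 2) (ht : ¬ IsConj z t)
    [hn : ((Subgroup.zpowers t).subgroupOf (Subgroup.centralizer ({t} : Set G))).Normal] :
    IsOfBabyMonsterType (↥(Subgroup.centralizer ({t} : Set G)) ⧸
      (Subgroup.zpowers t).subgroupOf (Subgroup.centralizer ({t} : Set G))) := by
  obtain ⟨hset, e, ψ, hψ⟩ := hM
  have M := mon_of_setting Q hset hψ
  have hconj := exists_conj_of_setting hset
  obtain ⟨ht2', ht1⟩ := sq_of_order ht2
  obtain ⟨w, hw, hw32⟩ := M.type_two L hconj (mem_map_iff.2 htQ) ht2' ht1 ht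
  obtain ⟨g₀, hg₀, hg⟩ := L.t2 w Spor.leechU hw32 sqNorm_leechU
  have hu := M.twist_four hw hg₀ (w := Spor.leechU) (by rw [hg]; exact Cg.refl _)
  exact (M.twist hg₀).baby L hconj hu ht2' ht

end

end Cfsg.Agent.H90
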