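import Cfsg.Agent.H90.MonFour

/-!
# Groups of Monster type: final forms, relative to `LeechFacts` (owner: helper90)
-/

set_option autoImplicit false

namespace Cfsg.Agent.H90

open Cfsg

section
variable {G : Type*} [Group G] [Finite G] {z : G} {Q : Subgroup (Subgroup.centralizer ({z} : Set G))} [Q.Normal]

omit [Finite G] [Q.Normal] in
theorem mem_map_iff {s : G} : s ∈ Q.map (Subgroup.centralizer ({z} : Set G)).subtype ↔
    ∃ hsc : s ∈ Subgroup.centralizer ({z} : Set G), (⟨s, hsc⟩ : Subgroup.centralizer ({z} : Set G)) ∈ Q := by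
  constructor
  · rintro ⟨q, hq, rfl⟩; exact ⟨q.2, hq⟩
  · rintro ⟨hsc, h⟩; exact ⟨_, h, rfl⟩

omit [Finite G] [Q.Normal] in
theorem exists_conj_of_setting {w : ℕ} (h : IsExtraspecialCentralizerSetting z Q w) :
    ∃ g : G, g * z * g⁻¹ ∈ Q.map (Subgroup.centralizer ({z} : Set G)).subtype ∧ g * z * g⁻¹ ≠ z := by
  obtain ⟨g, h1, h2⟩ := h.2.2.2.2
  exact ⟨g, mem_map_iff.2 h1, h2⟩

theorem final_5407 (L : LeechFacts) (hM : IsOfMonsterType z Q)
    (e : (Subgroup.centralizer ({z} : Set G)) ⧸ Q ≃* Spor.Co1) (ψ : leechLattice → Q ⧸ Subgroup.center Q)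
    (hψ : IsLeechModTwoIso Q e ψ) (x : Q) :
    (IsConj z ((x : Subgroup.centralizer ({z} : Set G)) : G) ∧ ((x : Subgroup.centralizer ({z} : Set G)) : G) ≠ z) ↔
      ∃ v : leechLattice, sqNorm (v : GolayPt → ℤ) = 64 ∧ ψ v = QuotientGroup.mk x := by
  have M := mon_of_setting Q hM.1 hψ
  rw [M.conj_iff L (exists_conj_of_setting hM.1) (x := ((x : Subgroup.centralizer ({z} : Set G)) : G)) ⟨x, x.2, rfl⟩]
  constructor
  · rintro ⟨w, hw, h⟩; exact ⟨w, h, (MR_coe Q x).1 hw⟩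
  · rintro ⟨w, h, hw⟩; exact ⟨w, (MR_coe Q x).2 hw, h⟩

theorem final_5406 (L : LeechFacts) (hM : IsOfMonsterType z Q) (s t : G)
    (hsQ : ∃ hsc : s ∈ Subgroup.centralizer ({z} : Set G), (⟨s, hsc⟩ : Subgroup.centralizer ({z} : Set G)) ∈ Q)
    (htQ : ∃ htc : t ∈ Subgroup.centralizer ({z} : Set G), (⟨t, htc⟩ : Subgroup.centralizer ({z} : Set G)) ∈ Q)
    (hs : IsConj z s) (ht : IsConj z t) (hs1 : s ≠ z) (ht1 : t ≠ z) :
    ∃ h ∈ Subgroup.centralizer ({z} : Set G), h * s * h⁻¹ = t := by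
  obtain ⟨hset, e, ψ, hψ⟩ := hM
  exact (mon_of_setting Q hset hψ).trans_conj L (mem_map_iff.2 hsQ) (mem_map_iff.2 htQ) hs ht hs1 ht1

omit [Finite G] in
theorem sq_of_order {s : G} (h : orderOf s = 2) : s * s = 1 ∧ s ≠ 1 := by
  refine ⟨?_, ?_⟩
  · rw [← pow_two, ← h]; exact pow_orderOf_eq_one s
  · rintro rfl
    rw [orderOf_one] at h; omega

theorem final_5411 (L : LeechFacts) (hM : IsOfMonsterType z Q) (s t : G)
    (hsQ : ∃ hsc : s ∈ Subgroup.centralizer ({z} : Set G), (⟨s, hsc⟩ : Subgroup.centralizer ({z} : Set G)) ∈ Q)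
    (htQ : ∃ htc : t ∈ Subgroup.centralizer ({z} : Set G), (⟨t, htc⟩ : Subgroup.centralizer ({z} : Set G)) ∈ Q)
    (hs2 : orderOf s = 2) (ht2 : orderOf t = 2) (hs : ¬ IsConj z s) (ht : ¬ IsConj z t) :
    ∃ h ∈ Subgroup.centralizer ({z} : Set G), h * s * h⁻¹ = t := by
  obtain ⟨hset, e, ψ, hψ⟩ := hM
  exact (mon_of_setting Q hset hψ).trans_nonconj L (exists_conj_of_setting hset) (mem_map_iff.2 hsQ)
    (mem_map_iff.2 htQ) (sq_of_order hs2).1 (sq_of_order hs2).2 (sq_of_order ht2).1 (sq_of_order ht2).2 hs ht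

theorem final_5409 (L : LeechFacts) (hM : IsOfMonsterType z Q) (s : G)
    (hsQ : ∃ hsc : s ∈ Subgroup.centralizer ({z} : Set G), (⟨s, hsc⟩ : Subgroup.centralizer ({z} : Set G)) ∈ Q)
    (hs1 : s ≠ z) (g : G) (hg : g * z * g⁻¹ = s) :
    Nat.card ↥((Q.map (Subgroup.centralizer ({z} : Set G)).subtype) ⊓
      (Q.map (Subgroup.centralizer ({z} : Set G)).subtype).map (MulAut.conj g).toMonoidHom) = 2 ^ 13 := by
  obtain ⟨hset, e, ψ, hψ⟩ := hM
  have M := mon_of_setting Q hset hψ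
  have hs := mem_map_iff.2 hsQ
  obtain ⟨h', hz⟩ := M.toPL.pair (by rw [M.card]; norm_num) hg hs hs1
  exact M.card_inter L hs h' (by rw [card_map_conj, M.card]) hz hs1

end

end Cfsg.Agent.H90
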