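import Cfsg.Agent.H90.MonPair

/-!
# Groups of Monster type: the conjugates of `z` in `Q` have type 4 (owner: helper90)
-/

set_option autoImplicit false

namespace Cfsg.Agent.H90

open Cfsg

/-- sign changes on code words, as a homomorphism -/
def flipHom : Multiplicative golayCode →* Co0 where
  toFun c := ⟨flipCo c.toAdd c.toAdd.2, flipCo_mem _ _⟩
  map_one' := by
    apply Subtype.ext
    exact (isMono_flipCo (0 : GolayPt → ZMod 2) golayCode.zero_mem).eq isMono_one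
  map_mul' c d := by
    apply Subtype.ext
    have h1 : IsMono ((⟨flipCo c.toAdd c.toAdd.2, flipCo_mem _ _⟩ * ⟨flipCo d.toAdd d.toAdd.2, flipCo_mem _ _⟩ : Co0) :
        Equiv.Perm leechLattice) _ _ :=
      (isMono_flipCo (c.toAdd : GolayPt → ZMod 2) c.toAdd.2).mul (isMono_flipCo (d.toAdd : GolayPt → ZMod 2) d.toAdd.2)
    have h2 : IsMono (flipCo ((c * d).toAdd : GolayPt → ZMod 2) (c * d).toAdd.2) _ _ := isMono_flipCo _ _
    rw [mul_one] at h1
    exact h2.eq h1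

theorem flipHom_coe (c : golayCode) :
    ((flipHom (Multiplicative.ofAdd c) : Co0) : Equiv.Perm leechLattice) = flipCo c c.2 := rfl

theorem card_mult_code : Nat.card (Multiplicative golayCode) = 2 ^ 12 := by
  have h : Nat.card (Multiplicative golayCode) = Nat.card golayCode := rfl
  rw [h, Leech.card_code]; norm_num

/-- the image of the sign changes in the first Conway group -/
def flBar : Subgroup Spor.Co1 := ((QuotientGroup.mk' (Subgroup.center Co0)).comp flipHom).range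

theorem flipCo_one_eq : flipCo 1 Leech.one_mem_code = negCo := by
  apply (isMono_flipCo _ _).eq
  intro v i
  show ((-v : leechLattice) : GolayPt → ℤ) i = _
  rw [AddSubgroup.coe_neg, Leech.lift_one, Equiv.Perm.one_apply, Pi.neg_apply]
  ring

theorem card_flBar_le : Nat.card flBar ≤ 2 ^ 11 := by
  set φ := (QuotientGroup.mk' (Subgroup.center Co0)).comp flipHom with hφ
  have h1 := φ.ker.card_mul_index
  rw [Subgroup.index_ker, card_mult_code] at h1
  have h2 : 1 < Nat.card φ.ker := by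
    have hne : (⟨Multiplicative.ofAdd (⟨1, Leech.one_mem_code⟩ : golayCode), by
        rw [MonoidHom.mem_ker]
        apply (QuotientGroup.eq_one_iff _).2
        rw [Subgroup.mem_center_iff]
        intro k
        apply Subtype.ext
        show (k : Equiv.Perm leechLattice) * flipCo 1 Leech.one_mem_code = flipCo 1 Leech.one_mem_code * k
        rw [flipCo_one_eq]; exact (negCo_central k.2).symm⟩ : φ.ker) ≠ 1 := by
      intro h
      have h3 := congrArg (fun x : φ.ker => ((flipHom (x : Multiplicative golayCode) : Co0) : Equiv.Perm leechLattice)) h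
      have h4 : flipCo 1 Leech.one_mem_code = 1 := by
        have h5 : ((flipHom (1 : Multiplicative golayCode) : Co0) : Equiv.Perm leechLattice) = 1 := by
          rw [map_one]; rfl
        rw [← h5]; exact h3
      rw [flipCo_one_eq] at h4
      exact negCo_ne_one h4
    have h0 : Nontrivial φ.ker := ⟨⟨_, _, hne⟩⟩
    exact Finite.one_lt_card
  have h3 : Nat.card flBar = Nat.card φ.range := rfl
  rw [h3]
  by_contra hcon
  push Not at hcon
  have : 2 * (2 ^ 11 + 1) ≤ Nat.card φ.ker * Nat.card φ.range := Nat.mul_le_mul h2 hcon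
  rw [h1] at this
  norm_num at this

namespace Mon

variable {G : Type*} [Group G] [Finite G] {z s : G} {Q Q' : Subgroup G} {R : leechLattice → G → Prop}
  {π : Subgroup.centralizer ({z} : Set G) →* Spor.Co1} (M : Mon z Q R π)
include M

omit [Finite G] in
theorem twist_four {v : leechLattice} (hs : R v s) {g₀ : Equiv.Perm leechLattice} (hg₀ : g₀ ∈ Co0)
    {w : leechLattice} (h : Cg (g₀ v) w) : R (g₀⁻¹ w) s := by
  apply M.r_cg hs
  have h1 := Cg.map (inv_mem hg₀ : g₀⁻¹ ∈ Co0) h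
  rwa [show g₀⁻¹ (g₀ v) = v from g₀.symm_apply_apply v] at h1

omit [Finite G] in
/-- Under the standard identification of `s`, the image of `C_{Q'}(z)` consists of sign changes. -/
theorem range_le_flBar (L : LeechFacts) (hs : R (v8 none) s) (h' : PL Q' s) (hsz : s ≠ z) :
    (theta Q' π).range ≤ flBar := by
  have h1 := normal_two_le_flips L (NN Q' π) (M.NN_stab hs h') (fun g hg hgv n hn =>
    M.NN_normal hs h'.ne_one hsz h' g hg hgv n hn) (M.NN_two h')
  rintro _ ⟨x, rfl⟩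
  obtain ⟨g, hg⟩ := M.exists_proj ⟨x, x.2.2⟩
  have hn : (g : Equiv.Perm leechLattice) ∈ NN Q' π := mem_NN.2 ⟨g.2, ⟨x, x.2.2⟩, x.2.1, hg⟩
  obtain ⟨c, hc, hgc⟩ := h1 _ hn
  refine ⟨Multiplicative.ofAdd ⟨c, hc⟩, ?_⟩
  have h2 : flipHom (Multiplicative.ofAdd ⟨c, hc⟩) = g := by
    apply Subtype.ext
    exact (isMono_flipCo c hc).eq hgc
  have h3 : (theta Q' π x : Spor.Co1) = QuotientGroup.mk g := hg
  rw [h3, ← h2]; rfl

theorem four_std (L : LeechFacts) (hs : R (v8 none) s) (h' : PL Q' s) (hcard' : Nat.card Q' = 2 ^ 25)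
    (hz : z ∈ Q') (hsz : s ≠ z) :
    Nat.card ↥(Q ⊓ Q') = 2 ^ 13 ∧ (theta Q' π).range = flBar ∧ Nat.card (theta Q' π).range = 2 ^ 11 := by
  have h1 := M.range_le_flBar L hs h' hsz
  have h2 := M.card_cent h' hcard' hz hsz
  have h3 := M.card_theta (Q' := Q')
  rw [h2] at h3
  have h4 := inter_card_le M.toPL h' hsz hz
  rw [M.card] at h4
  have hfin : Finite flBar := by
    have hfm : Finite (Multiplicative golayCode) := Nat.finite_of_card_ne_zero (by rw [card_mult_code]; norm_num)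
    exact Finite.of_surjective _ (MonoidHom.rangeRestrict_surjective _)
  have h5 : Nat.card (theta Q' π).range ≤ Nat.card flBar :=
    Nat.card_le_card_of_injective (Subgroup.inclusion h1) (Subgroup.inclusion_injective _)
  have h6 := h5.trans card_flBar_le
  have h7 : Nat.card ↥(Q ⊓ Q') ≤ 2 ^ 13 := by
    by_contra hcon
    push Not at hcon
    have : (2 ^ 13 + 1) * (2 ^ 13 + 1) ≤ Nat.card ↥(Q ⊓ Q') * Nat.card ↥(Q ⊓ Q') := Nat.mul_le_mul hcon hcon
    have := this.trans h4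
    norm_num at this
  have h8 : Nat.card ↥(Q ⊓ Q') = 2 ^ 13 := by
    apply le_antisymm h7
    by_contra hcon
    push Not at hcon
    have h9 : Nat.card ↥(Q ⊓ Q') ≤ 2 ^ 13 - 1 := by omega
    have := Nat.mul_le_mul h9 h6
    rw [h3] at this
    norm_num at this
  have h9 : Nat.card (theta Q' π).range = 2 ^ 11 := by
    rw [h8] at h3
    have : (2 : ℕ) ^ 24 = 2 ^ 13 * 2 ^ 11 := by norm_num
    rw [this] at h3
    exact Nat.eq_of_mul_eq_mul_left (by norm_num) h3
  refine ⟨h8, ?_, h9⟩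
  apply Subgroup.eq_of_le_of_card_ge h1
  rw [h9]; exact card_flBar_le

/-- **Type 4.** -/
theorem type_four (L : LeechFacts) {v : leechLattice} (hs : R v s) (h' : PL Q' s)
    (hcard' : Nat.card Q' = 2 ^ 25) (hz : z ∈ Q') (hsz : s ≠ z) :
    ∃ w : leechLattice, R w s ∧ sqNorm (w : GolayPt → ℤ) = 64 := by
  obtain ⟨w, hvw, hw⟩ := exists_cg_small v
  have hw' := M.r_cg hs hvw
  rcases hw with hw | hw | hw | hw
  · exfalso
    have h0 : w = 0 := Subtype.ext ((Leech.sqNorm_eq_zero_iff _).1 hw)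
    rw [h0] at hw'
    rcases M.r_zero hw' with h | h
    · exact h'.ne_one h
    · exact hsz h
  · exact absurd (M.not_type_two L hw' hw h' hcard' hz hsz) not_false
  · exfalso
    have h1 := (M.sq_iff L hw').1 h'.sq
    rw [hw] at h1
    norm_num at h1
  · exact ⟨w, hw', hw⟩

/-- order of the intersection -/
theorem card_inter (L : LeechFacts) (hsQ : s ∈ Q) (h' : PL Q' s)
    (hcard' : Nat.card Q' = 2 ^ 25) (hz : z ∈ Q') (hsz : s ≠ z) : Nat.card ↥(Q ⊓ Q') = 2 ^ 13 := by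
  obtain ⟨v, hv⟩ := M.r_ex s hsQ
  obtain ⟨w, hw, hw64⟩ := M.type_four L hv h' hcard' hz hsz
  obtain ⟨g₀, hg₀, hg⟩ := L.t4 w (v8 none) hw64 (sqNorm_v8 _)
  exact ((M.twist hg₀).four_std L (M.twist_four hw hg₀ hg) h' hcard' hz hsz).1

/-- Elements of `Q` of type 4 are all conjugate to `z`, if some conjugate of `z` other than `z` is in `Q`. -/
theorem conj_iff (L : LeechFacts) (hconj : ∃ g : G, g * z * g⁻¹ ∈ Q ∧ g * z * g⁻¹ ≠ z) {x : G} (hx : x ∈ Q) :
    (IsConj z x ∧ x ≠ z) ↔ ∃ w : leechLattice, R w x ∧ sqNorm (w : GolayPt → ℤ) = 64 := by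
  have h25 : (8 : ℕ) < Nat.card Q := by rw [M.card]; norm_num
  have main : ∀ y ∈ Q, IsConj z y → y ≠ z → ∃ w : leechLattice, R w y ∧ sqNorm (w : GolayPt → ℤ) = 64 := by
    intro y hy hc hyz
    obtain ⟨g, hg⟩ := isConj_iff.1 hc
    obtain ⟨h', hz⟩ := M.toPL.pair h25 hg hy hyz
    obtain ⟨v, hv⟩ := M.r_ex y hy
    exact M.type_four L hv h' (by rw [card_map_conj, M.card]) hz hyz
  constructor
  · rintro ⟨hc, hxz⟩; exact main x hx hc hxz
  · rintro ⟨w, hw, hw64⟩
    obtain ⟨g, hgQ, hgz⟩ := hconj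
    obtain ⟨v, hv, hv64⟩ := main _ hgQ (isConj_iff.2 ⟨g, rfl⟩) hgz
    have hg1 : g * z * g⁻¹ ≠ 1 := by
      intro h
      apply M.ne_one
      calc z = g⁻¹ * (g * z * g⁻¹) * g := by group
        _ = 1 := by rw [h]; group
    obtain ⟨g₀, hg₀, hcg⟩ := L.t4 v w hv64 hw64
    obtain ⟨k, hk, hkx⟩ := M.conj_of_orbit hv hw hg1 hgz hg₀ hcg
    refine ⟨isConj_iff.2 ⟨k * g, ?_⟩, ?_⟩
    · rw [← hkx]; group
    · rintro rfl
      have h1 := (M.r_z_iff).1 hw
      rcases Leech.cong_small (w : GolayPt → ℤ) 0 w.2 leechLattice.zero_mem (by rw [hw64]) (by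
        rw [(Leech.sqNorm_eq_zero_iff 0).2 rfl]; norm_num) ((cg_iff w 0).1 h1) with h2 | h2 | ⟨-, h2, -⟩
      · rw [h2, (Leech.sqNorm_eq_zero_iff 0).2 rfl] at hw64; norm_num at hw64
      · rw [neg_zero] at h2
        rw [h2, (Leech.sqNorm_eq_zero_iff 0).2 rfl] at hw64; norm_num at hw64
      · rw [(Leech.sqNorm_eq_zero_iff 0).2 rfl] at h2; norm_num at h2

/-- transitivity on the conjugates of `z` in `Q \ {z}` -/
theorem trans_conj (L : LeechFacts) {s t : G} (hs : s ∈ Q) (ht : t ∈ Q) (hsc : IsConj z s) (htc : IsConj z t)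
    (hsz : s ≠ z) (htz : t ≠ z) : ∃ h ∈ Subgroup.centralizer ({z} : Set G), h * s * h⁻¹ = t := by
  have hconj : ∃ g : G, g * z * g⁻¹ ∈ Q ∧ g * z * g⁻¹ ≠ z := by
    obtain ⟨g, hg⟩ := isConj_iff.1 hsc
    exact ⟨g, by rw [hg]; exact hs, by rw [hg]; exact hsz⟩
  obtain ⟨v, hv, hv64⟩ := (M.conj_iff L hconj hs).1 ⟨hsc, hsz⟩
  obtain ⟨w, hw, hw64⟩ := (M.conj_iff L hconj ht).1 ⟨htc, htz⟩
  obtain ⟨g₀, hg₀, hcg⟩ := L.t4 v w hv64 hw64
  refine M.conj_of_orbit hv hw ?_ hsz hg₀ hcg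
  rintro rfl
  obtain ⟨g, hg⟩ := isConj_iff.1 hsc
  apply M.ne_one
  calc z = g⁻¹ * (g * z * g⁻¹) * g := by group
    _ = 1 := by rw [hg]; group

/-- involutions of `Q` not conjugate to `z` have type 2 -/
theorem type_two (L : LeechFacts) (hconj : ∃ g : G, g * z * g⁻¹ ∈ Q ∧ g * z * g⁻¹ ≠ z) {t : G} (ht : t ∈ Q)
    (ht2 : t * t = 1) (ht1 : t ≠ 1) (htc : ¬ IsConj z t) :
    ∃ w : leechLattice, R w t ∧ sqNorm (w : GolayPt → ℤ) = 32 := by
  obtain ⟨v, hv⟩ := M.r_ex t ht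
  obtain ⟨w, hvw, hw⟩ := exists_cg_small v
  have hw' := M.r_cg hv hvw
  rcases hw with hw | hw | hw | hw
  · exfalso
    have h0 : w = 0 := Subtype.ext ((Leech.sqNorm_eq_zero_iff _).1 hw)
    rw [h0] at hw'
    rcases M.r_zero hw' with h | h
    · exact ht1 h
    · rw [h] at htc; exact htc (IsConj.refl z)
  · exact ⟨w, hw', hw⟩
  · exfalso
    have h1 := (M.sq_iff L hw').1 ht2
    rw [hw] at h1
    norm_num at h1
  · exact absurd ((M.conj_iff L hconj ht).2 ⟨w, hw', hw⟩).1 htc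

theorem trans_nonconj (L : LeechFacts) (hconj : ∃ g : G, g * z * g⁻¹ ∈ Q ∧ g * z * g⁻¹ ≠ z) {s t : G}
    (hs : s ∈ Q) (ht : t ∈ Q) (hs2 : s * s = 1) (hs1 : s ≠ 1) (ht2 : t * t = 1) (ht1 : t ≠ 1)
    (hsc : ¬ IsConj z s) (htc : ¬ IsConj z t) :
    ∃ h ∈ Subgroup.centralizer ({z} : Set G), h * s * h⁻¹ = t := by
  obtain ⟨v, hv, hv32⟩ := M.type_two L hconj hs hs2 hs1 hsc
  obtain ⟨w, hw, hw32⟩ := M.type_two L hconj ht ht2 ht1 htc
  obtain ⟨g₀, hg₀, hg⟩ := L.t2 v w hv32 hw32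
  refine M.conj_of_orbit hv hw hs1 ?_ hg₀ (by rw [hg]; exact Cg.refl _)
  rintro rfl
  exact hsc (IsConj.refl _)

end Mon

end Cfsg.Agent.H90
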