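import Cfsg.Agent.H90.Mon

/-!
# Groups of Monster type: pairs `z`, `z^g` with `z^g ∈ Q` (owner: helper90)
-/

set_option autoImplicit false

namespace Cfsg.Agent.H90

open Cfsg

section pairs

variable {G : Type*} [Group G] [Finite G] {z s : G} {Q Q' : Subgroup G}

theorem PL.pair (h : PL Q z) (hcard : 8 < Nat.card Q) {g : G} (hg : g * z * g⁻¹ = s) (hsQ : s ∈ Q)
    (hsz : s ≠ z) : PL (Q.map (MulAut.conj g).toMonoidHom) s ∧ z ∈ Q.map (MulAut.conj g).toMonoidHom := by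
  have h' : PL (Q.map (MulAut.conj g).toMonoidHom) s := by rw [← hg]; exact h.conj g
  refine ⟨h', h.mem_of_mem h' hcard hsQ hsz ?_⟩
  intro x hx hxs
  rw [← hxs]
  exact h.conj_mem g x (by rw [hx, hg]) hsQ

omit [Finite G] in
theorem inter_abelian (h : PL Q z) (h' : PL Q' s) (hsz : s ≠ z) {x y : G} (hx : x ∈ Q) (hx' : x ∈ Q')
    (hy : y ∈ Q) (hy' : y ∈ Q') : x * y = y * x := by
  rcases h.comm x hx y hy with h1 | h1
  · exact h1
  · rcases h'.comm x hx' y hy' with h2 | h2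
    · exact h2
    · exfalso
      apply hsz
      rw [h1] at h2
      exact (mul_right_cancel h2).symm

omit [Finite G] in
theorem inter_sq (h : PL Q z) (h' : PL Q' s) (hsz : s ≠ z) {x : G} (hx : x ∈ Q) (hx' : x ∈ Q') :
    x * x = 1 := by
  rcases h.sqr hx with h1 | h1
  · exact h1
  · rcases h'.sqr hx' with h2 | h2
    · exact h2
    · exfalso; apply hsz; rw [← h2, h1]

theorem inter_card_le (h : PL Q z) (h' : PL Q' s) (hsz : s ≠ z) (hz : z ∈ Q') :
    Nat.card ↥(Q ⊓ Q') * Nat.card ↥(Q ⊓ Q') ≤ 2 * Nat.card Q := by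
  have h1 := h.dual (Q ⊓ Q') inf_le_left ⟨h.mem, hz⟩
  rw [← h1]
  apply Nat.mul_le_mul_left
  apply Nat.card_le_card_of_injective (Subgroup.inclusion _) (Subgroup.inclusion_injective _)
  intro x hx
  refine ⟨hx.1, ?_⟩
  show x ∈ Subgroup.centralizer _
  rw [Subgroup.mem_centralizer_iff]
  intro y hy
  exact inter_abelian h h' hsz hy.1 hy.2 hx.1 hx.2

end pairs

namespace Mon

variable {G : Type*} [Group G] [Finite G] {z s : G} {Q Q' : Subgroup G} {R : leechLattice → G → Prop}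
  {π : Subgroup.centralizer ({z} : Set G) →* Spor.Co1} (M : Mon z Q R π)

/-- the map from `C_{Q'}(z)` to the first Conway group -/
def theta (Q' : Subgroup G) (π : Subgroup.centralizer ({z} : Set G) →* Spor.Co1) :
    ↥(Q' ⊓ Subgroup.centralizer ({z} : Set G)) →* Spor.Co1 :=
  π.comp (Subgroup.inclusion inf_le_right)

/-- its image, pulled back to the automorphism group of the lattice -/
def NN (Q' : Subgroup G) (π : Subgroup.centralizer ({z} : Set G) →* Spor.Co1) : Subgroup (Equiv.Perm leechLattice) :=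
  ((theta Q' π).range.comap (QuotientGroup.mk' (Subgroup.center Co0))).map Co0.subtype

omit [Finite G] in
theorem mem_NN {n : Equiv.Perm leechLattice} : n ∈ NN Q' π ↔ ∃ (hn : n ∈ Co0)
    (h : Subgroup.centralizer ({z} : Set G)), (h : G) ∈ Q' ∧ π h = QuotientGroup.mk (⟨n, hn⟩ : Co0) := by
  constructor
  · rintro ⟨⟨n, hn⟩, ⟨h, hh⟩, rfl⟩
    exact ⟨hn, ⟨h, h.2.2⟩, h.2.1, hh⟩
  · rintro ⟨hn, h, hQ, hh⟩
    exact ⟨⟨n, hn⟩, ⟨⟨h, hQ, h.2⟩, hh⟩, rfl⟩

include M

omit [Finite G] in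
theorem central_of_mk_one {g : Co0} (h : (QuotientGroup.mk g : Spor.Co1) = 1) :
    (g : Equiv.Perm leechLattice) = 1 ∨ (g : Equiv.Perm leechLattice) = negCo := by
  apply trivial_mod_two g.2
  intro v
  obtain ⟨x, hx⟩ := M.r_ex' v
  have h1 := M.π_r 1 g (by rw [map_one, h]) hx
  have h2 : ((1 : Subgroup.centralizer ({z} : Set G)) : G) * x * ((1 : Subgroup.centralizer ({z} : Set G)) : G)⁻¹ = x := by
    simp
  rw [h2] at h1
  exact M.cg_of_r h1 hx

omit [Finite G] in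
theorem NN_two (h' : PL Q' s) : ∀ n ∈ NN Q' π, ∃ k : ℕ, n ^ (2 ^ k) = 1 := by
  intro n hn
  obtain ⟨hn, h, hQ, hh⟩ := mem_NN.1 hn
  have h4 : h ^ 4 = 1 := by
    apply Subtype.ext
    rw [Subgroup.coe_pow, h'.pow_four hQ]; rfl
  have h5 : (QuotientGroup.mk ((⟨n, hn⟩ : Co0) ^ 4) : Spor.Co1) = 1 := by
    rw [QuotientGroup.mk_pow, ← hh, ← map_pow, h4, map_one]
  have h8 : (n ^ 4) * (n ^ 4) = 1 := by
    rcases M.central_of_mk_one h5 with h6 | h6
    · have h7 : n ^ 4 = 1 := h6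
      rw [h7, one_mul]
    · have h7 : n ^ 4 = negCo := h6
      rw [h7, negCo_sq]
  refine ⟨3, ?_⟩
  rw [show (2 : ℕ) ^ 3 = 4 + 4 by norm_num, pow_add, h8]

omit [Finite G] in
theorem NN_stab {v : leechLattice} (hs : R v s) (h' : PL Q' s) : ∀ n ∈ NN Q' π, n ∈ Co0 ∧ Cg (n v) v := by
  intro n hn
  obtain ⟨hn, h, hQ, hh⟩ := mem_NN.1 hn
  exact ⟨hn, M.cg_of_cent hs (h'.central h hQ) hh⟩

omit [Finite G] in
theorem NN_normal {v : leechLattice} (hs : R v s) (hs1 : s ≠ 1) (hsz : s ≠ z) (h' : PL Q' s) :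
    ∀ g ∈ Co0, Cg (g v) v → ∀ n ∈ NN Q' π, g * n * g⁻¹ ∈ NN Q' π := by
  intro g hg hgv n hn
  obtain ⟨hn, h, hQ, hh⟩ := mem_NN.1 hn
  obtain ⟨k, hks, hk⟩ := M.exists_lift_cent hs hs1 hsz hg hgv
  rw [mem_NN]
  refine ⟨mul_mem (mul_mem hg hn) (inv_mem hg), k * h * k⁻¹, ?_, ?_⟩
  · exact h'.norm k hks h hQ
  · rw [map_mul, map_mul, map_inv, hk, hh]; rfl

omit [Finite G] M in
theorem neg_mem_NN : negCo ∈ NN Q' π := by
  rw [mem_NN]
  refine ⟨negCo_mem, 1, Q'.one_mem, ?_⟩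
  rw [map_one]
  symm
  apply (QuotientGroup.eq_one_iff _).2
  rw [Subgroup.mem_center_iff]
  intro k
  apply Subtype.ext
  exact (negCo_central k.2).symm

/-- `|C_{Q'}(z)| = 2^24` -/
theorem card_cent (h' : PL Q' s) (hcard' : Nat.card Q' = 2 ^ 25) (hz : z ∈ Q') (hsz : s ≠ z) :
    Nat.card ↥(Q' ⊓ Subgroup.centralizer ({z} : Set G)) = 2 ^ 24 := by
  have h1 := h'.card_centralizer hz M.sq M.ne_one (Ne.symm hsz)
  rw [hcard'] at h1
  have : (2 : ℕ) ^ 25 = 2 * 2 ^ 24 := by norm_num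
  omega

omit [Finite G] in
theorem ker_theta : (theta Q' π).ker = (Q ⊓ Q').subgroupOf (Q' ⊓ Subgroup.centralizer ({z} : Set G)) := by
  ext x
  rw [MonoidHom.mem_ker, Subgroup.mem_subgroupOf]
  have h1 : theta Q' π x = π ⟨x, x.2.2⟩ := rfl
  rw [h1, M.π_ker]
  exact ⟨fun h => ⟨h, x.2.1⟩, fun h => h.1⟩

omit [Finite G] in
theorem card_theta : Nat.card ↥(Q ⊓ Q') * Nat.card (theta Q' π).range =
    Nat.card ↥(Q' ⊓ Subgroup.centralizer ({z} : Set G)) := by
  have h1 := (theta Q' π).ker.card_mul_index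
  rw [Subgroup.index_ker, M.ker_theta] at h1
  rw [← h1]
  congr 1
  symm
  apply Nat.card_congr (Subgroup.subgroupOfEquivOfLe _).toEquiv
  exact fun x hx => ⟨hx.2, M.le_cent hx.1⟩

/-- A conjugate of `z` in `Q` other than `z` is not the image of a vector of squared length 32. -/
theorem not_type_two (L : LeechFacts) {v : leechLattice} (hs : R v s) (hv : sqNorm (v : GolayPt → ℤ) = 32)
    (h' : PL Q' s) (hcard' : Nat.card Q' = 2 ^ 25) (hz : z ∈ Q') (hsz : s ≠ z) : False := by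
  -- reduce to the standard vector
  obtain ⟨g₀, hg₀, hgv⟩ := L.t2 v Spor.leechU hv (by rw [leechU_eq]; exact sqNorm_vp (by decide))
  have M' := M.twist hg₀
  have hs' : R (g₀⁻¹ Spor.leechU) s := by
    rw [← hgv, show g₀⁻¹ (g₀ v) = v from g₀.symm_apply_apply v]; exact hs
  set R' : leechLattice → G → Prop := fun v x => R (g₀⁻¹ v) x with hR'
  set π' := ((MulAut.conj (QuotientGroup.mk (⟨g₀, hg₀⟩ : Co0) : Spor.Co1)).toMonoidHom.comp π) with hπ'
  have hs'' : R' Spor.leechU s := hs'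
  have hs1 : s ≠ 1 := h'.ne_one
  have hU : sqNorm (Spor.leechU : GolayPt → ℤ) = 32 := by rw [leechU_eq]; exact sqNorm_vp (by decide)
  -- the stabilizer of u in N is trivial
  have key : ∀ n ∈ NN Q' π' ⊓ Spor.Co2, n = 1 := by
    apply L.co2
    · exact inf_le_right
    · intro g hg n hn
      have hgu : g Spor.leechU = Spor.leechU := hg.2
      refine ⟨M'.NN_normal hs'' hs1 hsz h' g hg.1 ?_ n hn.1, ?_⟩
      · rw [hgu]; exact Cg.refl _
      · exact Spor.Co2.mul_mem (Spor.Co2.mul_mem hg hn.2) (Spor.Co2.inv_mem hg)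
    · intro n hn; exact M'.NN_two h' n hn.1
  have hN : ∀ n ∈ NN Q' π', n = 1 ∨ n = negCo := by
    intro n hn
    obtain ⟨hnC, hcg⟩ := M'.NN_stab hs'' h' n hn
    rcases hcg.eq_or_neg (by rw [hnC.2]; exact hU) (by rw [hU]; norm_num) with h1 | h1
    · left; exact key n ⟨hn, hnC, h1⟩
    · right
      have h2 : negCo * n ∈ NN Q' π' ⊓ Spor.Co2 := by
        refine ⟨mul_mem neg_mem_NN hn, mul_mem negCo_mem hnC, ?_⟩
        show -(n Spor.leechU) = Spor.leechU
        rw [h1, neg_neg]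
      have h3 := key _ h2
      calc n = negCo * negCo * n := by rw [negCo_sq, one_mul]
        _ = negCo * (negCo * n) := by rw [mul_assoc]
        _ = negCo := by rw [h3, mul_one]
  -- so C_{Q'}(z) ≤ Q
  have hle : Q' ⊓ Subgroup.centralizer ({z} : Set G) ≤ Q ⊓ Q' := by
    intro x hx
    refine ⟨?_, hx.1⟩
    obtain ⟨g, hg⟩ := M'.exists_proj ⟨x, hx.2⟩
    apply M'.mem_of_r hg
    intro w
    have hn : (g : Equiv.Perm leechLattice) ∈ NN Q' π' := mem_NN.2 ⟨g.2, ⟨x, hx.2⟩, hx.1, hg⟩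
    rcases hN _ hn with h1 | h1
    · rw [h1]; exact Cg.refl _
    · rw [h1]; exact Cg.neg _
  have h1 := M.card_cent h' hcard' hz hsz
  have h2 := inter_card_le M.toPL h' hsz hz
  rw [M.card] at h2
  have h3 : 2 ^ 24 ≤ Nat.card ↥(Q ⊓ Q') := by
    rw [← h1]
    exact Nat.card_le_card_of_injective (Subgroup.inclusion hle) (Subgroup.inclusion_injective _)
  have h4 : 2 ^ 24 * 2 ^ 24 ≤ 2 * 2 ^ 25 := le_trans (Nat.mul_le_mul h3 h3) h2
  norm_num at h4

end Mon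

end Cfsg.Agent.H90
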