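import Cfsg.Agent.H90.MonFinal

/-!
# Groups of Monster type: the stabilizer `2^11 : M24` (owner: helper90)
-/

set_option autoImplicit false

namespace Cfsg.Agent.H90

open Cfsg

/-- coordinate permutations as a homomorphism -/
def permHom : M24 →* Co0 where
  toFun σ := ⟨permCo (σ : Equiv.Perm GolayPt)⁻¹ (inv_mem σ.2), permCo_mem _ _⟩
  map_one' := by
    apply Subtype.ext
    have h2 : ((1 : M24) : Equiv.Perm GolayPt)⁻¹ = 1 := by simp
    have h3 : IsMono (1 : Equiv.Perm leechLattice) 0 ((1 : M24) : Equiv.Perm GolayPt)⁻¹ := by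
      rw [h2]; exact isMono_one
    exact (isMono_permCo ((1 : M24) : Equiv.Perm GolayPt)⁻¹ (inv_mem (1 : M24).2)).eq h3
  map_mul' σ τ := by
    apply Subtype.ext
    have h1 := (isMono_permCo (σ : Equiv.Perm GolayPt)⁻¹ (inv_mem σ.2)).mul
      (isMono_permCo (τ : Equiv.Perm GolayPt)⁻¹ (inv_mem τ.2))
    have h2 : ((0 : GolayPt → ZMod 2) + fun i => (0 : GolayPt → ZMod 2) ((σ : Equiv.Perm GolayPt)⁻¹ i)) = 0 := by
      ext i; simp
    rw [h2, ← mul_inv_rev] at h1
    exact (isMono_permCo ((σ * τ : M24) : Equiv.Perm GolayPt)⁻¹ (inv_mem (σ * τ).2)).eq h1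

theorem isMono_permHom (σ : M24) : IsMono ((permHom σ : Co0) : Equiv.Perm leechLattice) 0
    (σ : Equiv.Perm GolayPt)⁻¹ := isMono_permCo (σ : Equiv.Perm GolayPt)⁻¹ (inv_mem σ.2)

/-- the image of `M24` in the first Conway group -/
def mBar : M24 →* Spor.Co1 := (QuotientGroup.mk' (Subgroup.center Co0)).comp permHom

theorem mk_one_of_neg {g : Co0} (h : (g : Equiv.Perm leechLattice) = 1 ∨ (g : Equiv.Perm leechLattice) = negCo) :
    (QuotientGroup.mk g : Spor.Co1) = 1 := by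
  rcases h with h | h
  · have : g = 1 := Subtype.ext h
    rw [this]; rfl
  · apply (QuotientGroup.eq_one_iff _).2
    rw [Subgroup.mem_center_iff]
    intro k
    apply Subtype.ext
    show (k : Equiv.Perm leechLattice) * g = g * k
    rw [h]; exact (negCo_central k.2).symm

/-- the conclusion of the structure theorem for subgroups of an abstract group -/
def SplitM24 {A : Type*} [Group A] (X E : Subgroup A) : Prop :=
  E ≤ X ∧ (∀ x ∈ X, ∀ y ∈ E, x * y * x⁻¹ ∈ E) ∧ IsElementaryAbelian 2 E ∧ Nat.card E = 2 ^ 11 ∧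
    ∃ K : Subgroup A, K ≤ X ∧ E ⊓ K = ⊥ ∧ E ⊔ K = X ∧ Nonempty (K ≃* M24)

theorem SplitM24.of_map {A B : Type*} [Group A] [Group B] (ε : A ≃* B) {X E : Subgroup A}
    (h : SplitM24 (X.map ε.toMonoidHom) (E.map ε.toMonoidHom)) : SplitM24 X E := by
  obtain ⟨h1, h2, ⟨h3, h3'⟩, h4, K, h5, h6, h7, h8⟩ := h
  have hinj : Function.Injective ε.toMonoidHom := ε.injective
  refine ⟨?_, ?_, ⟨?_, ?_⟩, ?_, K.comap ε.toMonoidHom, ?_, ?_, ?_, ?_⟩
  · exact (Subgroup.map_le_map_iff_of_injective hinj).1 h1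
  · intro x hx y hy
    obtain ⟨w, hw, hw2⟩ := h2 (ε x) ⟨x, hx, rfl⟩ (ε y) ⟨y, hy, rfl⟩
    have : w = x * y * x⁻¹ := ε.injective (by rw [map_mul, map_mul, map_inv]; exact hw2)
    rw [← this]; exact hw
  · refine ⟨⟨fun a b => ?_⟩⟩
    apply Subtype.ext
    apply ε.injective
    have h9 := congrArg Subtype.val (h3.is_comm.comm (⟨ε a, a, a.2, rfl⟩ : E.map ε.toMonoidHom)
      (⟨ε b, b, b.2, rfl⟩ : E.map ε.toMonoidHom))
    have h10 : ε a * ε b = ε b * ε a := h9
    show ε (a * b) = ε (b * a)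
    rw [map_mul, map_mul, h10]
  · intro a ha
    apply ε.injective
    rw [map_pow, map_one]
    exact h3' (ε a) ⟨a, ha, rfl⟩
  · rw [← h4]
    exact Nat.card_congr (E.equivMapOfInjective ε.toMonoidHom hinj).toEquiv
  · rw [← Subgroup.comap_map_eq_self_of_injective hinj X]
    exact Subgroup.comap_mono h5
  · apply Subgroup.map_injective hinj
    rw [Subgroup.map_inf _ _ _ hinj, Subgroup.map_comap_eq_self_of_surjective ε.surjective, h6, Subgroup.map_bot]
  · apply Subgroup.map_injective hinj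
    rw [Subgroup.map_sup, Subgroup.map_comap_eq_self_of_surjective ε.surjective, h7]
  · obtain ⟨f⟩ := h8
    have h9 : (K.comap ε.toMonoidHom).map ε.toMonoidHom = K :=
      Subgroup.map_comap_eq_self_of_surjective ε.surjective K
    exact ⟨((K.comap ε.toMonoidHom).equivMapOfInjective ε.toMonoidHom hinj).trans
      ((MulEquiv.subgroupCongr h9).trans f)⟩

namespace Mon

variable {G : Type*} [Group G] [Finite G] {z s : G} {Q Q' : Subgroup G} {R : leechLattice → G → Prop}
  {π : Subgroup.centralizer ({z} : Set G) →* Spor.Co1} (M : Mon z Q R π)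
include M

theorem split_std (L : LeechFacts) (hs : R (v8 none) s) (h' : PL Q' s) (hcard' : Nat.card Q' = 2 ^ 25)
    (hz : z ∈ Q') (hsz : s ≠ z) :
    SplitM24 (((Subgroup.centralizer ({z} : Set G) ⊓ Subgroup.centralizer ({s} : Set G)).subgroupOf
        (Subgroup.centralizer ({z} : Set G))).map π)
      (((Q' ⊓ Subgroup.centralizer ({z} : Set G)).subgroupOf (Subgroup.centralizer ({z} : Set G))).map π) := by
  obtain ⟨-, h2, h3⟩ := M.four_std L hs h' hcard' hz hsz
  have hE : ((Q' ⊓ Subgroup.centralizer ({z} : Set G)).subgroupOf (Subgroup.centralizer ({z} : Set G))).map π =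
      flBar := by
    rw [← h2]
    ext x
    constructor
    · rintro ⟨h, hh, rfl⟩; exact ⟨⟨h, hh⟩, rfl⟩
    · rintro ⟨⟨h, hh⟩, rfl⟩; exact ⟨⟨h, hh.2⟩, hh, rfl⟩
  have hX : ∀ x, x ∈ ((Subgroup.centralizer ({z} : Set G) ⊓ Subgroup.centralizer ({s} : Set G)).subgroupOf
        (Subgroup.centralizer ({z} : Set G))).map π ↔
      ∃ h : Subgroup.centralizer ({z} : Set G), (h : G) * s = s * h ∧ π h = x := by
    intro x
    constructor
    · rintro ⟨h, hh, rfl⟩
      exact ⟨h, Subgroup.mem_centralizer_singleton_iff.1 hh.2, rfl⟩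
    · rintro ⟨h, hh, rfl⟩
      exact ⟨h, ⟨h.2, Subgroup.mem_centralizer_singleton_iff.2 hh⟩, rfl⟩
  have hK : ∀ σ : M24, mBar σ = 1 → σ = 1 := by
    intro σ hσ
    have h4 := M.central_of_mk_one (g := permHom σ) hσ
    have h5 : IsMono ((permHom σ : Co0) : Equiv.Perm leechLattice) 0 (σ : Equiv.Perm GolayPt)⁻¹ := isMono_permHom σ
    have h6 : (σ : Equiv.Perm GolayPt)⁻¹ = 1 := by
      rcases h4 with h4 | h4
      · rw [h4] at h5; exact h5.perm_unique isMono_one
      · rw [h4, ← flipCo_one_eq] at h5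
        exact h5.perm_unique (isMono_flipCo _ _)
    apply Subtype.ext
    exact inv_eq_one.1 h6
  have hsX : flBar ⊔ mBar.range = ((Subgroup.centralizer ({z} : Set G) ⊓ Subgroup.centralizer ({s} : Set G)).subgroupOf
        (Subgroup.centralizer ({z} : Set G))).map π := by
    apply le_antisymm
    · rw [sup_le_iff]
      constructor
      · rw [← hE]
        apply Subgroup.map_mono
        intro x hx
        have hx1 : (x : G) ∈ Q' := hx.1
        have hx2 : (x : G) ∈ Subgroup.centralizer ({s} : Set G) :=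
          Subgroup.mem_centralizer_singleton_iff.2 (h'.central x hx1)
        exact Subgroup.mem_subgroupOf.2 ⟨x.2, hx2⟩
      · rintro _ ⟨σ, rfl⟩
        obtain ⟨h, hh, hπ⟩ := M.exists_lift_cent hs h'.ne_one hsz (permHom σ).2 ((isMono_permHom σ).cg none)
        rw [hX]
        exact ⟨h, hh, hπ⟩
    · intro x hx
      obtain ⟨h, hh, rfl⟩ := (hX x).1 hx
      obtain ⟨g, hg⟩ := M.exists_proj h
      obtain ⟨σ, hσ, c, hc, hm⟩ := L.frame g g.2 (M.cg_of_cent hs hh hg)
      have h4 : g = flipHom (Multiplicative.ofAdd ⟨c, hc⟩) * permHom ⟨σ⁻¹, inv_mem hσ⟩ := by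
        apply Subtype.ext
        apply hm.eq
        have h5 := (isMono_flipCo c hc).mul (isMono_permHom ⟨σ⁻¹, inv_mem hσ⟩)
        have h6 : (c + fun i => (0 : GolayPt → ZMod 2) ((1 : Equiv.Perm GolayPt) i)) = c := by
          ext i; simp
        rw [h6, mul_one] at h5
        have h7 : ((⟨σ⁻¹, inv_mem hσ⟩ : M24) : Equiv.Perm GolayPt)⁻¹ = σ := inv_inv σ
        rw [h7] at h5
        exact h5
      have h8 : (QuotientGroup.mk (flipHom (Multiplicative.ofAdd ⟨c, hc⟩)) : Spor.Co1) ∈ flBar := ⟨_, rfl⟩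
      have h9 : (QuotientGroup.mk (permHom ⟨σ⁻¹, inv_mem hσ⟩) : Spor.Co1) ∈ mBar.range := ⟨_, rfl⟩
      rw [hg, h4, QuotientGroup.mk_mul]
      exact Subgroup.mul_mem _ (Subgroup.mem_sup_left h8) (Subgroup.mem_sup_right h9)
  rw [hE]
  refine ⟨?_, ?_, ⟨⟨⟨?_⟩⟩, ?_⟩, ?_, mBar.range, ?_, ?_, hsX, ?_⟩
  · rw [← hsX]; exact le_sup_left
  · intro x hx y hy
    obtain ⟨h, hh, rfl⟩ := (hX x).1 hx
    rw [← hE] at hy ⊢
    obtain ⟨k, hk, rfl⟩ := hy
    refine ⟨h * k * h⁻¹, ⟨?_, (h * k * h⁻¹).2⟩, by rw [map_mul, map_mul, map_inv]⟩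
    exact h'.norm h hh k hk.1
  · rintro ⟨_, ⟨a, rfl⟩⟩ ⟨_, ⟨b, rfl⟩⟩
    apply Subtype.ext
    show ((QuotientGroup.mk' (Subgroup.center Co0)).comp flipHom) a * ((QuotientGroup.mk' (Subgroup.center Co0)).comp flipHom) b =
      ((QuotientGroup.mk' (Subgroup.center Co0)).comp flipHom) b * ((QuotientGroup.mk' (Subgroup.center Co0)).comp flipHom) a
    rw [← map_mul, ← map_mul, mul_comm]
  · rintro _ ⟨a, rfl⟩
    rw [← map_pow]
    have : a ^ 2 = 1 := by
      rw [pow_two]
      apply Multiplicative.toAdd.injective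
      apply Subtype.ext
      ext i
      show (a.toAdd : GolayPt → ZMod 2) i + (a.toAdd : GolayPt → ZMod 2) i = 0
      generalize (a.toAdd : GolayPt → ZMod 2) i = w
      revert w; decide
    rw [this, map_one]
  · rw [← h2]; exact h3
  · rw [← hsX]; exact le_sup_right
  · rw [eq_bot_iff]
    rintro _ ⟨⟨a, ha⟩, ⟨σ, rfl⟩⟩
    have h4 : (QuotientGroup.mk ((flipHom a)⁻¹ * permHom σ) : Spor.Co1) = 1 := by
      have h5 : (QuotientGroup.mk (flipHom a) : Spor.Co1) = QuotientGroup.mk (permHom σ) := ha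
      rw [QuotientGroup.mk_mul, QuotientGroup.mk_inv, h5, inv_mul_cancel]
    have h5 := M.central_of_mk_one h4
    have h6 : IsMono (((flipHom a)⁻¹ * permHom σ : Co0) : Equiv.Perm leechLattice) _
        ((σ : Equiv.Perm GolayPt)⁻¹ * (1 : Equiv.Perm GolayPt)⁻¹) :=
      (isMono_flipCo (a.toAdd : GolayPt → ZMod 2) a.toAdd.2).inv.mul (isMono_permHom σ)
    have h7 : (σ : Equiv.Perm GolayPt)⁻¹ * (1 : Equiv.Perm GolayPt)⁻¹ = 1 := by
      rcases h5 with h5 | h5
      · rw [h5] at h6; exact h6.perm_unique isMono_one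
      · rw [h5, ← flipCo_one_eq] at h6
        exact h6.perm_unique (isMono_flipCo _ _)
    have h8 : σ = 1 := by
      apply Subtype.ext
      rw [inv_one, mul_one, inv_eq_one] at h7
      exact h7
    rw [h8, map_one]
    exact Subgroup.one_mem _
  · exact ⟨(MonoidHom.ofInjective ((injective_iff_map_eq_one mBar).2 hK)).symm⟩

end Mon

section
variable {G : Type*} [Group G] [Finite G] {z : G} {Q : Subgroup (Subgroup.centralizer ({z} : Set G))} [Q.Normal]

theorem final_5410 (L : LeechFacts) (hM : IsOfMonsterType z Q) (s : G)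
    (hsQ : ∃ hsc : s ∈ Subgroup.centralizer ({z} : Set G), (⟨s, hsc⟩ : Subgroup.centralizer ({z} : Set G)) ∈ Q)
    (hs1 : s ≠ z) (g : G) (hg : g * z * g⁻¹ = s) (X E : Subgroup ((Subgroup.centralizer ({z} : Set G)) ⧸ Q))
    (hX : X = ((Subgroup.centralizer ({z} : Set G) ⊓ Subgroup.centralizer ({s} : Set G)).subgroupOf
      (Subgroup.centralizer ({z} : Set G))).map (QuotientGroup.mk' Q))
    (hE : E = (((Q.map (Subgroup.centralizer ({z} : Set G)).subtype).map (MulAut.conj g).toMonoidHom ⊓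
      Subgroup.centralizer ({z} : Set G)).subgroupOf (Subgroup.centralizer ({z} : Set G))).map
        (QuotientGroup.mk' Q)) : SplitM24 X E := by
  obtain ⟨hset, e, ψ, hψ⟩ := hM
  have M := mon_of_setting Q hset hψ
  have hs := mem_map_iff.2 hsQ
  obtain ⟨h', hz⟩ := M.toPL.pair (by rw [M.card]; norm_num) hg hs hs1
  have hcard' : Nat.card ((Q.map (Subgroup.centralizer ({z} : Set G)).subtype).map
    (MulAut.conj g).toMonoidHom) = 2 ^ 25 := by rw [card_map_conj, M.card]
  obtain ⟨v, hv⟩ := M.r_ex s hs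
  obtain ⟨w, hw, hw64⟩ := M.type_four L hv h' hcard' hz hs1
  obtain ⟨g₀, hg₀, hcg⟩ := L.t4 w (v8 none) hw64 (sqNorm_v8 _)
  have key := (M.twist hg₀).split_std L (M.twist_four hw hg₀ hcg) h' hcard' hz hs1
  let ε : (Subgroup.centralizer ({z} : Set G)) ⧸ Q ≃* Spor.Co1 :=
    e.trans (MulAut.conj (QuotientGroup.mk (⟨g₀, hg₀⟩ : Co0) : Spor.Co1))
  apply SplitM24.of_map ε
  rw [hX, hE, Subgroup.map_map, Subgroup.map_map]
  exact key

end

end Cfsg.Agent.H90
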