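import Cfsg.Agent.H90.StemTwo

/-!
# More criteria for Schur multipliers: kernels of order 2 and 4 (M12)
(owner: helper90)
-/

set_option autoImplicit false

namespace Cfsg.Agent.H90.Stem

open Cfsg Cfsg.Agent.Schur
open scoped commutatorElement

universe u v
variable {Γ : Type u} {G : Type v} [Group Γ] [Group G]

theorem exists_ker_dvd_aux (d : ℕ) : ∀ (n : ℕ) (Γ : Type u) [Group Γ] [Finite Γ] (σ : Γ →* G),
    IsStemExtension σ → Nat.card σ.ker = n → d ∣ n →
    ∃ (Γ' : Type u) (_ : Group Γ') (_ : Finite Γ') (σ' : Γ' →* G), IsStemExtension σ' ∧ Nat.card σ'.ker = d := by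
  intro n
  induction n using Nat.strong_induction_on with
  | _ n ih =>
    intro Γ _ _ σ hσ hn hp
    by_cases hnp : n = d
    · exact ⟨Γ, inferInstance, inferInstance, σ, hσ, hn.trans hnp⟩
    obtain ⟨m, rfl⟩ := hp
    have hm1 : m ≠ 1 := fun h => hnp (by rw [h, mul_one])
    have hcpos : 0 < Nat.card σ.ker := Nat.card_pos
    have hd0 : 0 < d := by
      rcases Nat.eq_zero_or_pos d with h | h
      · rw [hn, h, zero_mul] at hcpos
        exact absurd hcpos (lt_irrefl _)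
      · exact h
    have hm0 : 0 < m := by
      rcases Nat.eq_zero_or_pos m with h | h
      · rw [hn, h, mul_zero] at hcpos
        exact absurd hcpos (lt_irrefl _)
      · exact h
    obtain ⟨q, hq, r, rfl⟩ := Nat.exists_prime_and_dvd hm1
    have : Fact q.Prime := ⟨hq⟩
    obtain ⟨x, hx⟩ := exists_prime_orderOf_dvd_card' (G := σ.ker) q (by rw [hn]; exact ⟨d * r, by ring⟩)
    obtain ⟨Γ', i1, i2, σ', π, -, -, -, hst, hc⟩ := quot_stem hσ (Subgroup.zpowers (x : Γ))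
      (by rw [Subgroup.zpowers_le]; exact x.2)
    rw [Nat.card_zpowers, Subgroup.orderOf_coe, hx, hn] at hc
    have hc' : Nat.card σ'.ker = d * r := by
      apply Nat.eq_of_mul_eq_mul_right hq.pos
      rw [hc]; ring
    have hr : 0 < r := by
      rcases Nat.eq_zero_or_pos r with h | h
      · rw [h, mul_zero] at hm0
        exact absurd hm0 (lt_irrefl _)
      · exact h
    have hlt : d * r < d * (q * r) := by
      apply Nat.mul_lt_mul_of_pos_left _ hd0
      have := hq.one_lt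
      nlinarith
    exact @ih (d * r) hlt Γ' i1 i2 σ' hst hc' (Dvd.intro _ rfl)

/-- Reduction to a kernel of order `d`. -/
theorem exists_ker_dvd [Finite Γ] {d : ℕ} {σ : Γ →* G} (hσ : IsStemExtension σ) (hp : d ∣ Nat.card σ.ker) :
    ∃ (Γ' : Type u) (_ : Group Γ') (_ : Finite Γ') (σ' : Γ' →* G), IsStemExtension σ' ∧ Nat.card σ'.ker = d :=
  exists_ker_dvd_aux d _ Γ σ hσ rfl hp

/-- The complement in the preimage of an abelian group, given by a fixed point free element of order 3. -/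
theorem split_fpf' {σ : Γ →* G} (hσ : IsStemExtension σ) (h2 : Nat.card σ.ker = 2) (N : Subgroup G)
    (hcomm : ∀ x y : Γ, σ x ∈ N → σ y ∈ N → x * y = y * x) (τ : G) (hτ3 : τ * τ * τ = 1)
    (hτN : ∀ n ∈ N, τ * n * τ⁻¹ ∈ N) (hfpf : ∀ n ∈ N, n * (τ * n * τ⁻¹) * (τ * τ * n * (τ * τ)⁻¹) = 1) :
    ∃ C : Subgroup Γ, (∀ y ∈ C, σ y ∈ N) ∧ (∀ n ∈ N, ∃ y ∈ C, σ y = n) ∧ (∀ y ∈ C, σ y = 1 → y = 1) ∧
      (∀ g : Γ, (∀ n ∈ N, σ g * n * (σ g)⁻¹ ∈ N) → (σ g * τ * (σ g)⁻¹ = τ ∨ σ g * τ * (σ g)⁻¹ = τ⁻¹) →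
        ∀ y ∈ C, g * y * g⁻¹ ∈ C) := by
  obtain ⟨t, rfl, ht3⟩ := exists_lift_three hσ h2 hτ3
  have ht1 : ∀ y, σ y ∈ N → σ (t * y * t⁻¹) ∈ N := by
    intro y hy
    simp only [map_mul, map_inv]
    exact hτN _ hy
  have ht2 : ∀ y, σ y ∈ N → σ (t * t * y * (t * t)⁻¹) ∈ N := by
    intro y hy
    have : t * t * y * (t * t)⁻¹ = t * (t * y * t⁻¹) * t⁻¹ := by group
    rw [this]
    exact ht1 _ (ht1 _ hy)
  let f : Γ → Γ := fun y => y * (t * y * t⁻¹) * (t * t * y * (t * t)⁻¹)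
  have hf : ∀ y, f y = y * (t * y * t⁻¹) * (t * t * y * (t * t)⁻¹) := fun _ => rfl
  have hfmul : ∀ x y, σ x ∈ N → σ y ∈ N → f (x * y) = f x * f y := by
    intro x y hx hy
    rw [hf, hf, hf]
    have e1 : t * (x * y) * t⁻¹ = (t * x * t⁻¹) * (t * y * t⁻¹) := by group
    have e2 : t * t * (x * y) * (t * t)⁻¹ = (t * t * x * (t * t)⁻¹) * (t * t * y * (t * t)⁻¹) := by group
    rw [e1, e2]
    have c1 := hcomm _ _ (ht1 x hx) hy
    have c2 := hcomm _ _ (ht2 x hx) hy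
    have c3 := hcomm _ _ (ht2 x hx) (ht1 y hy)
    set a := t * x * t⁻¹
    set b := t * t * x * (t * t)⁻¹
    set a' := t * y * t⁻¹
    set b' := t * t * y * (t * t)⁻¹
    calc x * y * (a * a') * (b * b') = x * (y * a) * (a' * b) * b' := by group
      _ = x * (a * y) * (b * a') * b' := by rw [c1, c3]
      _ = x * a * (y * b) * a' * b' := by group
      _ = x * a * (b * y) * a' * b' := by rw [c2]
      _ = x * a * b * (y * a' * b') := by group
  have hfker : ∀ y, σ y ∈ N → σ (f y) = 1 := by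
    intro y hy
    rw [hf]
    simp only [map_mul, map_inv]
    have := hfpf _ hy
    simpa only [map_mul, map_inv] using this
  have hfk : ∀ k, σ k = 1 → f k = k := by
    intro k hk
    have hc := ker_comm hσ hk
    rw [hf, hc t, hc (t * t), mul_inv_cancel_right, mul_inv_cancel_right, ker_sq h2 hk, one_mul]
  have h1N : σ (1 : Γ) ∈ N := by rw [map_one]; exact N.one_mem
  let C : Subgroup Γ :=
    { carrier := {y | σ y ∈ N ∧ f y = 1}
      one_mem' := ⟨h1N, hfk 1 (map_one σ)⟩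
      mul_mem' := by
        rintro x y ⟨hx, hfx⟩ ⟨hy, hfy⟩
        exact ⟨by rw [map_mul]; exact N.mul_mem hx hy, by rw [hfmul x y hx hy, hfx, hfy, mul_one]⟩
      inv_mem' := by
        rintro x ⟨hx, hfx⟩
        have hx' : σ x⁻¹ ∈ N := by rw [map_inv]; exact N.inv_mem hx
        refine ⟨hx', ?_⟩
        have h3 := hfmul x x⁻¹ hx hx'
        rw [mul_inv_cancel, hfx, one_mul, hfk 1 (map_one σ)] at h3
        exact h3.symm }
  refine ⟨C, fun y hy => hy.1, ?_, ?_, ?_⟩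
  · intro n hn
    obtain ⟨y, rfl⟩ := hσ.1 n
    have hk := hfker y hn
    refine ⟨y * f y, ⟨by rw [map_mul, hk, mul_one]; exact hn, ?_⟩, by rw [map_mul, hk, mul_one]⟩
    rw [hfmul y (f y) hn (by rw [hk]; exact N.one_mem), hfk _ hk, ker_sq h2 hk]
  · intro y hy hy1
    rw [← hfk y hy1]; exact hy.2
  · intro g hg hgt y hy
    have hgy : σ (g * y * g⁻¹) ∈ N := by
      simp only [map_mul, map_inv]; exact hg _ hy.1
    refine ⟨hgy, ?_⟩
    have hfy : f y = 1 := hy.2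
    rw [hf] at hfy
    have hs3 : (g⁻¹ * t * g) * (g⁻¹ * t * g) * (g⁻¹ * t * g) = 1 := by
      calc (g⁻¹ * t * g) * (g⁻¹ * t * g) * (g⁻¹ * t * g) = g⁻¹ * (t * t * t) * g := by group
        _ = 1 := by rw [ht3, mul_one, inv_mul_cancel]
    have hs : ∀ s : Γ, s = g⁻¹ * t * g → f (g * y * g⁻¹) = g * (y * (s * y * s⁻¹) * (s * s * y * (s * s)⁻¹)) * g⁻¹ := by
      intro s hs
      rw [hf, hs]; group
    rcases hgt with hgt | hgt
    · have e0 : g⁻¹ * t * g = t := by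
        apply lift_three_unique hσ h2 hs3 ht3
        rw [map_mul, map_mul, map_inv]
        calc (σ g)⁻¹ * σ t * σ g = (σ g)⁻¹ * (σ g * σ t * (σ g)⁻¹) * σ g := by rw [hgt]
          _ = σ t := by group
      rw [hs t e0.symm, hfy, mul_one, mul_inv_cancel]
    · have ht3' : t⁻¹ * t⁻¹ * t⁻¹ = 1 := by
        calc t⁻¹ * t⁻¹ * t⁻¹ = (t * t * t)⁻¹ := by group
          _ = 1 := by rw [ht3, inv_one]
      have e0 : g⁻¹ * t * g = t⁻¹ := by
        apply lift_three_unique hσ h2 hs3 ht3'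
        rw [map_mul, map_mul, map_inv, map_inv]
        have h5 : σ t = (σ g * σ t * (σ g)⁻¹)⁻¹ := by rw [hgt, inv_inv]
        calc (σ g)⁻¹ * σ t * σ g = (σ g)⁻¹ * (σ g * σ t * (σ g)⁻¹)⁻¹ * σ g := by rw [← h5]
          _ = (σ t)⁻¹ := by group
      have h6 : t⁻¹ = t * t := (eq_inv_of_mul_eq_one_left ht3).symm
      have h7 : t⁻¹ * t⁻¹ = t := eq_inv_of_mul_eq_one_left ht3' |>.trans (inv_inv t)
      have h8 : t⁻¹ * y * (t⁻¹)⁻¹ = t * t * y * (t * t)⁻¹ := congrArg (fun r => r * y * r⁻¹) h6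
      have h9 : t⁻¹ * t⁻¹ * y * (t⁻¹ * t⁻¹)⁻¹ = t * y * t⁻¹ := congrArg (fun r => r * y * r⁻¹) h7
      rw [hs t⁻¹ e0.symm, h8, h9, mul_assoc y, ← hcomm _ _ (ht1 y hy.1) (ht2 y hy.1), ← mul_assoc y, hfy, mul_one,
        mul_inv_cancel]

/-- Chain step, by non-membership. -/
theorem chain_step' [Finite Γ] {σ : Γ →* G} {C : Subgroup Γ}
    (hC : ∀ y ∈ C, σ y = 1 → y = 1) {x : Γ} (hxp : x ^ 2 ∈ C) (hn : ∀ y ∈ C, x * y * x⁻¹ ∈ C)
    (hx : ∀ y ∈ C, σ y ≠ σ x) :
    Nat.card (C ⊔ Subgroup.zpowers x : Subgroup Γ) = 2 * Nat.card C ∧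
      (∀ y ∈ C ⊔ Subgroup.zpowers x, ∃ c ∈ C, y = c ∨ y = c * x) ∧
      ∀ y ∈ C ⊔ Subgroup.zpowers x, σ y = 1 → y = 1 := by
  have hxC : x ∉ C := fun h => hx x h rfl
  obtain ⟨h1, h2⟩ := adj_card Nat.prime_two hn hxp hxC
  have h3 : ∀ y ∈ C ⊔ Subgroup.zpowers x, ∃ c ∈ C, y = c ∨ y = c * x := by
    intro y hy
    obtain ⟨c, hc, i, hi, rfl⟩ := h2 y hy
    refine ⟨c, hc, ?_⟩
    interval_cases i
    · left; rw [pow_zero, mul_one]
    · right; rw [pow_one]
  refine ⟨h1, h3, ?_⟩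
  intro y hy hy1
  obtain ⟨c, hc, rfl | rfl⟩ := h3 y hy
  · exact hC y hc hy1
  · exfalso
    apply hx c⁻¹ (C.inv_mem hc)
    rw [map_mul] at hy1
    rw [map_inv]
    exact (eq_inv_of_mul_eq_one_right hy1).symm

/-- The configuration `4² : 2²` in `M12`. -/
theorem four_sq_false [Finite Γ] [Finite G] {σ : Γ →* G} (hσ : IsStemExtension σ) (h2 : Nat.card σ.ker = 2)
    {x y j τ s : G} (hxy : x * y = y * x)
    (hLj : ∀ t, σ t = j → t * t = 1) (hLjx : ∀ t, σ t = j * x → t * t = 1) (hLjy : ∀ t, σ t = j * y → t * t = 1)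
    (hLjxy : ∀ t, σ t = j * (x * y) → t * t = 1) (hLs : ∀ t, σ t = s → t * t = 1)
    (hLjs : ∀ t, σ t = j * s → t * t = 1)
    (hjx : j * x * j⁻¹ = x⁻¹) (hjy : j * y * j⁻¹ = y⁻¹) (hτ3 : τ * τ * τ = 1)
    (hτN : ∀ n ∈ Subgroup.closure {x, y}, τ * n * τ⁻¹ ∈ Subgroup.closure {x, y})
    (hfpf : ∀ n ∈ Subgroup.closure {x, y}, n * (τ * n * τ⁻¹) * (τ * τ * n * (τ * τ)⁻¹) = 1)
    (hjτ : j * τ * j⁻¹ = τ) (hsτ : s * τ * s⁻¹ = τ⁻¹)
    (hsN : ∀ n ∈ Subgroup.closure {x, y}, s * n * s⁻¹ ∈ Subgroup.closure {x, y})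
    (hsj : s * j = j * s) (hx2 : x * x ≠ 1) (hsx : s * x * s⁻¹ ≠ x) (hsx' : s * x * s⁻¹ ≠ x⁻¹)
    {k m : ℕ} (hG : Nat.card G = 2 ^ k * m) (hm : ¬ 2 ∣ m)
    (hk : 2 ^ k ∣ 4 * Nat.card (Subgroup.closure {x, y})) : False := by
  obtain ⟨X, rfl⟩ := hσ.1 x
  obtain ⟨Y, rfl⟩ := hσ.1 y
  obtain ⟨J, rfl⟩ := hσ.1 j
  obtain ⟨S, rfl⟩ := hσ.1 s
  have hJJ : J * J = 1 := hLj J rfl
  have hJ1 : J⁻¹ = J := inv_eq_of_mul_eq_one_right hJJ
  have hSS : S * S = 1 := hLs S rfl
  have inv1 : ∀ Z : Γ, (J * Z) * (J * Z) = 1 → J * Z * J = Z⁻¹ := by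
    intro Z h
    have : J * Z * J * Z = 1 := by rw [← h]; group
    exact eq_inv_of_mul_eq_one_left this
  have iX := inv1 X (hLjx _ (map_mul σ J X))
  have iY := inv1 Y (hLjy _ (map_mul σ J Y))
  have iXY := inv1 (X * Y) (hLjxy _ (by rw [map_mul, map_mul]))
  have hXY : X * Y = Y * X := by
    have e : J * (X * Y) * J = (J * X * J) * (J * Y * J) := by
      calc J * (X * Y) * J = J * X * 1 * (Y * J) := by group
        _ = J * X * (J * J) * (Y * J) := by rw [hJJ]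
        _ = _ := by group
    rw [iX, iY, iXY] at e
    calc X * Y = ((X * Y)⁻¹)⁻¹ := by group
      _ = (X⁻¹ * Y⁻¹)⁻¹ := by rw [e]
      _ = Y * X := by group
  have hcomm := comap_pair_comm hσ hXY
  have hNc : ∀ a ∈ Subgroup.closure {σ X, σ Y}, ∀ b ∈ Subgroup.closure {σ X, σ Y}, a * b = b * a := by
    apply closure_comm
    rintro a (rfl | rfl) b (rfl | rfl)
    · rfl
    · exact hxy
    · exact hxy.symm
    · rfl
  have hxN : σ X ∈ Subgroup.closure {σ X, σ Y} := Subgroup.subset_closure (Set.mem_insert _ _)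
  have hjN : ∀ n ∈ Subgroup.closure {σ X, σ Y}, σ J * n * (σ J)⁻¹ ∈ Subgroup.closure {σ X, σ Y} := by
    have h : Subgroup.closure {σ X, σ Y} ≤ (Subgroup.closure {σ X, σ Y}).comap (MulAut.conj (σ J)).toMonoidHom := by
      rw [Subgroup.closure_le]
      rintro a (rfl | rfl)
      · change σ J * σ X * (σ J)⁻¹ ∈ Subgroup.closure {σ X, σ Y}
        rw [hjx]
        exact Subgroup.inv_mem _ hxN
      · change σ J * σ Y * (σ J)⁻¹ ∈ Subgroup.closure {σ X, σ Y}
        rw [hjy]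
        exact Subgroup.inv_mem _ (Subgroup.subset_closure (Set.mem_insert_of_mem _ rfl))
    exact fun n hn => h hn
  obtain ⟨C, hCN, hNC, hC1, hCn⟩ := split_fpf' hσ h2 (Subgroup.closure {σ X, σ Y})
    (fun a b ha hb => hcomm a ha b hb) τ hτ3 hτN hfpf
  have hcardC : Nat.card C = Nat.card (Subgroup.closure {σ X, σ Y}) := by
    let φ : C →* (Subgroup.closure {σ X, σ Y}) :=
      { toFun := fun y => ⟨σ y, hCN y y.2⟩
        map_one' := Subtype.ext (map_one σ)
        map_mul' := fun a b => Subtype.ext (map_mul σ _ _) }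
    have hφ : Function.Bijective φ := by
      constructor
      · rw [injective_iff_map_eq_one]
        intro y hy
        exact Subtype.ext (hC1 y y.2 (congrArg Subtype.val hy))
      · rintro ⟨n, hn⟩
        obtain ⟨y, hy, hyn⟩ := hNC n hn
        exact ⟨⟨y, hy⟩, Subtype.ext hyn⟩
    exact Nat.card_congr (Equiv.ofBijective φ hφ)
  have hJC : ∀ z ∈ C, J * z * J⁻¹ ∈ C := hCn J hjN (Or.inl hjτ)
  have hSC : ∀ z ∈ C, S * z * S⁻¹ ∈ C := hCn S hsN (Or.inr hsτ)
  obtain ⟨c1, m1, i1⟩ := chain_step' hC1 (x := J) (by rw [pow_two, hJJ]; exact C.one_mem) hJC (by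
    intro y hy h
    have h3 := hCN y hy
    rw [h] at h3
    have h4 := hNc _ h3 _ hxN
    have h5 : σ J * σ X * (σ J)⁻¹ = σ X := by rw [h4, mul_inv_cancel_right]
    rw [hjx] at h5
    apply hx2
    calc σ X * σ X = σ X * (σ X)⁻¹ := by rw [h5]
      _ = 1 := mul_inv_cancel _)
  have hJS : S * J = J * S := by
    have h3 : (J * S) * (J * S) = 1 := hLjs _ (map_mul σ J S)
    exact (comm_of_sq hJJ hSS h3).symm
  have hSD : ∀ z ∈ C ⊔ Subgroup.zpowers J, S * z * S⁻¹ ∈ C ⊔ Subgroup.zpowers J := by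
    apply conj_mem_sup
    · intro z hz
      exact (le_sup_left : C ≤ C ⊔ Subgroup.zpowers J) (hSC z hz)
    · rw [hJS, mul_inv_cancel_right]
      exact (le_sup_right : Subgroup.zpowers J ≤ C ⊔ Subgroup.zpowers J) (Subgroup.mem_zpowers J)
  obtain ⟨c2, m2, i2⟩ := chain_step' i1 (x := S) (by rw [pow_two, hSS]; exact Subgroup.one_mem _) hSD (by
    intro y hy h
    obtain ⟨c, hc, rfl | rfl⟩ := m1 y hy
    · have h3 := hCN y hc
      rw [h] at h3
      have h4 := hNc _ h3 _ hxN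
      exact hsx (by rw [h4, mul_inv_cancel_right])
    · have h3 := hCN c hc
      rw [map_mul] at h
      have h4 := hNc _ h3 _ (Subgroup.inv_mem _ hxN)
      apply hsx'
      rw [← h]
      calc σ c * σ J * σ X * (σ c * σ J)⁻¹ = σ c * (σ J * σ X * (σ J)⁻¹) * (σ c)⁻¹ := by group
        _ = (σ X)⁻¹ := by rw [hjx, h4, mul_inv_cancel_right])
  have : Fact (Nat.Prime 2) := ⟨Nat.prime_two⟩
  refine false_of_complement hσ (p := 2) (by rw [h2]) _ i2 ?_
  apply not_dvd_index Nat.prime_two hG hm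
  have : Nat.card ((C ⊔ Subgroup.zpowers J ⊔ Subgroup.zpowers S).map σ) =
      Nat.card (C ⊔ Subgroup.zpowers J ⊔ Subgroup.zpowers S : Subgroup Γ) := by
    let φ : (C ⊔ Subgroup.zpowers J ⊔ Subgroup.zpowers S : Subgroup Γ) →* _ := σ.subgroupMap _
    have hφ : Function.Bijective φ := by
      refine ⟨?_, σ.subgroupMap_surjective _⟩
      rw [injective_iff_map_eq_one]
      intro y hy
      exact Subtype.ext (i2 y y.2 (congrArg Subtype.val hy))
    exact (Nat.card_congr (Equiv.ofBijective φ hφ)).symm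
  rw [this, c2, c1, hcardC]
  calc 2 ^ k ∣ 4 * Nat.card (Subgroup.closure {σ X, σ Y}) := hk
    _ = 2 * (2 * Nat.card (Subgroup.closure {σ X, σ Y})) := by ring

/-- No stem extension with kernel of order 4, if in those with kernel of order 2 the lifts of `u` are not
involutions and `u` lies in a four-group all of whose involutions are conjugate. -/
theorem no_four [Finite Γ] {σ : Γ →* G} (hσ : IsStemExtension σ) (h4 : Nat.card σ.ker = 4) {u g₁ g₂ : G}
    (hu : u * u = 1) (hu' : u * (g₁ * u * g₁⁻¹) = (g₁ * u * g₁⁻¹) * u)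
    (hg₂ : g₂ * u * g₂⁻¹ = u * (g₁ * u * g₁⁻¹))
    (hkey : ∀ (Γ' : Type u) [Group Γ'] [Finite Γ'] (σ' : Γ' →* G), IsStemExtension σ' → Nat.card σ'.ker = 2 →
      ∀ t, σ' t = u → t * t ≠ 1) : False := by
  obtain ⟨U, rfl⟩ := hσ.1 u
  obtain ⟨A, rfl⟩ := hσ.1 g₁
  obtain ⟨B, rfl⟩ := hσ.1 g₂
  have hc1 : σ (U * U) = 1 := by rw [map_mul, hu]
  set c := U * U with hc
  have hcc := ker_comm hσ hc1
  have hc2 : c * c ≠ 1 := by
    intro hcc1
    obtain ⟨l, hl1, hl2, hl3⟩ : ∃ l : Γ, σ l = 1 ∧ orderOf l = 2 ∧ c ∈ Subgroup.zpowers l := by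
      by_cases h : c = 1
      · have : Fact (Nat.Prime 2) := ⟨Nat.prime_two⟩
        obtain ⟨l, hl⟩ := exists_prime_orderOf_dvd_card' (G := σ.ker) 2 (by rw [h4]; norm_num)
        refine ⟨l, l.2, by rw [Subgroup.orderOf_coe, hl], ?_⟩
        rw [h]; exact Subgroup.one_mem _
      · exact ⟨c, hc1, orderOf_eq_prime (by rw [pow_two, hcc1]) h, Subgroup.mem_zpowers c⟩
    obtain ⟨Γ', i1, i2, σ', π, hπ, hπk, hcomp, hst, hcard⟩ := quot_stem hσ (Subgroup.zpowers l)
      (by rw [Subgroup.zpowers_le]; exact hl1)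
    rw [Nat.card_zpowers, hl2, h4] at hcard
    have hcard' : Nat.card σ'.ker = 2 := by omega
    refine @hkey Γ' i1 i2 σ' hst hcard' (π U) ?_ ?_
    · rw [← hcomp]; rfl
    · rw [← map_mul, ← hc]
      have : c ∈ π.ker := by rw [hπk]; exact hl3
      exact this
  set V := A * U * A⁻¹ with hV
  have hVV : V * V = c := by
    calc V * V = A * (U * U) * A⁻¹ := by rw [hV]; group
      _ = c := by rw [← hc, hcc A, mul_inv_cancel_right]
  set W := B * U * B⁻¹ with hW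
  have hWW : W * W = c := by
    calc W * W = B * (U * U) * B⁻¹ := by rw [hW]; group
      _ = c := by rw [← hc, hcc B, mul_inv_cancel_right]
  have hσV : σ V = σ A * σ U * (σ A)⁻¹ := by rw [hV]; simp only [map_mul, map_inv]
  have hσW : σ W = σ U * σ V := by
    rw [hσV, ← hg₂, hW]; simp only [map_mul, map_inv]
  set κ := (U * V)⁻¹ * W with hκ
  have hκ1 : σ κ = 1 := by rw [hκ, map_mul, map_inv, map_mul, hσW, inv_mul_cancel]
  have hκc := ker_comm hσ hκ1
  have hκ4 : (κ * κ) * (κ * κ) = 1 := by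
    have h1 : (⟨κ, hκ1⟩ : σ.ker) ^ Nat.card σ.ker = 1 := pow_card_eq_one'
    rw [h4] at h1
    have h2 : κ ^ 4 = 1 := congrArg Subtype.val h1
    calc (κ * κ) * (κ * κ) = κ ^ 4 := by simp only [pow_succ, pow_zero, one_mul, mul_assoc]
      _ = 1 := h2
  set d := (U * V)⁻¹ * (V * U) with hd
  have hd1 : σ d = 1 := by
    rw [hd]
    simp only [map_mul, map_inv]
    rw [hσV, ← hu']; group
  have hdc := ker_comm hσ hd1
  have e1 : V * U = U * V * d := by rw [hd]; group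
  have hdd : d * d = 1 := by
    have h1 : V * V * U = U * (V * V) * (d * d) := by
      calc V * V * U = V * (V * U) := by group
        _ = V * (U * V * d) := by rw [e1]
        _ = (V * U) * V * d := by group
        _ = (U * V * d) * V * d := by rw [e1]
        _ = U * V * (d * V) * d := by group
        _ = U * V * (V * d) * d := by rw [← hdc V]
        _ = U * (V * V) * (d * d) := by group
    rw [hVV, ← hcc U] at h1
    exact (mul_eq_left.1 h1.symm)
  have e2 : W = U * V * κ := by rw [hκ]; group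
  have e3 : (U * V) * (U * V) = c * c * d := by
    calc (U * V) * (U * V) = U * (V * U) * V := by group
      _ = U * (U * V * d) * V := by rw [e1]
      _ = (U * U) * V * (d * V) := by group
      _ = (U * U) * V * (V * d) := by rw [← hdc V]
      _ = (U * U) * (V * V) * d := by group
      _ = c * c * d := by rw [hVV, ← hc]
  have e4 : c = c * c * d * (κ * κ) := by
    calc c = W * W := hWW.symm
      _ = U * V * (κ * (U * V)) * κ := by rw [e2]; group
      _ = U * V * ((U * V) * κ) * κ := by rw [← hκc (U * V)]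
      _ = ((U * V) * (U * V)) * (κ * κ) := by group
      _ = c * c * d * (κ * κ) := by rw [e3]
  have e5 : c * (d * (κ * κ)) = 1 := by
    have : c * (c * (d * (κ * κ))) = c := by
      rw [← mul_assoc, ← mul_assoc]; exact e4.symm
    exact mul_eq_left.1 this
  have e6 : c⁻¹ = d * (κ * κ) := inv_eq_of_mul_eq_one_right e5
  apply hc2
  have e7 : c⁻¹ * c⁻¹ = 1 := by
    rw [e6]
    calc d * (κ * κ) * (d * (κ * κ)) = d * ((κ * κ) * d) * (κ * κ) := by group
      _ = d * (d * (κ * κ)) * (κ * κ) := by rw [hdc (κ * κ)]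
      _ = (d * d) * ((κ * κ) * (κ * κ)) := by group
      _ = 1 := by rw [hdd, hκ4, one_mul]
  rw [← mul_inv_rev] at e7
  exact inv_eq_one.1 e7

end Cfsg.Agent.H90.Stem
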