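import Cfsg.Agent.H90.Mult23
import Cfsg.Agent.H90.StemMore

/-!
# The Schur multiplier of `M12`: upper bound
(owner: helper90)
-/

set_option autoImplicit false

namespace Cfsg.Agent.H90.Tab

open Cfsg Cfsg.Agent.Golay Cfsg.Agent.Golay.Orb Cfsg.Agent.H90.Stem Cfsg.Agent.Schur
open scoped Pointwise commutatorElement

def l4 : List ℕ := [0x8aa6fa22f2a96093ac8db31c618820, 0xbae957b6289ba44b1cd0524ac18820, 0x2ae6fa41cdadd0cb1d3251a2400462, 0x8da957b6e89964c5a930399c410c01]

def qx : ℕ := 0x8aa6fa22f2a96093ac8db31c618820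

def qy : ℕ := 0x2ae6fa41cdadd0cb1d3251a2400462

def qj : ℕ := 0x71e6faa0ada5e0952d92b122600443

def qt : ℕ := 0x7c4eab26645d0c0bb86c28aa193608

def qs : ℕ := 0x2d176519cc3c530acda47cae810c01

def qx2 : ℕ := 0xbae957b6289ba44b1cd0524ac18820

def qy2 : ℕ := 0x8da957b6e89964c5a930399c410c01

def qtk : List ℕ := [15, 10, 1, 2]

def qsk : List ℕ := [3, 2, 5, 10]

def qv : ℕ := 0xbae957b6289ba44b1cd0524ac18820

def qw : ℕ := 0x8adf3a22edaba04b2932398ac10c20

def qz : ℕ := 0xbae6fac232a1504b292d399cc18801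

def qc_w : ℕ := 0x3deafa21509ba428ad8db10a332420

def qc_z : ℕ := 0x8bd76706ec29c10a4d04ab55232462

def qc_vw : ℕ := 0x5de8fac2c89964389d2d519c223020

def qc_vz : ℕ := 0xb38ea98628a2c102d53279aed20d82

def qc_wz : ℕ := 0x55caea8ed0a1c4d8cc28781723112c

def qc_vwz : ℕ := 0xa9ecb8b1e2bd0805392329a616c248

def qc_jx : ℕ := 0xa962eb04e85d046bbc1098d492498d

def qc_jy : ℕ := 0x2a9677b2809b932b5c8189aad40e02

def qc_jxy : ℕ := 0xb38ea98628a2c102d53279aed20d82

def qc_s : ℕ := 0xbd22b73662a946879c89b49460b200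

def qc_js : ℕ := 0xbbd74991503c5232b832b1aa8131a0

def qc_u1 : ℕ := 0xbacaea4222acd093a883b19ec6c820

def qc_u2 : ℕ := 0xbaa6f70a2d2d46c59c92b268682020

def qu1 : ℕ := 0x9adc5b85e38d406b1c82532898224d

-- masks 1 3

theorem t12 {n : ℕ} (h : (validM24 n && Nat.beq (pmask n 340831) 340831) = true) :
    IsTable n (el Spor.M12 n : Equiv.Perm GolayPt) := by
  rw [Bool.and_eq_true] at h
  exact el_tab (inSub12 h.1 h.2)

/-- conjugates of `v` in `M12` -/
def CP (v : ℕ) (a : Spor.M12) : Prop := ∃ g : Spor.M12, g * el Spor.M12 v * g⁻¹ = a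

theorem cp_conj {v : ℕ} (a b : Spor.M12) (ha : CP v a) (hb : CP v b) : ∃ g, g * a * g⁻¹ = b := by
  obtain ⟨g, rfl⟩ := ha
  obtain ⟨k, rfl⟩ := hb
  exact ⟨k * g⁻¹, by group⟩

theorem cp_sq {v : ℕ} (hv : el Spor.M12 v * el Spor.M12 v = 1) (a : Spor.M12) (ha : CP v a) : a * a = 1 := by
  obtain ⟨g, rfl⟩ := ha
  calc g * el Spor.M12 v * g⁻¹ * (g * el Spor.M12 v * g⁻¹) = g * (el Spor.M12 v * el Spor.M12 v) * g⁻¹ := by group
    _ = 1 := by rw [hv, mul_one, mul_inv_cancel]

theorem cp_tab {v n c : ℕ} {a : Spor.M12} (hv : IsTable v (el Spor.M12 v : Equiv.Perm GolayPt))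
    (ha : IsTable n (a : Equiv.Perm GolayPt))
    (hc : (validM24 c && Nat.beq (pmask c 340831) 340831) = true) (h : Nat.beq (pmul c v) (pmul n c) = true) :
    CP v a := ⟨el Spor.M12 c, conj_eq (t12 hc) hv ha h⟩

theorem qx_t : IsTable qx (el Spor.M12 qx : Equiv.Perm GolayPt) := t12 (by decide +kernel)
theorem qy_t : IsTable qy (el Spor.M12 qy : Equiv.Perm GolayPt) := t12 (by decide +kernel)
theorem qx2_t : IsTable qx2 (el Spor.M12 qx2 : Equiv.Perm GolayPt) := t12 (by decide +kernel)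
theorem qy2_t : IsTable qy2 (el Spor.M12 qy2 : Equiv.Perm GolayPt) := t12 (by decide +kernel)
theorem qj_t : IsTable qj (el Spor.M12 qj : Equiv.Perm GolayPt) := t12 (by decide +kernel)
theorem qt_t : IsTable qt (el Spor.M12 qt : Equiv.Perm GolayPt) := t12 (by decide +kernel)
theorem qs_t : IsTable qs (el Spor.M12 qs : Equiv.Perm GolayPt) := t12 (by decide +kernel)
theorem qv_t : IsTable qv (el Spor.M12 qv : Equiv.Perm GolayPt) := t12 (by decide +kernel)
theorem qw_t : IsTable qw (el Spor.M12 qw : Equiv.Perm GolayPt) := t12 (by decide +kernel)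
theorem qz_t : IsTable qz (el Spor.M12 qz : Equiv.Perm GolayPt) := t12 (by decide +kernel)
theorem qu1_t : IsTable qu1 (el Spor.M12 qu1 : Equiv.Perm GolayPt) := t12 (by decide +kernel)

theorem l4_inSub : ∀ n ∈ l4, InSub Spor.M12 n := by
  have h : l4.all (fun n => validM24 n && Nat.beq (pmask n 340831) 340831) = true := by decide +kernel
  intro n hn
  have := List.all_eq_true.1 h n hn
  rw [Bool.and_eq_true] at this
  exact inSub12 this.1 this.2

theorem qx_sq : el Spor.M12 qx * el Spor.M12 qx = el Spor.M12 qx2 :=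
  eq_of_tab (mul_tab qx_t qx_t) qx2_t (by decide +kernel)
theorem qy_sq : el Spor.M12 qy * el Spor.M12 qy = el Spor.M12 qy2 :=
  eq_of_tab (mul_tab qy_t qy_t) qy2_t (by decide +kernel)

theorem closure_l4 : NN Spor.M12 l4 = Subgroup.closure {el Spor.M12 qy, el Spor.M12 qx} := by
  have hy : el Spor.M12 qy ∈ Subgroup.closure {el Spor.M12 qy, el Spor.M12 qx} :=
    Subgroup.subset_closure (Set.mem_insert _ _)
  have hx : el Spor.M12 qx ∈ Subgroup.closure {el Spor.M12 qy, el Spor.M12 qx} :=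
    Subgroup.subset_closure (Set.mem_insert_of_mem _ rfl)
  apply le_antisymm
  · unfold NN
    rw [Subgroup.closure_le]
    rintro g ⟨n, hn, hg⟩
    have hn' : n = qx ∨ n = qx2 ∨ n = qy ∨ n = qy2 := by
      simpa [l4, qx, qx2, qy, qy2] using hn
    rcases hn' with rfl | rfl | rfl | rfl
    · rw [eq_of_tab hg qx_t (Nat.beq_refl _)]; exact hx
    · rw [eq_of_tab hg qx2_t (Nat.beq_refl _), ← qx_sq]; exact Subgroup.mul_mem _ hx hx
    · rw [eq_of_tab hg qy_t (Nat.beq_refl _)]; exact hy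
    · rw [eq_of_tab hg qy2_t (Nat.beq_refl _), ← qy_sq]; exact Subgroup.mul_mem _ hy hy
  · rw [Subgroup.closure_le]
    rintro g (rfl | rfl)
    · exact Subgroup.subset_closure ⟨qy, by decide, qy_t⟩
    · exact Subgroup.subset_closure ⟨qx, by decide, qx_t⟩

theorem l4_comm : commL l4 = true := by decide +kernel

theorem card_l4 : 16 ∣ Nat.card (Subgroup.closure {el Spor.M12 qy, el Spor.M12 qx}) := by
  set x := el Spor.M12 qx with hx
  set y := el Spor.M12 qy with hy
  have hxy : x * y = y * x := eq_of_tab (mul_tab qx_t qy_t) (mul_tab qy_t qx_t) (by decide +kernel)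
  have hx2 : x * x ≠ 1 := by
    rw [hx, qx_sq]
    intro h
    have h1 := isTable_inj (n := qx2) (m := idTab) (σ := ((1 : Spor.M12) : Equiv.Perm GolayPt)) (h ▸ qx2_t) one_tab
      (by decide) (by norm_num)
    exact absurd h1 (by decide +kernel)
  have hx4 : x ^ 4 = 1 := by
    have : x ^ 4 = (x * x) * (x * x) := by simp only [pow_succ, pow_zero, one_mul, mul_assoc]
    rw [this, hx, qx_sq]
    exact eq_of_tab (mul_tab qx2_t qx2_t) one_tab (by decide +kernel)
  have hy4 : (y * y) * (y * y) = 1 := by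
    rw [hy, qy_sq]
    exact eq_of_tab (mul_tab qy2_t qy2_t) one_tab (by decide +kernel)
  have hox : orderOf x = 4 := by
    have : orderOf x = 2 ^ (1 + 1) := orderOf_eq_prime_pow (by rw [pow_one, pow_two]; exact hx2) hx4
    rw [this]; norm_num
  have hfix1 : ∀ g ∈ Subgroup.zpowers x, g • ofMask 1 = ofMask 1 := by
    have h : Subgroup.zpowers x ≤ MulAction.stabilizer Spor.M12 (ofMask 1) := by
      rw [Subgroup.zpowers_le]
      exact smul_mask_eq qx_t (by norm_num) (by decide +kernel)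
    exact fun g hg => h hg
  have hc : ∀ z, Commute z x → ∀ g ∈ Subgroup.zpowers x, z * g * z⁻¹ ∈ Subgroup.zpowers x := by
    rintro z hz _ ⟨i, rfl⟩
    have h1 : Commute z (x ^ i) := hz.zpow_right i
    have h2 : z * x ^ i * z⁻¹ = x ^ i := by rw [h1.eq, mul_inv_cancel_right]
    change z * x ^ i * z⁻¹ ∈ _
    rw [h2]; exact ⟨i, rfl⟩
  have cyx : Commute y x := hxy.symm
  have c1 := (adj_card (C := Subgroup.zpowers x) (x := y * y) Nat.prime_two (hc _ (cyx.mul_left cyx))
    (by rw [pow_two, hy4]; exact Subgroup.one_mem _) (fun h => by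
      have h1 := hfix1 _ h
      rw [hy, qy_sq] at h1
      exact smul_mask_ne qy2_t (m := 1) (by norm_num) (by decide +kernel) h1)).1
  have hfix2 : ∀ g ∈ Subgroup.zpowers x ⊔ Subgroup.zpowers (y * y), g • ofMask 3 = ofMask 3 := by
    have h : Subgroup.zpowers x ⊔ Subgroup.zpowers (y * y) ≤ MulAction.stabilizer Spor.M12 (ofMask 3) := by
      refine sup_le ?_ ?_
      · rw [Subgroup.zpowers_le]
        exact smul_mask_eq qx_t (by norm_num) (by decide +kernel)
      · rw [Subgroup.zpowers_le, hy, qy_sq]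
        exact smul_mask_eq qy2_t (by norm_num) (by decide +kernel)
    exact fun g hg => h hg
  have c2 := (adj_card (C := Subgroup.zpowers x ⊔ Subgroup.zpowers (y * y)) (x := y) Nat.prime_two (by
      have h : Subgroup.zpowers x ⊔ Subgroup.zpowers (y * y) ≤
          (Subgroup.zpowers x ⊔ Subgroup.zpowers (y * y)).comap (MulAut.conj y).toMonoidHom := by
        refine sup_le (fun g hg => (le_sup_left : Subgroup.zpowers x ≤ _) (hc y cyx g hg)) ?_
        rw [Subgroup.zpowers_le]
        change y * (y * y) * y⁻¹ ∈ Subgroup.zpowers x ⊔ Subgroup.zpowers (y * y)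
        rw [show y * (y * y) * y⁻¹ = y * y from by group]
        exact (le_sup_right : Subgroup.zpowers (y * y) ≤ Subgroup.zpowers x ⊔ Subgroup.zpowers (y * y))
          (Subgroup.mem_zpowers _)
      exact fun g hg => h hg)
    (by
      rw [pow_two]
      exact (le_sup_right : Subgroup.zpowers (y * y) ≤ Subgroup.zpowers x ⊔ Subgroup.zpowers (y * y))
        (Subgroup.mem_zpowers _)) (fun h => by
      have h1 := hfix2 _ h
      rw [hy] at h1
      exact smul_mask_ne qy_t (m := 3) (by norm_num) (by decide +kernel) h1)).1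
  rw [c1, Nat.card_zpowers, hox] at c2
  have hle : Subgroup.zpowers x ⊔ Subgroup.zpowers (y * y) ⊔ Subgroup.zpowers y ≤ Subgroup.closure {y, x} := by
    have h1 : y ∈ Subgroup.closure {y, x} := Subgroup.subset_closure (Set.mem_insert _ _)
    have h2 : x ∈ Subgroup.closure {y, x} := Subgroup.subset_closure (Set.mem_insert_of_mem _ rfl)
    refine sup_le (sup_le ?_ ?_) ?_
    · rw [Subgroup.zpowers_le]; exact h2
    · rw [Subgroup.zpowers_le]; exact Subgroup.mul_mem _ h1 h1
    · rw [Subgroup.zpowers_le]; exact h1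
  have h3 := Subgroup.card_dvd_of_le hle
  rw [c2] at h3
  exact h3

theorem card_M12' : Nat.card Spor.M12 = 95040 := by
  rw [← Mst_eq_M12]
  exact card_Mst squareDodecad_mem

/-- In a stem extension with kernel of order 2 the lifts of the involution `qj` have order 4. -/
theorem m12_key {Γ : Type} [Group Γ] [Finite Γ] {σ : Γ →* Spor.M12} (hσ : IsStemExtension σ)
    (h2 : Nat.card σ.ker = 2) (t : Γ) (ht : σ t = el Spor.M12 qj) : t * t ≠ 1 := by
  intro htt
  have hjj : el Spor.M12 qj * el Spor.M12 qj = 1 := eq_of_tab (mul_tab qj_t qj_t) one_tab (by decide +kernel)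
  have hvv : el Spor.M12 qv * el Spor.M12 qv = 1 := eq_of_tab (mul_tab qv_t qv_t) one_tab (by decide +kernel)
  have hA : ∀ a, CP qj a → ∀ r : Γ, σ r = a → r * r = 1 := by
    rintro a ⟨g, hg⟩ r hr
    rw [← sq_eq_of_conj hσ h2 (x := t) (y := r) (by rw [ht, hjj]) g (by rw [ht, hg, hr])]
    exact htt
  have hB : ∀ a, CP qv a → ∀ r : Γ, σ r = a → r * r = 1 := by
    intro a ha r hr
    refine inv_lift hσ h2 (P := CP qv) cp_conj (cp_sq hvv) (el Spor.M12 qv) (el Spor.M12 qw) (el Spor.M12 qz)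
      ⟨1, by group⟩ (cp_tab (c := qc_w) qv_t qw_t (by decide +kernel) (by decide +kernel))
      (cp_tab (c := qc_z) qv_t qz_t (by decide +kernel) (by decide +kernel))
      (cp_tab (c := qc_vw) qv_t (mul_tab qv_t qw_t) (by decide +kernel) (by decide +kernel))
      (cp_tab (c := qc_vz) qv_t (mul_tab qv_t qz_t) (by decide +kernel) (by decide +kernel))
      (cp_tab (c := qc_wz) qv_t (mul_tab qw_t qz_t) (by decide +kernel) (by decide +kernel))
      (cp_tab (c := qc_vwz) qv_t (mul_tab (mul_tab qv_t qw_t) qz_t) (by decide +kernel) (by decide +kernel)) ?_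
    rw [hr]; exact ha
  have hτ3 : el Spor.M12 qt * el Spor.M12 qt * el Spor.M12 qt = 1 :=
    eq_of_tab (mul_tab (mul_tab qt_t qt_t) qt_t) one_tab (by decide +kernel)
  have hτN := NN_conj l4_inSub qt_t (ks := qtk) (by decide +kernel)
  have hsN := NN_conj l4_inSub qs_t (ks := qsk) (by decide +kernel)
  have hfpf := NN_fpf l4_comm qt_t hτ3 (by decide +kernel) hτN
  rw [closure_l4] at hτN hsN hfpf
  refine four_sq_false hσ h2 (x := el Spor.M12 qy) (y := el Spor.M12 qx) (j := el Spor.M12 qj) (τ := el Spor.M12 qt)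
    (s := el Spor.M12 qs) (eq_of_tab (mul_tab qy_t qx_t) (mul_tab qx_t qy_t) (by decide +kernel))
    (hA _ ⟨1, by group⟩)
    (hB _ (cp_tab (c := qc_jy) qv_t (mul_tab qj_t qy_t) (by decide +kernel) (by decide +kernel)))
    (hB _ (cp_tab (c := qc_jx) qv_t (mul_tab qj_t qx_t) (by decide +kernel) (by decide +kernel)))
    (hB _ (cp_tab (c := qc_jxy) qv_t (mul_tab qj_t (mul_tab qy_t qx_t)) (by decide +kernel) (by decide +kernel)))
    (hA _ (cp_tab (c := qc_s) qj_t qs_t (by decide +kernel) (by decide +kernel)))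
    (hA _ (cp_tab (c := qc_js) qj_t (mul_tab qj_t qs_t) (by decide +kernel) (by decide +kernel)))
    (conj_inv_eq qj_t qy_t (by decide +kernel)) (conj_inv_eq qj_t qx_t (by decide +kernel)) hτ3 hτN hfpf
    (conj_eq qj_t qt_t qt_t (by decide +kernel)) (conj_inv_eq qs_t qt_t (by decide +kernel)) hsN
    (eq_of_tab (mul_tab qs_t qj_t) (mul_tab qj_t qs_t) (by decide +kernel)) ?_ ?_ ?_ (k := 6) (m := 1485)
    (by rw [card_M12']; norm_num) (by norm_num) ?_
  · rw [qy_sq]
    intro h
    have h1 := isTable_inj (n := qy2) (m := idTab) (σ := ((1 : Spor.M12) : Equiv.Perm GolayPt)) (h ▸ qy2_t) one_tab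
      (by decide) (by norm_num)
    exact absurd h1 (by decide +kernel)
  · intro h
    rw [mul_inv_eq_iff_eq_mul] at h
    have h1 := mul_tab qs_t qy_t
    rw [h] at h1
    have h2 := isTable_inj h1 (mul_tab qy_t qs_t) (pmul_lt _ _) (pmul_lt _ _)
    exact absurd h2 (by decide +kernel)
  · intro h
    rw [mul_inv_eq_iff_eq_mul, eq_inv_mul_iff_mul_eq] at h
    have h1 := mul_tab qy_t (mul_tab qs_t qy_t)
    rw [h] at h1
    have h2 := isTable_inj h1 qs_t (pmul_lt _ _) (by decide)
    exact absurd h2 (by decide +kernel)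
  · obtain ⟨r, hr⟩ := card_l4
    rw [hr]
    exact ⟨r, by ring⟩

theorem m12_no_four {Γ : Type} [Group Γ] [Finite Γ] {σ : Γ →* Spor.M12} (hσ : IsStemExtension σ) :
    Nat.card σ.ker ≠ 4 := by
  intro h4
  have hu1 : el Spor.M12 qc_u1 * el Spor.M12 qj * (el Spor.M12 qc_u1)⁻¹ = el Spor.M12 qu1 :=
    conj_eq (t12 (by decide +kernel)) qj_t qu1_t (by decide +kernel)
  refine no_four hσ h4 (u := el Spor.M12 qj) (g₁ := el Spor.M12 qc_u1) (g₂ := el Spor.M12 qc_u2)
    (eq_of_tab (mul_tab qj_t qj_t) one_tab (by decide +kernel)) ?_ ?_ ?_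
  · rw [hu1]
    exact eq_of_tab (mul_tab qj_t qu1_t) (mul_tab qu1_t qj_t) (by decide +kernel)
  · rw [hu1]
    exact conj_eq (t12 (by decide +kernel)) qj_t (mul_tab qj_t qu1_t) (by decide +kernel)
  · intro Γ' _ _ σ' hσ' hc t ht
    exact m12_key hσ' hc t ht

theorem m12_three {Γ : Type} [Group Γ] [Finite Γ] {σ : Γ →* Spor.M12} (hσ : IsStemExtension σ)
    (h3 : Nat.card σ.ker = 3) : False :=
  three_27 (inSub12 (by decide +kernel) (by decide +kernel)) (inSub12 (by decide +kernel) (by decide +kernel))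
    (inSub12 (by decide +kernel) (by decide +kernel)) (inSub12 (by decide +kernel) (by decide +kernel))
    (inSub12 (by decide +kernel) (by decide +kernel)) (m := 3520) (by rw [card_M12']; norm_num)
    (by norm_num) hσ h3

/-- The kernel of a stem extension of `M12` has order at most 2. -/
theorem m12_upper {Γ : Type} [Group Γ] [Finite Γ] {σ : Γ →* Spor.M12} (hσ : IsStemExtension σ) :
    Nat.card σ.ker ∣ 2 := by
  have hprime : ∀ p : ℕ, p.Prime → p ∣ Nat.card σ.ker → p = 2 := by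
    intro p hp hd
    have : Fact p.Prime := ⟨hp⟩
    by_contra hne
    by_cases h4 : p ^ 2 ∣ Nat.card Spor.M12
    · obtain ⟨Γ', i1, i2, σ', hσ', hc⟩ := exists_prime_ker hσ hd
      rw [card_M12'] at h4
      have h1 : p ∣ 2 ^ 6 * 3 ^ 3 * 5 * 11 := by
        have : (95040 : ℕ) = 2 ^ 6 * 3 ^ 3 * 5 * 11 := by norm_num
        rw [← this]
        exact (dvd_pow_self p two_ne_zero).trans h4
      rcases hp.dvd_mul.1 h1 with h1 | h1
      · rcases hp.dvd_mul.1 h1 with h1 | h1
        · rcases hp.dvd_mul.1 h1 with h1 | h1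
          · exact hne ((Nat.prime_dvd_prime_iff_eq hp Nat.prime_two).1 (hp.dvd_of_dvd_pow h1))
          · have := (Nat.prime_dvd_prime_iff_eq hp Nat.prime_three).1 (hp.dvd_of_dvd_pow h1)
            subst this
            exact @m12_three Γ' i1 i2 σ' hσ' hc
        · have := (Nat.prime_dvd_prime_iff_eq hp (by norm_num)).1 h1
          subst this
          exact absurd h4 (by norm_num)
      · have := (Nat.prime_dvd_prime_iff_eq hp (by norm_num)).1 h1
        subst this
        exact absurd h4 (by norm_num)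
    · exact not_dvd_of_sq hσ h4 hd
  have hn : 0 < Nat.card σ.ker := Nat.card_pos
  have h4 : ¬ 4 ∣ Nat.card σ.ker := by
    intro h
    obtain ⟨Γ', i1, i2, σ', hσ', hc⟩ := exists_ker_dvd hσ h
    exact @m12_no_four Γ' i1 i2 σ' hσ' hc
  by_cases h1 : Nat.card σ.ker = 1
  · rw [h1]; exact one_dvd _
  obtain ⟨p, hp, hd⟩ := Nat.exists_prime_and_dvd h1
  have := hprime p hp hd
  subst this
  obtain ⟨m, hm⟩ := hd
  by_cases hm1 : m = 1
  · rw [hm, hm1]
  obtain ⟨q, hq, hqd⟩ := Nat.exists_prime_and_dvd hm1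
  have hq2 := hprime q hq (by rw [hm]; exact hqd.mul_left 2)
  subst hq2
  obtain ⟨r, hr⟩ := hqd
  exact absurd ⟨r, by rw [hm, hr]; ring⟩ h4

end Cfsg.Agent.H90.Tab
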